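import Mathlib

/-!
# The order of a block triangular subgroup of `GLₙ(q)`
-/

set_option autoImplicit false

open Matrix Finset

namespace CfsgLib.KnownSimple

/-- The `q`-factorial `∏_{j<m} (1 + q + ⋯ + q^j)`. -/
def qFact (q m : ℕ) : ℕ := ∏ j ∈ range m, ∑ l ∈ range (j + 1), q ^ l

/-- `q^(m choose 2) (q - 1)^m [m]!`. -/
def glOrder (q m : ℕ) : ℕ := q ^ (m.choose 2) * (q - 1) ^ m * qFact q m

lemma pow_sub_one_eq (r m : ℕ) : (r + 1) ^ m - 1 = r * ∑ l ∈ range m, (r + 1) ^ l := by
  induction m with
  | zero => simp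
  | succ m ih =>
    rw [sum_range_succ, mul_add, ← ih, pow_succ, mul_add, mul_one]
    have : 1 ≤ (r + 1) ^ m := Nat.one_le_pow _ _ (by omega)
    rw [mul_comm r]
    omega

lemma prod_pow_sub_eq {q : ℕ} (hq : 1 ≤ q) :
    ∀ m : ℕ, ∏ i ∈ range m, (q ^ m - q ^ i) = glOrder q m := by
  obtain ⟨r, rfl⟩ : ∃ r, q = r + 1 := ⟨q - 1, by omega⟩
  intro m
  induction m with
  | zero => simp [glOrder, qFact]
  | succ m ih =>
    rw [prod_range_succ']
    have h1 : ∏ i ∈ range m, ((r + 1) ^ (m + 1) - (r + 1) ^ (i + 1)) =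
        (r + 1) ^ m * ∏ i ∈ range m, ((r + 1) ^ m - (r + 1) ^ i) := by
      rw [show (r + 1) ^ m = ∏ _i ∈ range m, (r + 1) by rw [prod_const, card_range],
        ← prod_mul_distrib]
      refine prod_congr rfl fun i _ => ?_
      rw [prod_const, card_range, Nat.mul_sub, pow_succ', pow_succ']
    rw [h1, ih, pow_zero, pow_sub_one_eq]
    simp only [glOrder, qFact, Nat.add_sub_cancel, prod_range_succ, Nat.choose_succ_succ',
      Nat.choose_one_right, pow_add, pow_succ]
    ring

variable {F : Type*} [Field F] [Finite F]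

lemma card_invertible (κ : Type) [Fintype κ] [DecidableEq κ] :
    Nat.card {M : Matrix κ κ F // M.det ≠ 0} = glOrder (Nat.card F) (Fintype.card κ) := by
  classical
  have : Fintype F := Fintype.ofFinite F
  let e : κ ≃ Fin (Fintype.card κ) := Fintype.equivFin κ
  have h1 : {M : Matrix κ κ F // M.det ≠ 0} ≃ GL (Fin (Fintype.card κ)) F :=
    ((Matrix.reindex e e).subtypeEquiv (q := fun M => M.det ≠ 0) fun M => by
      rw [Matrix.det_reindex_self]).trans
      { toFun := fun M => Matrix.GeneralLinearGroup.mkOfDetNeZero M.1 M.2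
        invFun := fun g => ⟨g, (g.isUnit.map Matrix.detMonoidHom).ne_zero⟩
        left_inv := fun M => rfl
        right_inv := fun g => Units.ext rfl }
  rw [Nat.card_congr h1, Matrix.card_GL_field, Nat.card_eq_fintype_card,
    ← prod_pow_sub_eq Fintype.card_pos,
    Fin.prod_univ_eq_prod_range (fun i => Fintype.card F ^ Fintype.card κ - Fintype.card F ^ i)]

omit [Finite F] in
lemma blockTriangular_fromBlocks_iff {ι κ : Type} [Fintype ι] [Fintype κ] {b : ι ⊕ κ → ℕ} {N : ℕ}
    (hι : ∀ i, b (Sum.inl i) < N) (hκ : ∀ j, b (Sum.inr j) = N) (A : Matrix ι ι F)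
    (B : Matrix ι κ F) (C : Matrix κ ι F) (D : Matrix κ κ F) :
    (Matrix.fromBlocks A B C D).BlockTriangular b ↔ A.BlockTriangular (b ∘ Sum.inl) ∧ C = 0 := by
  constructor
  · intro h
    refine ⟨fun i j hij => by simpa using h (i := Sum.inl i) (j := Sum.inl j) hij, ?_⟩
    ext i j
    simpa using h (i := Sum.inr i) (j := Sum.inl j) (by rw [hκ]; exact hι j)
  · rintro ⟨hA, rfl⟩
    rintro (i | i) (j | j) hij
    · simpa using hA hij
    · rw [hκ] at hij; exact absurd hij (by have := hι i; omega)
    · simp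
    · rw [hκ, hκ] at hij; exact absurd hij (lt_irrefl _)

/-- The number of invertible block triangular matrices. -/
theorem card_blockTriangular : ∀ (N : ℕ) (ι : Type) [Fintype ι] [DecidableEq ι] (b : ι → ℕ),
    (∀ i, b i < N) → Nat.card {M : Matrix ι ι F // M.BlockTriangular b ∧ M.det ≠ 0} =
      (Nat.card F) ^ ((Fintype.card ι).choose 2) * (Nat.card F - 1) ^ Fintype.card ι *
        ∏ k ∈ range N, qFact (Nat.card F) (univ.filter fun i => b i = k).card := by
  classical
  intro N
  induction N with
  | zero =>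
    intro ι _ _ b hb
    have : IsEmpty ι := ⟨fun i => Nat.not_lt_zero _ (hb i)⟩
    have : Unique {M : Matrix ι ι F // M.BlockTriangular b ∧ M.det ≠ 0} :=
      ⟨⟨⟨0, fun i => isEmptyElim i, by simp⟩⟩, fun x => Subtype.ext (Subsingleton.elim _ _)⟩
    rw [Nat.card_unique, Fintype.card_eq_zero]
    simp
  | succ N ih =>
    intro ι _ _ b hb
    let L := {i : ι // b i < N}
    let T := {i : ι // ¬ b i < N}
    have hT : ∀ j : T, b j.1 = N := fun j => by have := hb j.1; have := j.2; omega
    let e : L ⊕ T ≃ ι := Equiv.sumCompl _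
    let b' : L ⊕ T → ℕ := b ∘ e
    have hL : ∀ i : L, b' (Sum.inl i) < N := fun i => i.2
    have hT' : ∀ j : T, b' (Sum.inr j) = N := hT
    let E : {M : Matrix ι ι F // M.BlockTriangular b ∧ M.det ≠ 0} ≃
        {M : Matrix (L ⊕ T) (L ⊕ T) F // M.BlockTriangular b' ∧ M.det ≠ 0} :=
      (Matrix.reindex e.symm e.symm).subtypeEquiv fun M => by
        rw [Matrix.det_reindex_self]
        refine and_congr_left fun _ => ⟨fun h i j hij => h hij, fun h i j hij => ?_⟩
        have := h (i := e.symm i) (j := e.symm j) (by simpa [b'] using hij)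
        simpa using this
    let E' : {M : Matrix (L ⊕ T) (L ⊕ T) F // M.BlockTriangular b' ∧ M.det ≠ 0} ≃
        {A : Matrix L L F // A.BlockTriangular (b' ∘ Sum.inl) ∧ A.det ≠ 0} ×
          {D : Matrix T T F // D.det ≠ 0} × Matrix L T F :=
      { toFun := fun M =>
          have h := (blockTriangular_fromBlocks_iff hL hT' M.1.toBlocks₁₁ M.1.toBlocks₁₂
            M.1.toBlocks₂₁ M.1.toBlocks₂₂).1 (by rw [Matrix.fromBlocks_toBlocks]; exact M.2.1)
          have hd : M.1.toBlocks₁₁.det * M.1.toBlocks₂₂.det ≠ 0 := by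
            have := M.2.2
            rw [← Matrix.fromBlocks_toBlocks M.1, h.2, Matrix.det_fromBlocks_zero₂₁] at this
            exact this
          (⟨M.1.toBlocks₁₁, h.1, left_ne_zero_of_mul hd⟩,
            ⟨M.1.toBlocks₂₂, right_ne_zero_of_mul hd⟩, M.1.toBlocks₁₂)
        invFun := fun x => ⟨Matrix.fromBlocks x.1.1 x.2.2 0 x.2.1.1,
          (blockTriangular_fromBlocks_iff hL hT' _ _ _ _).2 ⟨x.1.2.1, rfl⟩, by
            rw [Matrix.det_fromBlocks_zero₂₁]; exact mul_ne_zero x.1.2.2 x.2.1.2⟩
        left_inv := fun M => Subtype.ext (by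
          have h := (blockTriangular_fromBlocks_iff hL hT' M.1.toBlocks₁₁ M.1.toBlocks₁₂
            M.1.toBlocks₂₁ M.1.toBlocks₂₂).1 (by rw [Matrix.fromBlocks_toBlocks]; exact M.2.1)
          conv_rhs => rw [← Matrix.fromBlocks_toBlocks M.1, h.2])
        right_inv := fun x => by simp }
    rw [Nat.card_congr (E.trans E'), Nat.card_prod, Nat.card_prod, ih L (b' ∘ Sum.inl) hL, card_invertible T]
    have hBcard : Nat.card (Matrix L T F) = Nat.card F ^ (Fintype.card L * Fintype.card T) := by
      rw [Nat.card_congr (Matrix.of (m := L) (n := T) (α := F)).symm, Nat.card_fun, Nat.card_fun,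
        Nat.card_eq_fintype_card (α := L), Nat.card_eq_fintype_card (α := T), ← pow_mul, mul_comm]
    have hsum : Fintype.card ι = Fintype.card L + Fintype.card T := by
      rw [← Fintype.card_sum]; exact (Fintype.card_congr e).symm
    have hTc : (univ.filter fun i => b i = N).card = Fintype.card T := by
      rw [Fintype.card_subtype]
      congr 1
      exact Finset.filter_congr fun i _ => by have := hb i; omega
    have hLc : ∀ k ∈ range N, (univ.filter fun i : L => (b' ∘ Sum.inl) i = k).card =
        (univ.filter fun i => b i = k).card := by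
      intro k hk
      rw [mem_range] at hk
      refine Finset.card_bij' (fun i _ => i.1) (fun i hi => ⟨i, by
        rw [(mem_filter.1 hi).2]; exact hk⟩) ?_ ?_ ?_ ?_
      · intro i hi; simpa [b', e, Equiv.sumCompl] using hi
      · intro i hi; simpa [b', e, Equiv.sumCompl] using hi
      · intro i _; rfl
      · intro i _; rfl
    rw [hBcard, prod_range_succ, hTc, prod_congr rfl (fun k hk => by rw [hLc k hk]), hsum,
      Nat.add_choose_eq, Finset.Nat.sum_antidiagonal_eq_sum_range_succ
        (fun i j => (Fintype.card L).choose i * (Fintype.card T).choose j)]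
    simp only [Finset.sum_range_succ, Finset.range_zero, Finset.sum_empty, Nat.choose_zero_right,
      Nat.choose_one_right, glOrder, Nat.sub_zero, Nat.reduceSub, one_mul, mul_one]
    ring

end CfsgLib.KnownSimple
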