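import Cfsg.Agent.Lib.ClassicalForms.Unitary.Card
import Cfsg.Agent.Lib.Forms.Hermitian

/-!
An element of small prime order commuting with a non-trivial unipotent isometry of a Hermitian space.
-/

set_option autoImplicit false

namespace CfsgLib.KnownSimple.CommutingPUnitary

open Module CfsgLib.ClassicalForms CfsgLib.Geometric

variable {F V : Type*} [Field F] [Finite F] [AddCommGroup V] [Module F V] [FiniteDimensional F V] {q : ℕ}

omit [FiniteDimensional F V] in
/-- An isometry of prime order of a Hermitian space whose unitary group has prime order to it is trivial. -/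
lemma isometry_eq_id_of_not_dvd [FiniteDimensional F V] (c : Conj F q) (B : V →ₛₗ[c.σ] V →ₗ[F] F)
    (hS : B.IsSymm) (U : Submodule F V) (hnd : ∀ w ∈ U, (∀ w' ∈ U, B w w' = 0) → w = 0)
    (x : Module.End F V) (hxU : ∀ v ∈ U, x v ∈ U) (hB : ∀ v ∈ U, ∀ w ∈ U, B (x v) (x w) = B v w)
    {r : ℕ} (hr : r.Prime) (hxr : ∀ v ∈ U, (x ^ r) v = v)
    (hdvd : ¬ r ∣ Nat.card (Cfsg.GU (finrank F U) F q)) : ∀ v ∈ U, x v = v := by
  classical
  obtain ⟨v, hvU, hv⟩ :=
    CfsgLib.Forms.exists_orthonormal_family c.σ c.ne c.invol B hS _ U rfl hnd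
  let φ₀ : (Fin (finrank F U) → F) →ₗ[F] U :=
    (Fintype.linearCombination F v).codRestrict U fun a => by
      rw [Fintype.linearCombination_apply]
      exact U.sum_mem fun i _ => U.smul_mem _ (hvU i)
  have hφB : ∀ a b, B (φ₀ a : V) (φ₀ b : V) = Cfsg.hermForm _ F q b a := by
    intro a b
    simp only [φ₀, LinearMap.codRestrict_apply, Fintype.linearCombination_apply, c.herm_apply, map_sum,
      map_smulₛₗ, LinearMap.sum_apply, LinearMap.smul_apply, smul_eq_mul, RingHom.id_apply, hv, mul_ite,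
      mul_one, mul_zero, Finset.sum_ite_eq', Finset.mem_univ, if_true]
  have hφinj : Function.Injective φ₀ := (injective_iff_map_eq_zero φ₀).2 fun a ha =>
    c.ext_right (y := 0) fun b => by rw [← hφB, ha, c.zero_left]; simp
  let φ := LinearEquiv.ofBijective φ₀ ⟨hφinj,
    (LinearMap.injective_iff_surjective_of_finrank_eq_finrank (finrank_fin_fun F)).1 hφinj⟩
  let xU : Module.End F U := x.restrict hxU
  have hxUr : xU ^ r = 1 := LinearMap.ext fun w => Subtype.ext (by
    rw [Module.End.pow_restrict (h := hxU), Module.End.one_apply]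
    exact hxr _ w.2)
  let xe : U ≃ₗ[F] U := LinearEquiv.ofBijective xU
    ((Module.End.isUnit_iff xU).1 (IsUnit.of_pow_eq_one hxUr hr.ne_zero))
  let e : (Fin (finrank F U) → F) ≃ₗ[F] (Fin (finrank F U) → F) := φ.trans (xe.trans φ.symm)
  have hφe : ∀ a, φ₀ (e a) = xU (φ₀ a) := fun a => by
    show φ (φ.symm (xU (φ a))) = xU (φ a)
    rw [LinearEquiv.apply_symm_apply]
  have he : ∀ a b, Cfsg.hermForm _ F q (e a) (e b) = Cfsg.hermForm _ F q a b := fun a b => by
    rw [← hφB, ← hφB, hφe, hφe]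
    exact hB _ (φ₀ b).2 _ (φ₀ a).2
  set g := guOfEquiv e he with hg
  have hpow : ∀ (k : ℕ) a, φ₀ (ap ((g ^ k : Cfsg.GU _ F q) : GL (Fin _) F) a) = (xU ^ k) (φ₀ a) := by
    intro k
    induction k with
    | zero => intro a; simp [ap_one]
    | succ k ih =>
      intro a
      rw [pow_succ, Subgroup.coe_mul, ap_mul, ih, hg, ap_guOfEquiv, hφe, pow_succ, Module.End.mul_apply]
  have hgr : g ^ r = 1 := gu_ext fun a => hφinj (by
    rw [hpow, hxUr, Module.End.one_apply]; simp [ap_one])
  have hg1 : g = 1 := by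
    rcases (Nat.dvd_prime hr).1 (orderOf_dvd_of_pow_eq_one hgr) with ho | ho
    · exact orderOf_eq_one_iff.1 ho
    · exact absurd (ho ▸ orderOf_dvd_natCard g) hdvd
  intro w hw
  obtain ⟨a, ha⟩ := φ.surjective ⟨w, hw⟩
  have h1 := hpow 1 a
  rw [hg1, one_pow, pow_one] at h1
  simp only [Subgroup.coe_one, ap_one] at h1
  change φ₀ a = xU (φ₀ a) at h1
  rw [show φ₀ a = ⟨w, hw⟩ from ha] at h1
  exact (congrArg Subtype.val h1).symm

variable (c : Conj F q) (B : V →ₛₗ[c.σ] V →ₗ[F] F) (x u : Module.End F V)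

omit [Finite F] [FiniteDimensional F V] in
/-- On an invariant subspace where a unipotent isometry is non-trivial some power of `u - 1` is a
self-adjoint or skew map of square zero. -/
lemma exists_top_power (hu : ∀ v w, B (u v) (u w) = B v w) (hnil : IsNilpotent (u - 1)) (U : Submodule F V)
    (huU : ∀ v ∈ U, (u - 1) v ∈ U) (hne : ∃ v ∈ U, (u - 1) v ≠ 0) :
    ∃ (k : ℕ) (ε : F), 1 ≤ k ∧ (ε = 1 ∨ ε = -1) ∧ (∃ v ∈ U, ((u - 1) ^ k) v ≠ 0) ∧
      (∀ v ∈ U, ((u - 1) ^ k) v ∈ U) ∧ (∀ v ∈ U, ((u - 1) ^ k) (((u - 1) ^ k) v) = 0) ∧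
      ∀ v ∈ U, ∀ w ∈ U, B (((u - 1) ^ k) v) w = ε * B v (((u - 1) ^ k) w) := by
  classical
  set N := u - 1 with hN
  have hUpow : ∀ j, ∀ v ∈ U, (N ^ j) v ∈ U := by
    intro j
    induction j with
    | zero => intro v hv; simpa using hv
    | succ j ih => intro v hv; rw [pow_succ', Module.End.mul_apply]; exact huU _ (ih v hv)
  obtain ⟨n, hn⟩ := hnil
  have hex : ∃ j, ∀ v ∈ U, (N ^ j) v = 0 := ⟨n, fun v _ => by rw [hn, LinearMap.zero_apply]⟩
  set j₀ := Nat.find hex
  have hj2 : 2 ≤ j₀ := by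
    obtain ⟨v, hv, hv0⟩ := hne
    by_contra hlt
    have h := Nat.find_spec hex v hv
    rcases (by omega : j₀ = 0 ∨ j₀ = 1) with h0 | h0
    · rw [show Nat.find hex = 0 from h0, pow_zero, Module.End.one_apply] at h
      exact hv0 (by rw [h, map_zero])
    · rw [show Nat.find hex = 1 from h0, pow_one] at h
      exact hv0 h
  obtain ⟨k, hk⟩ : ∃ k, j₀ = k + 1 := ⟨j₀ - 1, by omega⟩
  have htop : ∀ v ∈ U, (N ^ (k + 1)) v = 0 := hk ▸ Nat.find_spec hex
  have huN : ∀ v, u v = v + N v := fun v => by simp [hN]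
  have step : ∀ v w, B (N v) w = - B (u v) (N w) := by
    intro v w
    have h := hu v w
    rw [huN w, map_add, huN v, map_add, LinearMap.add_apply, LinearMap.add_apply] at h
    rw [huN v, map_add, LinearMap.add_apply]
    linear_combination h
  have huU' : ∀ v ∈ U, u v ∈ U := fun v hv => by rw [huN]; exact U.add_mem hv (huU v hv)
  have hcomm : ∀ j v, (N ^ j) (u v) = u ((N ^ j) v) := fun j v => by
    rw [huN, map_add, huN, ← Module.End.mul_apply, ← pow_succ, ← Module.End.mul_apply N, ← pow_succ']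
  have iter : ∀ (j : ℕ) v w, B ((N ^ j) v) w = (-1) ^ j * B ((u ^ j) v) ((N ^ j) w) := by
    intro j
    induction j with
    | zero => intro v w; simp
    | succ j ih =>
      intro v w
      rw [pow_succ' N j, Module.End.mul_apply, step, ← hcomm, ih, pow_succ u j, Module.End.mul_apply,
        ← Module.End.mul_apply (N ^ j) N, ← pow_succ N j, ← pow_succ' N j, pow_succ (-1 : F)]
      ring
  have habs : ∀ (j : ℕ), ∀ v ∈ U, ∀ w ∈ U, B ((u ^ j) v) ((N ^ k) w) = B v ((N ^ k) w) := by
    intro j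
    induction j with
    | zero => intro v _ w _; simp
    | succ j ih =>
      intro v hv w hw
      rw [pow_succ, Module.End.mul_apply, ih _ (huU' v hv) w hw, huN, map_add, LinearMap.add_apply, step,
        ← Module.End.mul_apply N (N ^ k), ← pow_succ', htop w hw]
      simp
  refine ⟨k, (-1) ^ k, by omega, neg_one_pow_eq_or F k, ?_, hUpow k, fun v hv => ?_, fun v hv w hw => ?_⟩
  · have h := Nat.find_min hex (show k < j₀ by omega)
    push Not at h
    exact h
  · rw [← Module.End.mul_apply, ← pow_add, show k + k = (k - 1) + (k + 1) by omega, pow_add,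
      Module.End.mul_apply, htop v hv, map_zero]
  · rw [iter, habs k v hv w hw]

/-- If `r` is prime to the orders of `GU_d` for `d ≤ dim V - 2`, an isometry of order dividing `r`
commuting with a non-trivial unipotent isometry is trivial. -/
theorem eq_one_of_commute (hS : B.IsSymm) (hnd : ∀ v, (∀ w, B v w = 0) → v = 0) {r : ℕ} (hr : r.Prime)
    (hrF : (r : F) ≠ 0) (hV : 4 ≤ finrank F V)
    (hsmall : ∀ d, d + 2 ≤ finrank F V → ¬ r ∣ Nat.card (Cfsg.GU d F q))
    (hx : x ^ r = 1) (hxB : ∀ v w, B (x v) (x w) = B v w) (hu : ∀ v w, B (u v) (u w) = B v w)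
    (hc : Commute x u) (hnil : IsNilpotent (u - 1)) (hu1 : u ≠ 1) : x = 1 := by
  classical
  set N := u - 1 with hN
  have hcN : ∀ v, x (N v) = N (x v) := fun v =>
    DFunLike.congr_fun (Commute.sub_right hc (Commute.one_right x)).eq v
  set V1 := LinearMap.ker (x - 1) with hV1
  set V2 := LinearMap.range (x - 1) with hV2
  have hfix : ∀ v ∈ V1, x v = v := fun v hv => sub_eq_zero.1 (by simpa [hV1] using hv)
  have hdisj : Disjoint V1 V2 := by
    rw [Submodule.disjoint_def]
    rintro w hw ⟨v, rfl⟩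
    set w := (x - 1) v with hwdef
    have hiter : ∀ i : ℕ, (x ^ i) v = v + (i : F) • w := by
      intro i
      induction i with
      | zero => simp
      | succ i ih =>
        rw [pow_succ', Module.End.mul_apply, ih, map_add, map_smul, hfix w hw, Nat.cast_succ, add_smul, one_smul,
          hwdef]
        simp only [LinearMap.sub_apply, Module.End.one_apply]
        abel
    have h := hiter r
    rw [hx, Module.End.one_apply, left_eq_add] at h
    exact (smul_eq_zero.1 h).resolve_left hrF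
  have htop : V1 ⊔ V2 = ⊤ := Submodule.eq_top_of_disjoint _ _
    (by rw [add_comm, hV1, hV2, LinearMap.finrank_range_add_finrank_ker]) hdisj
  have horth : ∀ v ∈ V1, ∀ w ∈ V2, B v w = 0 := by
    rintro v hv _ ⟨w, rfl⟩
    rw [LinearMap.sub_apply, Module.End.one_apply, map_sub]
    nth_rewrite 1 [← hfix v hv]
    rw [hxB, sub_self]
  have hnd2 : ∀ w ∈ V2, (∀ w' ∈ V2, B w w' = 0) → w = 0 := by
    refine fun w hw h => hnd w fun y => ?_
    obtain ⟨a, ha, b, hb, rfl⟩ := Submodule.mem_sup.1 (htop ▸ Submodule.mem_top (x := y))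
    rw [map_add, h b hb, add_zero, ← hS.eq, horth a ha w hw, map_zero]
  have hxV2 : ∀ v ∈ V2, x v ∈ V2 := by
    rintro _ ⟨v, rfl⟩; exact ⟨x v, by simp⟩
  have hNV2 : ∀ v ∈ V2, N v ∈ V2 := by
    rintro _ ⟨v, rfl⟩
    refine ⟨N v, ?_⟩
    simp only [LinearMap.sub_apply, Module.End.one_apply, map_sub, hcN]
  have hNV1 : ∀ v ∈ V1, N v ∈ V1 := by
    intro v hv
    rw [hV1, LinearMap.mem_ker, LinearMap.sub_apply, Module.End.one_apply, hcN, hfix v hv, sub_self]
  have hxr : ∀ v, (x ^ r) v = v := fun v => by rw [hx, Module.End.one_apply]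
  -- the unipotent map is trivial on the moved space
  have hV2N : ∀ v ∈ V2, N v = 0 := by
    by_contra hne
    push Not at hne
    obtain ⟨k, ε, hk, hε, ⟨v₀, hv₀, hv₀'⟩, hTU, hT2, hadj⟩ := exists_top_power c B u hu hnil V2 hNV2 hne
    set T := (u - 1) ^ k with hT
    set W := V2.map T with hW
    have hWV : W ≤ V2 := by rintro _ ⟨v, hv, rfl⟩; exact hTU v hv
    have hxT : ∀ v, x (T v) = T (x v) := fun v =>
      DFunLike.congr_fun ((Commute.sub_right hc (Commute.one_right x)).pow_right k).eq v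
    obtain ⟨S, hS'⟩ := (T.restrict (q := W) fun v (hv : v ∈ V2) => ⟨v, hv, rfl⟩).exists_rightInverse_of_surjective
      (LinearMap.range_eq_top.2 (by rintro ⟨_, v, hv, rfl⟩; exact ⟨⟨v, hv⟩, rfl⟩))
    have hTS : ∀ w : W, T (S w : V) = w := fun w =>
      congrArg Subtype.val (DFunLike.congr_fun hS' w)
    obtain ⟨a, ha0, ha⟩ : ∃ a : F, a ≠ 0 ∧ c.σ a = ε * a := by
      rcases hε with rfl | rfl
      · exact ⟨1, one_ne_zero, by simp⟩
      · obtain ⟨b, hb⟩ : ∃ b, c.σ b ≠ b := by
          by_contra h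
          push Not at h
          exact c.ne (RingHom.ext h)
        exact ⟨b - c.σ b, sub_ne_zero.2 (Ne.symm hb), by rw [map_sub, c.invol]; ring⟩
    let h : W →ₛₗ[c.σ] W →ₗ[F] F := a • (B.comp W.subtype).compl₂ (V2.subtype.comp S)
    have hh : ∀ w w' : W, h w w' = a * B (w : V) (S w' : V) := fun w w' => rfl
    have hhS : h.IsSymm := ⟨fun w w' => by
      have e : B (w : V) (S w' : V) = ε * B (S w : V) (w' : V) := by
        conv_lhs => rw [← hTS w]
        rw [hadj _ (S w).2 _ (S w').2, hTS]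
      rw [hh, hh, map_mul, ha, e, map_mul, hS.eq]
      rcases hε with rfl | rfl <;> simp⟩
    have hhnd : ∀ w ∈ (⊤ : Submodule F W), (∀ w' ∈ (⊤ : Submodule F W), h w w' = 0) → w = 0 := by
      intro w _ hw
      refine Subtype.ext (hnd2 _ (hWV w.2) fun y hy => ?_)
      have e := hw ⟨T y, y, hy, rfl⟩ trivial
      rw [hh] at e
      have e1 := (mul_eq_zero.1 e).resolve_left ha0
      have e2 : B (w : V) (y - (S ⟨T y, y, hy, rfl⟩ : V)) = 0 := by
        rw [← hTS w, hadj _ (S w).2 _ (V2.sub_mem hy (S _).2), map_sub T, hTS, sub_self, map_zero, mul_zero]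
      rw [map_sub, e1, sub_zero] at e2
      exact e2
    have hdim : finrank F W + 2 ≤ finrank F V := by
      have h1 := (T.domRestrict V2).finrank_range_add_finrank_ker
      rw [LinearMap.range_domRestrict, ← hW] at h1
      have h2 : finrank F W ≤ finrank F (LinearMap.ker (T.domRestrict V2)) := by
        rw [← Submodule.finrank_map_subtype_eq V2 (LinearMap.ker (T.domRestrict V2))]
        refine Submodule.finrank_mono ?_
        rintro _ ⟨v, hv, rfl⟩
        exact ⟨⟨T v, hTU v hv⟩, LinearMap.mem_ker.2 (hT2 v hv), rfl⟩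
      have h3 := Submodule.finrank_le V2
      omega
    have hxW : ∀ w ∈ W, x w ∈ W := by
      rintro _ ⟨v, hv, rfl⟩; exact ⟨x v, hxV2 v hv, (hxT v).symm⟩
    let xW : Module.End F W := x.restrict hxW
    have hfixW := isometry_eq_id_of_not_dvd c h hhS ⊤ hhnd xW (fun _ _ => trivial) (fun w _ w' _ => ?_) hr
      (fun w _ => Subtype.ext (by rw [Module.End.pow_restrict (h := hxW)]; exact hxr _))
      (by rw [finrank_top]; exact hsmall _ hdim)
    swap
    · rw [hh, hh]
      congr 1
      have e : B (x w : V) ((S (xW w') : V) - x (S w' : V)) = 0 := by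
        rw [← hTS w, hxT, hadj _ (hxV2 _ (S w).2) _ (V2.sub_mem (S _).2 (hxV2 _ (S w').2)), map_sub T, hTS,
          ← hxT, hTS, show ((xW w' : W) : V) = x (w' : V) from rfl, sub_self, map_zero, mul_zero]
      rw [map_sub, sub_eq_zero] at e
      exact e.trans (hxB _ _)
    have hmem : T v₀ ∈ W := ⟨v₀, hv₀, rfl⟩
    have hx1 := congrArg Subtype.val (hfixW ⟨T v₀, hmem⟩ trivial)
    exact hv₀' (Submodule.disjoint_def.1 hdisj _
      (by rw [hV1, LinearMap.mem_ker, LinearMap.sub_apply, Module.End.one_apply, sub_eq_zero]; exact hx1)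
      (hWV hmem))
  -- the fixed space has dimension at least two
  have hne1 : ∃ v ∈ V1, N v ≠ 0 := by
    by_contra h
    push Not at h
    refine hu1 (sub_eq_zero.1 (LinearMap.ext fun y => ?_))
    obtain ⟨a, ha, b, hb, rfl⟩ := Submodule.mem_sup.1 (htop ▸ Submodule.mem_top (x := y))
    rw [← hN, map_add, h a ha, hV2N b hb, add_zero, LinearMap.zero_apply]
  obtain ⟨k, ε, -, -, ⟨v₀, hv₀, hv₀'⟩, hTU, hT2, hadj⟩ := exists_top_power c B u hu hnil V1 hNV1 hne1
  set z := ((u - 1) ^ k) v₀
  have hz : z ∈ V1 := hTU v₀ hv₀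
  have hzz : B z z = 0 := by rw [hadj v₀ hv₀ z hz, hT2 v₀ hv₀, map_zero, mul_zero]
  have hdim1 : 2 ≤ finrank F V1 := by
    by_contra hlt
    refine hv₀' (hnd z fun y => ?_)
    obtain ⟨a, ha, b, hb, rfl⟩ := Submodule.mem_sup.1 (htop ▸ Submodule.mem_top (x := y))
    have hspan : Submodule.span F {z} = V1 := Submodule.eq_of_le_of_finrank_le
      ((Submodule.span_singleton_le_iff_mem _ _).2 hz) (by rw [finrank_span_singleton hv₀']; omega)
    obtain ⟨l, rfl⟩ := Submodule.mem_span_singleton.1 (hspan ▸ ha)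
    rw [map_add, map_smul, hzz, horth z hz b hb, smul_zero, add_zero]
  have hdim2 : finrank F V2 + 2 ≤ finrank F V := by
    have h : finrank F V2 + finrank F V1 = finrank F V := LinearMap.finrank_range_add_finrank_ker _
    omega
  have hfix2 := isometry_eq_id_of_not_dvd c B hS V2 hnd2 x hxV2 (fun v _ w _ => hxB v w) hr
    (fun v _ => hxr v) (hsmall _ hdim2)
  refine LinearMap.ext fun y => ?_
  obtain ⟨a, ha, b, hb, rfl⟩ := Submodule.mem_sup.1 (htop ▸ Submodule.mem_top (x := y))
  rw [Module.End.one_apply, map_add, hfix a ha, hfix2 b hb]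

/-- A prime not dividing `|SU_k|`, `k ≥ 2`, divides no `|GU_d|` with `d ≤ k`. -/
theorem not_dvd_card_gu (hF : Nat.card F = q ^ 2) {r k : ℕ} (hr : r.Prime) (hk : 2 ≤ k)
    (hrk : ¬ r ∣ Nat.card (Cfsg.SU k F q)) {d : ℕ} (hd : d ≤ k) : ¬ r ∣ Nat.card (Cfsg.GU d F q) := by
  obtain ⟨c⟩ := exists_conj hF
  have hq := two_le_q hF
  intro h
  have hup : Nat.card (Cfsg.GU d F q) ∣ Nat.card (Cfsg.GU k F q) := by
    clear hrk hk
    induction k, hd using Nat.le_induction with
    | base => exact dvd_rfl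
    | succ k _ ih =>
      exact ih.trans (Subgroup.card_dvd_of_injective _ (guExt_injective c))
  have h1 : r ∣ Nat.card (Cfsg.GU k F q) := h.trans hup
  rw [card_gu_eq_mul_su hF (by omega)] at h1
  rcases hr.dvd_mul.1 h1 with h2 | h2
  · refine hrk (h2.trans ?_)
    have h3 : (q + 1) * (q + 1) ∣ Nat.card (Cfsg.GU k F q) := by
      rw [card_gu hF]
      refine Dvd.dvd.mul_left ?_ _
      refine dvd_trans ?_ (Finset.prod_dvd_prod_of_subset (Finset.range 2) _ _ (Finset.range_mono hk))
      simp only [Finset.prod_range_succ, Finset.prod_range_zero, one_mul, zero_add, pow_one,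
        if_pos (show Even 0 by decide), if_neg (show ¬ Even 1 by decide)]
      refine Nat.mul_dvd_mul_left _ ⟨q - 1, ?_⟩
      rw [← Nat.sq_sub_sq, one_pow]
    rw [card_gu_eq_mul_su hF (by omega)] at h3
    exact Nat.dvd_of_mul_dvd_mul_left (by omega) h3
  · exact hrk h2

end CfsgLib.KnownSimple.CommutingPUnitary
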