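import Mathlib
import Cfsg.Agent.Lib.ClassicalForms.Ortho.Generation
import Cfsg.Agent.Lib.ClassicalForms.Ortho.Omega
import Cfsg.Agent.Lib.ClassicalForms.Ortho.Parity
import Cfsg.Agent.Lib.ClassicalForms.Ortho.Values
import Cfsg.Agent.Lib.Zsigmondy.Basic

/-!
No element of `Ω₂ₘ₊₃(q)` has order `p (qᵐ + 1)`.
-/

set_option autoImplicit false
set_option linter.unusedSectionVars false
set_option linter.style.haveILetI false

namespace CfsgLib.KnownSimple.OddOrthSpectrum

open QuadraticMap Module CfsgLib.ClassicalForms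

/-- A permutation whose moved points all have period `N`. -/
theorem exists_cycles {α : Type*} [Fintype α] [DecidableEq α] (σ : Equiv.Perm α) {N : ℕ}
    (hN : σ ^ N = 1) (h : ∀ x, σ x ≠ x → ∀ k : ℕ, (σ ^ k) x = x → N ∣ k) :
    ∃ c, σ.support.card = c * N ∧ Equiv.Perm.sign σ = (-1) ^ (c * N + c) := by
  have hall : ∀ n ∈ σ.cycleType, n = N := by
    intro n hn
    have hle : n ∣ N := (Equiv.Perm.dvd_of_mem_cycleType hn).trans (orderOf_dvd_of_pow_eq_one hN)
    rw [Equiv.Perm.cycleType_def, Multiset.mem_map] at hn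
    obtain ⟨c, hc, rfl⟩ := hn
    obtain ⟨hcyc, hcx⟩ := Equiv.Perm.mem_cycleFactorsFinset_iff.1 hc
    obtain ⟨x, hx⟩ := Finset.card_pos.1 (lt_of_lt_of_le Nat.zero_lt_two hcyc.two_le_card_support)
    have hce : c = σ.cycleOf x := Equiv.Perm.cycle_is_cycleOf hx hc
    have hmv : σ x ≠ x := by rw [← hcx x hx]; exact Equiv.Perm.mem_support.1 hx
    refine Nat.dvd_antisymm hle (h x hmv _ ?_)
    rw [← Equiv.Perm.cycleOf_pow_apply_self, ← hce, Function.comp_apply, ← hcyc.orderOf,
      pow_orderOf_eq_one, Equiv.Perm.one_apply]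
  refine ⟨Multiset.card σ.cycleType, ?_, ?_⟩
  · rw [← Equiv.Perm.sum_cycleType, Multiset.eq_replicate_card.2 hall, Multiset.sum_replicate,
      Multiset.card_replicate, smul_eq_mul]
  · rw [Equiv.Perm.sign_of_cycleType, Multiset.eq_replicate_card.2 hall, Multiset.sum_replicate,
      Multiset.card_replicate, smul_eq_mul]

variable {F V : Type*} [Field F] [AddCommGroup V] [Module F V] {Q : QuadraticForm F V}

/-- The action on the vectors of value `c`. -/
def levelHom (Q : QuadraticForm F V) (c : F) : orth Q →* Equiv.Perm {x : V // Q x = c} where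
  toFun g :=
    { toFun := fun x => ⟨(g : V ≃ₗ[F] V) x.1, by rw [orth_apply]; exact x.2⟩
      invFun := fun x => ⟨((g⁻¹ : orth Q) : V ≃ₗ[F] V) x.1, by rw [orth_apply]; exact x.2⟩
      left_inv := fun x => Subtype.ext (orth_inv_apply g x.1)
      right_inv := fun x => Subtype.ext (orth_apply_inv g x.1) }
  map_one' := Equiv.ext fun _ => rfl
  map_mul' _ _ := Equiv.ext fun _ => rfl

lemma map_commutator_eq_one {G : Type*} [Group G] (f : G →* ℤˣ) {g : G} (hg : g ∈ commutator G) :
    f g = 1 := by
  have : commutator G ≤ f.ker := by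
    rw [commutator_def, Subgroup.commutator_le]
    intro x _ y _
    rw [MonoidHom.mem_ker, map_commutatorElement, commutatorElement_eq_one_iff_mul_comm]
    exact mul_comm _ _
  exact MonoidHom.mem_ker.1 (this hg)

/-- An isometry as an endomorphism. -/
def toEnd (Q : QuadraticForm F V) : orth Q →* Module.End F V where
  toFun g := (g : V ≃ₗ[F] V).toLinearMap
  map_one' := rfl
  map_mul' _ _ := rfl

variable [Fintype F] [Finite V]

set_option maxHeartbeats 1000000 in
theorem no_order (hQ : Nondeg Q) (hgen : IsGen Q) {p : ℕ} [Fact p.Prime] [CharP F p] (hp2 : p ≠ 2)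
    {m : ℕ} (hm : 2 ≤ m) (hdim : finrank F V = 2 * m + 3)
    (hS : Nat.card {x : V // Q x = 1} = Fintype.card F ^ (2 * m + 2) + Fintype.card F ^ (m + 1))
    (g : orth Q) (hg : g ∈ commutator (orth Q)) :
    orderOf g ≠ p * (Fintype.card F ^ m + 1) := by
  intro hord
  classical
  haveI : Fintype V := Fintype.ofFinite V
  haveI : FiniteDimensional F V := Module.Finite.of_finite
  set q := Fintype.card F with hq
  set N := q ^ m + 1 with hN
  have hpp : p.Prime := Fact.out
  obtain ⟨e, -, hqe⟩ := FiniteField.card F p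
  change Fintype.card F = p ^ (e : ℕ) at hqe
  rw [← hq] at hqe
  have hpq : p ∣ q := by rw [hqe]; exact dvd_pow_self _ e.ne_zero
  have hqodd : Odd q := by rw [hqe]; exact (hpp.odd_of_ne_two hp2).pow
  have hq3 : 3 ≤ q := by
    have := Fintype.one_lt_card (α := F)
    obtain ⟨k, hk⟩ := hqodd
    omega
  have h2 : (2 : F) ≠ 0 := by
    intro h
    exact hp2 ((Nat.prime_dvd_prime_iff_eq hpp Nat.prime_two).1
      ((CharP.cast_eq_zero_iff F p 2).1 (by exact_mod_cast h)))
  have hN2 : Even N := by rw [hN]; exact (hqodd.pow).add_one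
  have hNbig : 2 * q < N := by
    have h1 : q ^ 2 ≤ q ^ m := Nat.pow_le_pow_right (by omega) hm
    have h3 : 3 * q ≤ q ^ 2 := by rw [_root_.sq]; exact Nat.mul_le_mul_right q hq3
    omega
  -- the parts of `g`
  set s := g ^ p with hs
  set u := g ^ N with hu
  have hso : orderOf s = N := by
    rw [hs, orderOf_pow' _ hpp.ne_zero, hord, Nat.gcd_mul_right_left, Nat.mul_div_cancel_left _ hpp.pos]
  have huo : orderOf u = p := by
    rw [hu, orderOf_pow' _ (by omega), hord, Nat.gcd_mul_left_left, Nat.mul_div_cancel _ (by omega)]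
  have hsu : Commute s u := (Commute.refl g).pow_pow p N
  -- the primitive prime
  obtain ⟨r, hr, hrd, hrmin⟩ := CfsgLib.Zsigmondy.exists_isPpd (a := q) (n := 2 * m) (by omega)
    (by omega) (by omega) (by omega)
  haveI : Fact r.Prime := ⟨hr⟩
  have hrN : r ∣ N := by
    have e1 : q ^ (2 * m) - 1 = (q ^ m + 1) * (q ^ m - 1) := by
      rw [← Nat.sq_sub_sq, ← pow_mul, one_pow, mul_comm 2 m]
    rw [e1] at hrd
    exact (hr.dvd_mul.1 hrd).resolve_right (hrmin m (by omega) (by omega))
  have hrp : r ≠ p := by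
    rintro rfl
    have h1 : r ∣ q ^ m := dvd_pow hpq (by omega)
    have := Nat.dvd_sub hrN h1
    rw [hN, Nat.add_sub_cancel_left] at this
    exact hr.ne_one (Nat.dvd_one.1 this)
  have hqr0 : (q : ZMod r) ≠ 0 := by
    rw [Ne, ZMod.natCast_eq_zero_iff, hqe]
    exact fun h => hrp ((Nat.prime_dvd_prime_iff_eq hr hpp).1 (hr.dvd_of_dvd_pow h))
  have hcast : ∀ k, (q : ZMod r) ^ k = 1 ↔ r ∣ q ^ k - 1 := fun k => by
    rw [← Nat.cast_pow, ← ZMod.natCast_eq_zero_iff, Nat.cast_sub (Nat.one_le_pow _ _ (by omega)),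
      Nat.cast_one, sub_eq_zero]
  have hqo : orderOf (q : ZMod r) = 2 * m := by
    rw [orderOf_eq_iff (by omega)]
    exact ⟨(hcast _).2 hrd, fun k hk hk0 h => hrmin k hk0 hk ((hcast _).1 h)⟩
  set ρ := s ^ (N / r) with hρ
  have hρo : orderOf ρ = r := by
    rw [hρ, orderOf_pow_of_dvd (Nat.div_pos (Nat.le_of_dvd (by omega) hrN) hr.pos).ne'
      (by rw [hso]; exact Nat.div_dvd_of_dvd hrN), hso, Nat.div_div_self hrN (by omega)]
  set P := toEnd Q ρ with hP
  have hPr : P ^ r = 1 := by rw [hP, ← map_pow, ← hρo, pow_orderOf_eq_one, map_one]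
  have hr0 : (r : F) ≠ 0 := by
    rw [Ne, CharP.cast_eq_zero_iff F p]
    exact fun h => hrp ((Nat.prime_dvd_prime_iff_eq hpp hr).1 h).symm
  set B := LinearMap.range (P - 1) with hB
  set W := LinearMap.ker (P - 1) with hW
  have hWmem : ∀ x, x ∈ W ↔ P x = x := fun x => by
    simp [hW, LinearMap.mem_ker, sub_eq_zero]
  have hdisj : Disjoint B W := by
    rw [Submodule.disjoint_def]
    rintro x ⟨y, hy⟩ hx
    rw [hWmem] at hx
    simp only [LinearMap.sub_apply, Module.End.one_apply] at hy
    have hk : ∀ k : ℕ, (P ^ k) y = y + (k : F) • x := by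
      intro k
      induction k with
      | zero => simp
      | succ k ih =>
        rw [pow_succ', Module.End.mul_apply, ih, map_add, map_smul, hx,
          show P y = x + y by rw [← hy]; abel]
        push_cast
        module
    have h3 := hk r
    rw [hPr, Module.End.one_apply, left_eq_add, smul_eq_zero] at h3
    exact h3.resolve_left hr0
  have hsum : finrank F B + finrank F W = 2 * m + 3 := by
    rw [← hdim]; exact LinearMap.finrank_range_add_finrank_ker _
  have hcompl : IsCompl B W := by
    refine ⟨hdisj, codisjoint_iff.2 (Submodule.eq_top_of_finrank_eq ?_)⟩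
    have h3 := Submodule.finrank_sup_add_finrank_inf_eq B W
    rw [hdisj.eq_bot, finrank_bot, add_zero, hsum, ← hdim] at h3
    exact h3
  have hperp : ∀ x ∈ B, ∀ w ∈ W, polar Q x w = 0 := by
    rintro x ⟨y, rfl⟩ w hw
    rw [hWmem] at hw
    simp only [LinearMap.sub_apply, Module.End.one_apply, polar_sub_left]
    nth_rewrite 1 [← hw]
    exact sub_eq_zero.2 (polar_apply ρ y w)
  -- invariant subspaces of `B`
  have hinvdim : ∀ U : Submodule F V, U ≤ B → (∀ x ∈ U, P x ∈ U) → 2 * m ∣ finrank F U := by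
    intro U hUB hUP
    let f : U → U := fun x => ⟨P x.1, hUP _ x.2⟩
    have hf : Function.Injective f := fun x y h =>
      Subtype.ext ((ρ : V ≃ₗ[F] V).injective (congrArg Subtype.val h))
    let σ : Equiv.Perm U := Equiv.ofBijective f (Finite.injective_iff_bijective.1 hf)
    have hσk : ∀ (k : ℕ) (x : U), ((σ ^ k) x).1 = (P ^ k) x.1 := by
      intro k
      induction k with
      | zero => intro x; rfl
      | succ k ih =>
        intro x
        rw [pow_succ', pow_succ', Equiv.Perm.mul_apply, Module.End.mul_apply, ← ih]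
        rfl
    haveI : Fintype U := Fintype.ofFinite U
    obtain ⟨c, hc, -⟩ := exists_cycles σ (N := r)
      (Equiv.ext fun x => Subtype.ext (by rw [hσk, hPr]; rfl)) (fun x hx k hk => by
        have h3 : (P ^ k) x.1 = x.1 := by rw [← hσk, hk]
        by_contra hrk
        obtain ⟨i, hi⟩ := Nat.exists_mul_mod_eq_one_of_coprime
          ((hr.coprime_iff_not_dvd.2 hrk).symm) hr.one_lt
        apply hx
        apply Subtype.ext
        show P x.1 = x.1
        have h4 : ∀ j, ((P ^ k) ^ j) x.1 = x.1 := fun j => by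
          induction j with
          | zero => rfl
          | succ j ih => rw [pow_succ', Module.End.mul_apply, ih, h3]
        have h5 := h4 i
        rwa [← pow_mul, pow_eq_pow_mod _ hPr, hi.2, pow_one] at h5)
    have hsupp : σ.support = Finset.univ.erase 0 := by
      ext x
      simp only [Equiv.Perm.mem_support, Finset.mem_erase, Finset.mem_univ, and_true, ne_eq]
      refine not_congr ⟨fun h => ?_, fun h => by subst h; exact Subtype.ext (map_zero P)⟩
      have h3 : P x.1 = x.1 := congrArg Subtype.val h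
      exact Subtype.ext (Submodule.disjoint_def.1 hdisj x.1 (hUB x.2) ((hWmem _).2 h3))
    rw [hsupp, Finset.card_erase_of_mem (Finset.mem_univ _), Finset.card_univ,
      Module.card_eq_pow_finrank (K := F), ← hq] at hc
    rw [← hqo, orderOf_dvd_iff_pow_eq_one, hcast]
    exact Dvd.intro_left c hc.symm
  have hcomm : ∀ h : orth Q, Commute h ρ → ∀ x, toEnd Q h (P x) = P (toEnd Q h x) := by
    intro h hh x
    exact congrArg (fun T : orth Q => (T : V ≃ₗ[F] V) x) hh.eq
  have hBinv : ∀ h : orth Q, Commute h ρ → ∀ x ∈ B, toEnd Q h x ∈ B := by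
    rintro h hh x ⟨y, rfl⟩
    exact ⟨toEnd Q h y, by simp [map_sub, hcomm h hh]⟩
  have hWinv : ∀ h : orth Q, Commute h ρ → ∀ x ∈ W, toEnd Q h x ∈ W := by
    intro h hh x hx
    rw [hWmem] at hx ⊢
    rw [← hcomm h hh, hx]
  have hBne : B ≠ ⊥ := by
    intro h0
    have h1 : ρ = 1 := orth_ext fun x => by
      have h3 : (P - 1) x ∈ B := ⟨x, rfl⟩
      rw [h0, Submodule.mem_bot, LinearMap.sub_apply, sub_eq_zero] at h3
      exact h3
    rw [h1, orderOf_one] at hρo
    exact hr.ne_one hρo.symm
  have hdB : finrank F B = 2 * m := by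
    obtain ⟨a, ha⟩ := hinvdim B le_rfl (hBinv ρ (Commute.refl ρ))
    have hpos : finrank F B ≠ 0 := fun h => hBne (Submodule.finrank_eq_zero.1 h)
    rcases a with _ | _ | a
    · omega
    · omega
    · exfalso
      rw [Nat.mul_succ, Nat.mul_succ] at ha
      omega
  have hdW : finrank F W = 3 := by omega
  have hfix : ∀ h : orth Q, Commute h ρ → ∀ b ∈ B, b ≠ 0 → toEnd Q h b = b →
      ∀ x ∈ B, toEnd Q h x = x := by
    intro h hh b hb hb0 hhb
    set U := B ⊓ LinearMap.ker (toEnd Q h - 1) with hU
    have hmemU : ∀ x, x ∈ U ↔ x ∈ B ∧ toEnd Q h x = x := fun x => by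
      simp [hU, LinearMap.mem_ker, sub_eq_zero]
    have h3 := hinvdim U inf_le_left fun x hx => by
      rw [hmemU] at hx ⊢
      exact ⟨hBinv ρ (Commute.refl ρ) _ hx.1, by rw [hcomm h hh, hx.2]⟩
    have hU0 : finrank F U ≠ 0 := fun h0 => hb0 (by
      rw [Submodule.finrank_eq_zero] at h0
      exact (Submodule.mem_bot F).1 (h0 ▸ (hmemU b).2 ⟨hb, hhb⟩))
    have hUB : U = B := Submodule.eq_of_le_of_finrank_le inf_le_left (by
      rw [hdB]; exact Nat.le_of_dvd (Nat.pos_of_ne_zero hU0) h3)
    intro x hx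
    rw [← hUB, hmemU] at hx
    exact hx.2
  have hρs : Commute s ρ := Commute.self_pow s _
  have hρu : Commute u ρ := hsu.symm.pow_right _
  -- the unipotent part
  set M := toEnd Q u - 1 with hM
  haveI : Nontrivial V := Module.nontrivial_of_finrank_pos (R := F) (by omega)
  haveI : CharP (Module.End F V) p :=
    charP_of_injective_algebraMap (algebraMap F (Module.End F V)).injective p
  have hMp : M ^ p = 0 := by
    rw [hM, sub_pow_char_of_commute p (Commute.one_right _), one_pow, ← map_pow, ← huo,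
      pow_orderOf_eq_one, map_one, sub_self]
  have hMapply : ∀ x, toEnd Q u x = x + M x := fun x => by simp [hM]
  have hMB : ∀ x, x ∈ B → M x = 0 := by
    obtain ⟨b, hb, hb0⟩ := Submodule.exists_mem_ne_zero_of_ne_bot hBne
    have hex : ∃ c ∈ B, c ≠ 0 ∧ M c = 0 := by
      have hstep : ∀ j c, c ∈ B → c ≠ 0 → (M ^ j) c = 0 → ∃ c ∈ B, c ≠ 0 ∧ M c = 0 := by
        intro j
        induction j with
        | zero => intro c _ hc hj; exact absurd hj hc
        | succ j ih =>
          intro c hcB hc hj
          by_cases h3 : M c = 0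
          · exact ⟨c, hcB, hc, h3⟩
          · refine ih (M c) ?_ h3 (by rw [← Module.End.mul_apply, ← pow_succ]; exact hj)
            rw [hM, LinearMap.sub_apply, Module.End.one_apply]
            exact B.sub_mem (hBinv u hρu c hcB) hcB
      exact hstep p b hb hb0 (by rw [hMp]; rfl)
    obtain ⟨c, hcB, hc0, hMc⟩ := hex
    intro x hx
    have := hfix u hρu c hcB hc0 (by rw [hMapply, hMc, add_zero]) x hx
    rwa [hMapply, add_eq_left] at this
  have hMW : ∀ x ∈ W, M x ∈ W := fun x hx => by
    rw [hM, LinearMap.sub_apply, Module.End.one_apply]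
    exact W.sub_mem (hWinv u hρu x hx) hx
  have hsplit : ∀ x, ∃ b ∈ B, ∃ w ∈ W, b + w = x := fun x =>
    Submodule.mem_sup.1 (hcompl.sup_eq_top ▸ Submodule.mem_top)
  have hWnd : ∀ w ∈ W, (∀ w' ∈ W, polar Q w w' = 0) → w = 0 := by
    intro w hw h
    refine hQ w fun y => ?_
    obtain ⟨b, hb, w', hw', rfl⟩ := hsplit y
    rw [polar_add_right, polar_comm, hperp b hb w hw, h w' hw', add_zero]
  have hfixpol : ∀ x w, M w = 0 → polar Q (M x) w = 0 := by
    intro x w hw
    have h3 := polar_apply u x w
    change polar Q (toEnd Q u x) (toEnd Q u w) = _ at h3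
    rwa [hMapply, hMapply, hw, add_zero, polar_add_left, add_eq_left] at h3
  have hp3 : 3 ≤ p := by have := hpp.two_le; omega
  have hM3 : ∀ x ∈ W, (M ^ 3) x = 0 := by
    intro x hx
    set T : Module.End F W := M.restrict hMW with hT
    have hTp : ∀ (k : ℕ) (y : W), ((T ^ k) y).1 = (M ^ k) y.1 := by
      intro k
      induction k with
      | zero => intro y; rfl
      | succ k ih =>
        intro y
        rw [pow_succ', pow_succ', Module.End.mul_apply, Module.End.mul_apply, ← ih]
        rfl
    have hker : LinearMap.ker (T ^ p) = LinearMap.ker (T ^ 3) := by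
      rw [Module.End.ker_pow_eq_ker_pow_finrank_of_le (by omega), hdW]
    have h3 : (⟨x, hx⟩ : W) ∈ LinearMap.ker (T ^ 3) := by
      rw [← hker, LinearMap.mem_ker]
      apply Subtype.ext
      rw [hTp, hMp]
      rfl
    rw [LinearMap.mem_ker] at h3
    have h4 := congrArg Subtype.val h3
    rw [hTp] at h4
    exact h4
  obtain ⟨v, hvW, hv⟩ : ∃ v ∈ W, (M ^ 2) v ≠ 0 := by
    by_contra hcon
    push Not at hcon
    obtain ⟨y₀, hy₀, hy0⟩ : ∃ y ∈ W, M y ≠ 0 := by
      by_contra h0
      push Not at h0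
      have h1 : u = 1 := orth_ext fun x => by
        obtain ⟨b, hb, w, hw, rfl⟩ := hsplit x
        show toEnd Q u (b + w) = b + w
        rw [hMapply, map_add, hMB b hb, h0 w hw, add_zero, add_zero]
      rw [h1, orderOf_one] at huo
      exact hpp.ne_one huo.symm
    set T : Module.End F W := M.restrict hMW with hT
    have hrk : finrank F (LinearMap.range T) ≤ 1 := by
      have h3 : LinearMap.range T ≤ LinearMap.ker T := by
        rintro _ ⟨y, rfl⟩
        rw [LinearMap.mem_ker]
        apply Subtype.ext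
        show M (M y.1) = 0
        rw [← Module.End.mul_apply, ← _root_.sq, hcon y.1 y.2]
      have h4 := Submodule.finrank_mono h3
      have h5 := LinearMap.finrank_range_add_finrank_ker T
      omega
    set w := M y₀ with hw
    have hwW : w ∈ W := hMW _ hy₀
    have hT0 : T ⟨y₀, hy₀⟩ ≠ 0 := fun h => hy0 (congrArg Subtype.val h)
    have hMw : M w = 0 := by rw [hw, ← Module.End.mul_apply, ← _root_.sq, hcon y₀ hy₀]
    have hmult : ∀ x ∈ W, ∃ t : F, M x = t • w := by
      intro x hx
      have h3 : LinearMap.range T = Submodule.span F {T ⟨y₀, hy₀⟩} := by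
        symm
        refine Submodule.eq_of_le_of_finrank_le (Submodule.span_le.2 (by simp)) ?_
        rw [finrank_span_singleton hT0]
        exact hrk
      obtain ⟨t, ht⟩ := Submodule.mem_span_singleton.1 (h3 ▸ (LinearMap.mem_range_self T ⟨x, hx⟩))
      exact ⟨t, (congrArg Subtype.val ht).symm⟩
    have hww : polar Q w w = 0 := hfixpol y₀ w hMw
    have hQw : Q w = 0 := by
      rw [polar_self, two_smul, ← two_mul] at hww
      exact (mul_eq_zero.1 hww).resolve_left h2
    have hp0 : ∀ x ∈ W, ∀ t : F, M x = t • w → t ≠ 0 → polar Q x w = 0 := by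
      intro x _ t ht ht0
      have h3 := orth_apply u x
      change Q (toEnd Q u x) = Q x at h3
      rw [hMapply, ht, QuadraticMap.map_add ⇑Q, QuadraticMap.map_smul, hQw, smul_zero, add_zero,
        polar_smul_right, add_eq_left, smul_eq_mul] at h3
      exact (mul_eq_zero.1 h3).resolve_left ht0
    refine hy0 (hWnd w hwW fun x hx => ?_)
    rw [polar_comm]
    obtain ⟨t, ht⟩ := hmult x hx
    by_cases ht0 : t = 0
    · have h3 := hp0 (x + y₀) (W.add_mem hx hy₀) 1 (by rw [map_add, ht, ht0, zero_smul, zero_add, one_smul, hw])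
        one_ne_zero
      have h4 := hp0 y₀ hy₀ 1 (by rw [one_smul]) one_ne_zero
      rwa [polar_add_left, h4, add_zero] at h3
    · exact hp0 x hx t ht ht0
  -- coordinates on `W`
  set v₁ := M v with hv1
  set v₂ := M v₁ with hv2
  have hv22 : v₂ = (M ^ 2) v := by rw [hv2, hv1, _root_.sq, Module.End.mul_apply]
  have hv1W : v₁ ∈ W := hMW _ hvW
  have hv2W : v₂ ∈ W := hMW _ hv1W
  have hMv2 : M v₂ = 0 := by
    rw [hv22, ← Module.End.mul_apply, ← pow_succ', hM3 v hvW]
  let cW : (F × F × F) →ₗ[F] W :=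
    { toFun := fun z => ⟨z.1 • v + (z.2.1 • v₁ + z.2.2 • v₂),
        W.add_mem (W.smul_mem _ hvW) (W.add_mem (W.smul_mem _ hv1W) (W.smul_mem _ hv2W))⟩
      map_add' := fun z z' => Subtype.ext (by simp only [Prod.fst_add, Prod.snd_add, Submodule.coe_add]; module)
      map_smul' := fun k z => Subtype.ext (by
        simp only [Prod.smul_fst, Prod.smul_snd, smul_eq_mul, RingHom.id_apply, SetLike.val_smul]
        module) }
  have hcW : Function.Bijective cW := by
    have hinj : Function.Injective cW := by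
      rw [injective_iff_map_eq_zero]
      rintro ⟨a, b, c⟩ h
      have h3 : a • v + (b • v₁ + c • v₂) = 0 := congrArg Subtype.val h
      have h4 := congrArg M h3
      simp only [map_add, map_smul, ← hv1, ← hv2, hMv2, smul_zero, add_zero, map_zero] at h4
      have h5 := congrArg M h4
      simp only [map_add, map_smul, ← hv2, hMv2, smul_zero, add_zero, map_zero] at h5
      have hv2ne : v₂ ≠ 0 := hv22 ▸ hv
      obtain rfl := (smul_eq_zero.1 h5).resolve_right hv2ne
      rw [zero_smul, zero_add] at h4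
      obtain rfl := (smul_eq_zero.1 h4).resolve_right hv2ne
      rw [zero_smul, zero_smul, zero_add, zero_add] at h3
      obtain rfl := (smul_eq_zero.1 h3).resolve_right hv2ne
      rfl
    exact ⟨hinj, (LinearMap.injective_iff_surjective_of_finrank_eq_finrank (by simp [hdW])).1 hinj⟩
  have h12 : polar Q v₁ v₂ = 0 := hfixpol v v₂ hMv2
  have h22 : polar Q v₂ v₂ = 0 := hfixpol v₁ v₂ hMv2
  have hQ22 : Q v₂ = 0 := by
    rw [polar_self, two_smul, ← two_mul] at h22
    exact (mul_eq_zero.1 h22).resolve_left h2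
  have hP02 : polar Q v v₂ ≠ 0 := by
    intro h0
    refine (hv22 ▸ hv) (hWnd v₂ hv2W fun x hx => ?_)
    obtain ⟨⟨a, b, c⟩, hz⟩ := hcW.2 ⟨x, hx⟩
    have : x = a • v + (b • v₁ + c • v₂) := (congrArg Subtype.val hz).symm
    rw [this, polar_comm]
    simp [polar_add_left, polar_smul_left, h0, h12, h22]
  have hQW : ∀ a b c : F, Q (a • v + (b • v₁ + c • v₂)) =
      Q (a • v + b • v₁) + c * (a * polar Q v v₂) := by
    intro a b c
    rw [← add_assoc, QuadraticMap.map_add ⇑Q (a • v + b • v₁) (c • v₂), QuadraticMap.map_smul, hQ22,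
      smul_zero, add_zero, polar_smul_right, polar_add_left, polar_smul_left, polar_smul_left, h12]
    simp only [smul_eq_mul, mul_zero, add_zero]
  -- the count on `W`
  set k₀ := (Finset.univ.filter fun b : F => Q (b • v₁) = 1).card with hk0
  have hk2 : k₀ ≤ 2 := by
    rcases eq_or_ne k₀ 0 with h | h
    · omega
    obtain ⟨b₀, hb₀⟩ := Finset.card_pos.1 (Nat.pos_of_ne_zero h)
    rw [Finset.mem_filter, QuadraticMap.map_smul, smul_eq_mul] at hb₀
    refine le_trans (Finset.card_le_card (t := {b₀, -b₀}) ?_) (Finset.card_le_two)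
    intro b hb
    rw [Finset.mem_filter, QuadraticMap.map_smul, smul_eq_mul] at hb
    have h3 : Q v₁ ≠ 0 := fun h0 => by rw [h0, mul_zero] at hb₀; exact zero_ne_one hb₀.2
    have h4 := mul_right_cancel₀ h3 (hb.2.trans hb₀.2.symm)
    rw [Finset.mem_insert, Finset.mem_singleton]
    exact mul_self_eq_mul_self_iff.1 h4
  have hSW : (Finset.univ.filter fun x : {x : V // Q x = 1} => x.1 ∈ W).card =
      q * (q - 1) + q * k₀ := by
    have e1 : (Finset.univ.filter fun x : {x : V // Q x = 1} => x.1 ∈ W).card =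
        (Finset.univ.filter fun z : F × F × F => Q (cW z).1 = 1).card := by
      symm
      refine Finset.card_bij (fun z hz => ⟨(cW z).1, (Finset.mem_filter.1 hz).2⟩)
        (fun z _ => Finset.mem_filter.2 ⟨Finset.mem_univ _, (cW z).2⟩) ?_ ?_
      · intro z _ z' _ h
        exact hcW.1 (Subtype.ext (congrArg (fun x : {x : V // Q x = 1} => x.1) h))
      · intro x hx
        obtain ⟨z, hz⟩ := hcW.2 ⟨x.1, (Finset.mem_filter.1 hx).2⟩
        refine ⟨z, Finset.mem_filter.2 ⟨Finset.mem_univ _, ?_⟩, Subtype.ext ?_⟩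
        · rw [hz]; exact x.2
        · show (cW z).1 = x.1
          rw [hz]
    rw [e1, Finset.card_filter, Fintype.sum_prod_type,
      ← Finset.add_sum_erase _ _ (Finset.mem_univ (0 : F))]
    have h0 : (∑ y : F × F, if Q (cW (0, y)).1 = 1 then 1 else 0) = q * k₀ := by
      rw [Fintype.sum_prod_type, hk0, Finset.card_filter, Finset.mul_sum]
      refine Finset.sum_congr rfl fun b _ => ?_
      have e : ∀ c : F, Q (cW (0, b, c)).1 = Q (b • v₁) := fun c => by
        show Q ((0 : F) • v + (b • v₁ + c • v₂)) = _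
        rw [hQW, zero_smul, zero_add, zero_mul, mul_zero, add_zero]
      simp only [e, Finset.sum_const, Finset.card_univ, smul_eq_mul, ← hq]
    have h1 : ∀ a ∈ Finset.univ.erase (0 : F),
        (∑ y : F × F, if Q (cW (a, y)).1 = 1 then 1 else 0) = q := by
      intro a ha
      have ha0 := Finset.ne_of_mem_erase ha
      rw [Fintype.sum_prod_type, Finset.sum_congr rfl (g := fun _ => 1), Finset.sum_const, smul_eq_mul,
        mul_one, Finset.card_univ, ← hq]
      intro b _
      rw [← Finset.card_filter, Finset.card_eq_one]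
      refine ⟨(1 - Q (a • v + b • v₁)) / (a * polar Q v v₂), ?_⟩
      ext c
      simp only [Finset.mem_filter, Finset.mem_univ, true_and, Finset.mem_singleton]
      show Q (a • v + (b • v₁ + c • v₂)) = 1 ↔ _
      rw [hQW, eq_div_iff (mul_ne_zero ha0 hP02), eq_sub_iff_add_eq, add_comm]
    rw [h0, Finset.sum_congr rfl h1, Finset.sum_const, Finset.card_erase_of_mem (Finset.mem_univ _),
      Finset.card_univ, smul_eq_mul, ← hq]
    ring
  -- the semisimple part on `W`
  set S := toEnd Q s with hSdef
  have hSM : ∀ x, S (M x) = M (S x) := fun x => by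
    have h3 : S (toEnd Q u x) = toEnd Q u (S x) :=
      congrArg (fun T : orth Q => (T : V ≃ₗ[F] V) x) hsu.eq
    rw [hMapply, hMapply, map_add] at h3
    exact add_left_cancel h3
  obtain ⟨⟨a, b, c⟩, hz⟩ := hcW.2 ⟨S v, hWinv s hρs v hvW⟩
  have hSv : S v = a • v + (b • v₁ + c • v₂) := (congrArg Subtype.val hz).symm
  set A : Module.End F V := a • (1 : Module.End F V) + (b • M + c • M ^ 2) with hA
  have hSA : ∀ x ∈ W, S x = A x := by
    have hAv : S v = A v := by
      rw [hSv, hA]
      simp [hv22, hv1]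
    have hAM : ∀ x, A (M x) = M (A x) := fun x => by
      simp only [hA, LinearMap.add_apply, LinearMap.smul_apply, Module.End.one_apply, map_add, map_smul, _root_.sq, Module.End.mul_apply]
    intro x hx
    obtain ⟨⟨a', b', c'⟩, hz'⟩ := hcW.2 ⟨x, hx⟩
    have hx' : x = a' • v + (b' • v₁ + c' • v₂) := (congrArg Subtype.val hz').symm
    rw [hx']
    simp only [map_add, map_smul, hv2, hv1, hSM, hAM, hAv]
  have hSWx : ∀ x ∈ W, S x ∈ W := hWinv s hρs
  have hSp : ∀ x ∈ W, (S ^ p) x = (a ^ p) • x := by
    have hpw : ∀ k, ∀ x ∈ W, (S ^ k) x = (A ^ k) x := by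
      intro k
      induction k with
      | zero => intro x _; rfl
      | succ k ih =>
        intro x hx
        rw [pow_succ, pow_succ, Module.End.mul_apply, Module.End.mul_apply, ← hSA x hx]
        exact ih _ (hSWx x hx)
    intro x hx
    rw [hpw p x hx, hA, add_pow_char_of_commute p ((Commute.one_left _).smul_left a),
      show b • M + c • M ^ 2 = M * (b • (1 : Module.End F V) + c • M) by
        rw [mul_add, mul_smul_comm, mul_one, mul_smul_comm, _root_.sq],
      (((Commute.one_right M).smul_right b).add_right ((Commute.refl M).smul_right c)).mul_pow,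
      hMp, zero_mul, add_zero, smul_pow, one_pow]
    rfl
  obtain ⟨j, -, hj⟩ := Nat.exists_mul_mod_eq_one_of_coprime (k := N) (n := p)
    ((hpp.coprime_iff_not_dvd).2 fun hd => by
      have h3 := Nat.dvd_sub hd (dvd_pow hpq (show m ≠ 0 by omega))
      rw [hN, Nat.add_sub_cancel_left] at h3
      exact hpp.ne_one (Nat.dvd_one.1 h3)) (by omega)
  have hSpow : (S ^ p) ^ j = S := by
    have h3 : (s ^ p) ^ j = s := by
      rw [← pow_mul, ← pow_mod_orderOf, hso, hj, pow_one]
    rw [hSdef, ← map_pow, ← map_pow, h3]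
  set α := (a ^ p) ^ j with hα
  have hSscal : ∀ x ∈ W, S x = α • x := by
    have h3 : ∀ k, ∀ x ∈ W, ((S ^ p) ^ k) x = (a ^ p) ^ k • x := by
      intro k
      induction k with
      | zero => intro x _; simp
      | succ k ih =>
        intro x hx
        rw [pow_succ', Module.End.mul_apply, ih x hx, map_smul, hSp x hx, smul_smul, pow_succ]
    intro x hx
    rw [hα, ← h3 j x hx, hSpow]
  have hα1 : α = 1 := by
    have hαs : α * α = 1 := by
      have h3 : polar Q (S v) (S v₂) = polar Q v v₂ := polar_apply s v v₂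
      rw [hSscal v hvW, hSscal v₂ hv2W, polar_smul_left, polar_smul_right] at h3
      simp only [smul_eq_mul, ← mul_assoc] at h3
      exact (mul_eq_right₀ hP02).1 h3
    rcases mul_self_eq_one_iff.1 hαs with h | h
    · exact h
    exfalso
    -- otherwise the parity would be wrong
    have hfix0 : fixSpace s = ⊥ := by
      rw [eq_bot_iff]
      intro x hx
      rw [mem_fixSpace] at hx
      change S x = x at hx
      obtain ⟨b', hb', w, hw, rfl⟩ := hsplit x
      rw [map_add, hSscal w hw, h, neg_one_smul] at hx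
      have hd : S b' - b' = w + w := by linear_combination (norm := abel) hx
      have h4 : w + w = 0 := Submodule.disjoint_def.1 hdisj _
        (hd ▸ B.sub_mem (hBinv s hρs b' hb') hb') (W.add_mem hw hw)
      have hw0 : w = 0 := by
        rw [← two_smul F w, smul_eq_zero] at h4
        exact h4.resolve_left h2
      subst hw0
      rw [add_zero, sub_eq_zero] at hd
      by_contra hb0
      rw [add_zero, Submodule.mem_bot] at hb0
      have hall := hfix s hρs b' hb' hb0 hd
      have hs2 : s ^ 2 = 1 := orth_ext fun y => by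
        obtain ⟨b'', hb'', w', hw', rfl⟩ := hsplit y
        show S (S (b'' + w')) = b'' + w'
        rw [map_add, hall b'' hb'', hSscal w' hw', h, neg_one_smul, map_add, hall b'' hb'', map_neg,
          hSscal w' hw', h, neg_one_smul, neg_neg]
      have h5 := Nat.le_of_dvd two_pos (hso ▸ orderOf_dvd_of_pow_eq_one hs2)
      omega
    have hrefl : reflGroup Q = ⊤ := by
      rw [← hgen]
      exact (sup_eq_left.2 (siegelGroup_le_reflGroup hQ (by omega))).symm
    have h3 := map_commutator_eq_one (parityHom hQ hrefl) ((commutator (orth Q)).pow_mem hg p)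
    rw [parityHom_apply, ← hs, parity, hfix0, finrank_bot, add_zero, hdim,
      Odd.neg_one_pow ⟨m + 1, by omega⟩] at h3
    exact absurd h3 (by decide)
  have hSW1 : ∀ x ∈ W, S x = x := fun x hx => by rw [hSscal x hx, hα1, one_smul]
  -- the sign on the level set
  set σ := levelHom Q 1 s with hσ
  have hσk : ∀ (k : ℕ) (x : {x : V // Q x = 1}), ((σ ^ k) x).1 = (S ^ k) x.1 := by
    intro k x
    rw [hσ, hSdef, ← map_pow, ← map_pow]
    rfl
  have hσfix : ∀ x, σ x = x ↔ x.1 ∈ W := by
    intro x
    have hσ1 : (σ x).1 = S x.1 := by simpa using hσk 1 x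
    constructor
    · intro h
      have h3 : S x.1 = x.1 := by rw [← hσ1, h]
      obtain ⟨b', hb', w, hw, hxe⟩ := hsplit x.1
      rw [← hxe, map_add, hSW1 w hw, add_left_inj] at h3
      by_cases hb0 : b' = 0
      · rw [← hxe, hb0, zero_add]; exact hw
      exfalso
      have hall := hfix s hρs b' hb' hb0 h3
      have hs1 : s = 1 := orth_ext fun y => by
        obtain ⟨b'', hb'', w', hw', rfl⟩ := hsplit y
        show S (b'' + w') = b'' + w'
        rw [map_add, hall b'' hb'', hSW1 w' hw']
      rw [hs1, orderOf_one] at hso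
      omega
    · intro h
      exact Subtype.ext (hσ1.trans (hSW1 _ h))
  obtain ⟨cc, hcc, hsign⟩ := exists_cycles σ (N := N)
    (by rw [hσ, ← map_pow, ← hso, pow_orderOf_eq_one, map_one]) (fun x hx k hk => by
      rw [← hso]
      refine orderOf_dvd_of_pow_eq_one ?_
      have h3 : (S ^ k) x.1 = x.1 := by rw [← hσk, hk]
      obtain ⟨b', hb', w, hw, hxe⟩ := hsplit x.1
      have hb0 : b' ≠ 0 := by
        rintro rfl
        exact hx ((hσfix x).2 (by rw [← hxe, zero_add]; exact hw))
      have hSk : ∀ (k : ℕ), ∀ y ∈ W, (S ^ k) y = y := by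
        intro k
        induction k with
        | zero => intro y _; rfl
        | succ k ih => intro y hy; rw [pow_succ', Module.End.mul_apply, ih y hy, hSW1 y hy]
      rw [← hxe, map_add, hSk k w hw, add_left_inj] at h3
      have hall := hfix (s ^ k) (hρs.pow_left k) b' hb' hb0 (by rw [map_pow]; exact h3)
      refine orth_ext fun y => ?_
      obtain ⟨b'', hb'', w', hw', rfl⟩ := hsplit y
      show toEnd Q (s ^ k) (b'' + w') = b'' + w'
      rw [map_add, hall b'' hb'', map_pow, hSk k w' hw'])
  have hsupp : σ.support.card + (q * (q - 1) + q * k₀) = q ^ (2 * m + 2) + q ^ (m + 1) := by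
    rw [← hSW, ← hS, Nat.card_eq_fintype_card,
      show (Finset.univ.filter fun x : {x : V // Q x = 1} => x.1 ∈ W) = σ.supportᶜ by
        ext x; simp only [Finset.mem_filter, Finset.mem_univ, true_and, Finset.mem_compl, Equiv.Perm.mem_support, not_not, hσfix],
      Finset.card_compl, Nat.add_sub_cancel' (Finset.card_le_univ _)]
  rw [hcc] at hsupp
  set D : ℤ := (q : ℤ) ^ 2 * ((q : ℤ) ^ m - 1) + q with hD
  have hkey : ((cc : ℤ) - D) * N = -((q : ℤ) * k₀) := by
    have h3 := congrArg (Nat.cast : ℕ → ℤ) hsupp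
    push_cast [show 1 ≤ q by omega] at h3
    have hN' : (N : ℤ) = (q : ℤ) ^ m + 1 := by rw [hN]; push_cast; ring
    rw [hN'] at h3 ⊢
    rw [hD]
    linear_combination h3
  have hcD : (cc : ℤ) = D := by
    by_contra hne
    have h3 : ((N : ℤ)) ≤ |((cc : ℤ) - D) * N| := by
      rw [abs_mul, Nat.abs_cast]
      exact le_mul_of_one_le_left (by omega) (Int.one_le_abs (sub_ne_zero.2 hne))
    rw [hkey, abs_neg, abs_of_nonneg (mul_nonneg (Int.natCast_nonneg _) (Int.natCast_nonneg _))] at h3
    have h4 : q * k₀ ≤ q * 2 := Nat.mul_le_mul_left q hk2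
    have h6 : (q : ℤ) * k₀ ≤ q * 2 := by exact_mod_cast h4
    have h7 : (2 : ℤ) * q < N := by exact_mod_cast hNbig
    linarith
  have hccodd : Odd cc := by
    rw [← Int.odd_coe_nat, hcD, hD]
    have hqZ : Odd (q : ℤ) := by exact_mod_cast hqodd
    exact (((hqZ.pow).sub_odd odd_one).mul_left _).add_odd hqZ
  letI := Fintype.ofFinite {x : V // Q x = 1}
  have h1 := map_commutator_eq_one (Equiv.Perm.sign.comp (levelHom Q 1)) ((commutator (orth Q)).pow_mem hg p)
  rw [MonoidHom.comp_apply, ← hs, ← hσ] at h1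
  have h5 : (-1 : ℤˣ) ^ (cc * N + cc) = -1 := ((hN2.mul_left cc).add_odd hccodd).neg_one_pow
  rw [h5] at hsign
  have h6 : (1 : ℤˣ) = -1 := h1.symm.trans (by convert hsign)
  exact absurd h6 (by decide)

end CfsgLib.KnownSimple.OddOrthSpectrum
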