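import Mathlib

/-!
Lower bounds for the degree of a matrix representation from orbits of characters of an
abelian subgroup `ι → F`, `F` a finite commutative ring with a primitive additive character.
-/

set_option autoImplicit false
set_option linter.unusedSectionVars false

open Matrix Finset

namespace CfsgLib.KnownSimple.OrbitBound

variable {F L ι δ : Type*} [CommRing F] [Fintype F] [DecidableEq F] [Field L] [Fintype ι] [DecidableEq ι]
  [Fintype δ] [DecidableEq δ]

/-- Unnormalised projection to the eigenspace of the character `a ↦ ψ (a ⬝ᵥ v)`. -/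
noncomputable def proj (ψ : AddChar F L) (M : (ι → F) → Matrix δ δ L) (v : ι → F) :
    Matrix δ δ L :=
  ∑ a : ι → F, ψ (-(a ⬝ᵥ v)) • M a

lemma sum_char_dot (ψ : AddChar F L) (hψ : ψ.IsPrimitive) (u : ι → F) (hu : u ≠ 0) :
    ∑ a : ι → F, ψ (a ⬝ᵥ u) = 0 := by
  classical
  obtain ⟨i, hi⟩ := Function.ne_iff.1 hu
  let φ : AddChar (ι → F) L :=
    { toFun := fun a => ψ (a ⬝ᵥ u)
      map_zero_eq_one' := by simp
      map_add_eq_mul' := fun a b => by rw [add_dotProduct, AddChar.map_add_eq_mul] }
  refine AddChar.sum_eq_zero_of_ne_one (ψ := φ) ?_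
  intro h
  apply hψ hi
  refine DFunLike.ext _ _ fun x => ?_
  have := congrArg (fun χ : AddChar (ι → F) L => χ (Pi.single i x)) h
  simpa [φ, AddChar.mulShift_apply, mul_comm] using this


variable (ψ : AddChar F L) (M : (ι → F) → Matrix δ δ L)

lemma mul_proj (hadd : ∀ a b, M (a + b) = M a * M b) (b v : ι → F) :
    M b * proj ψ M v = ψ (b ⬝ᵥ v) • proj ψ M v := by
  classical
  unfold proj
  rw [Matrix.mul_sum, Finset.smul_sum]
  refine Fintype.sum_equiv (Equiv.addLeft b) _ _ fun a => ?_
  simp only [Equiv.coe_addLeft, Matrix.mul_smul, smul_smul, ← hadd]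
  congr 1
  rw [← AddChar.map_add_eq_mul]
  congr 1
  rw [add_dotProduct]
  ring

lemma proj_mul_proj (hψ : ψ.IsPrimitive) (hadd : ∀ a b, M (a + b) = M a * M b) (w v : ι → F) :
    proj ψ M w * proj ψ M v =
      if w = v then (Fintype.card (ι → F) : L) • proj ψ M v else 0 := by
  classical
  have h : proj ψ M w * proj ψ M v = (∑ a : ι → F, ψ (a ⬝ᵥ (v - w))) • proj ψ M v := by
    conv_lhs => unfold proj; rw [Matrix.sum_mul]
    rw [Finset.sum_smul]
    refine Finset.sum_congr rfl fun a _ => ?_
    rw [Matrix.smul_mul, show (∑ x : ι → F, ψ (-(x ⬝ᵥ v)) • M x) = proj ψ M v from rfl,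
      mul_proj ψ M hadd, smul_smul, ← AddChar.map_add_eq_mul, dotProduct_sub]
    congr 2
    ring
  rw [h]
  split_ifs with hwv
  · subst hwv
    simp
  · rw [sum_char_dot ψ hψ _ (sub_ne_zero.2 (Ne.symm hwv)), zero_smul]

/-- The projections of distinct characters which are nonzero have independent images. -/
theorem card_le_of_proj_ne_zero (hψ : ψ.IsPrimitive) (hq : (Fintype.card F : L) ≠ 0)
    (hadd : ∀ a b, M (a + b) = M a * M b) (S : Finset (ι → F))
    (hS : ∀ v ∈ S, proj ψ M v ≠ 0) : S.card ≤ Fintype.card δ := by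
  classical
  have hcard : (Fintype.card (ι → F) : L) ≠ 0 := by
    rw [Fintype.card_fun, Nat.cast_pow]
    exact pow_ne_zero _ hq
  have hu : ∀ v : S, ∃ u : δ → L, proj ψ M v.1 *ᵥ u ≠ 0 := by
    intro v
    by_contra hc
    push Not at hc
    exact hS v.1 v.2 (Matrix.ext_iff_mulVec.2 fun u => by rw [hc u, Matrix.zero_mulVec])
  choose u hu using hu
  have hli : LinearIndependent L fun v : S => proj ψ M v.1 *ᵥ u v := by
    rw [Fintype.linearIndependent_iff]
    intro c hc w
    have := congrArg (fun x => proj ψ M w.1 *ᵥ x) hc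
    simp only [Matrix.mulVec_sum, Matrix.mulVec_smul, Matrix.mulVec_mulVec,
      proj_mul_proj ψ M hψ hadd, Matrix.mulVec_zero] at this
    rw [Finset.sum_eq_single w (fun v _ hv => by
      rw [if_neg (fun h => hv (Subtype.ext h).symm)]; simp) (by simp)] at this
    rw [if_pos rfl, Matrix.smul_mulVec] at this
    simpa only [smul_eq_zero, hu w, hcard, or_false, false_or] using this
  simpa using hli.fintype_card_le_finrank

/-- An element acting non-trivially is seen by some character occurring in `M`. -/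
theorem exists_proj_ne_zero (hψ : ψ.IsPrimitive) (hq : (Fintype.card F : L) ≠ 0)
    (h0 : M 0 = 1) (hadd : ∀ a b, M (a + b) = M a * M b) (b : ι → F) (hb : M b ≠ 1) :
    ∃ v, proj ψ M v ≠ 0 ∧ ψ (b ⬝ᵥ v) ≠ 1 := by
  classical
  by_contra hc
  push Not at hc
  have hsum : ∑ v, proj ψ M v = (Fintype.card (ι → F) : L) • (1 : Matrix δ δ L) := by
    unfold proj
    rw [Finset.sum_comm, Finset.sum_eq_single 0]
    · simp [h0, ← Nat.cast_smul_eq_nsmul L]
    · intro a _ ha
      rw [← Finset.sum_smul]
      have := sum_char_dot ψ hψ (-a) (neg_ne_zero.2 ha)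
      rw [Finset.sum_congr rfl fun v _ => by
        rw [show -(a ⬝ᵥ v) = v ⬝ᵥ (-a) by rw [dotProduct_neg, dotProduct_comm]], this, zero_smul]
    · simp
  have h1 : M b * ∑ v, proj ψ M v = ∑ v, proj ψ M v := by
    rw [Matrix.mul_sum]
    refine Finset.sum_congr rfl fun v _ => ?_
    rw [mul_proj ψ M hadd]
    by_cases hv : proj ψ M v = 0
    · simp [hv]
    · rw [hc v hv, one_smul]
  have hcard : (Fintype.card (ι → F) : L) ≠ 0 := by
    rw [Fintype.card_fun, Nat.cast_pow]
    exact pow_ne_zero _ hq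
  rw [hsum, Matrix.mul_smul, mul_one] at h1
  exact hb (smul_right_injective _ hcard h1)

/-- A symmetry of `M` moves occurring characters to occurring characters. -/
theorem proj_ne_zero_of_conj (σ : (ι → F) → (ι → F)) (hσ : Function.Injective σ)
    (P Q : Matrix δ δ L) (hQP : Q * P = 1) (hP : ∀ a, P * M a = M (σ a) * P)
    {v w : ι → F} (hvw : ∀ a, σ a ⬝ᵥ w = a ⬝ᵥ v) (hv : proj ψ M v ≠ 0) :
    proj ψ M w ≠ 0 := by
  classical
  intro hw
  have h : P * proj ψ M v = proj ψ M w * P := by
    unfold proj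
    rw [Matrix.mul_sum, Matrix.sum_mul]
    refine Fintype.sum_equiv (Equiv.ofBijective σ (Finite.injective_iff_bijective.1 hσ)) _ _
      fun a => ?_
    simp only [Equiv.ofBijective_apply, Matrix.mul_smul, Matrix.smul_mul, hP, hvw]
  rw [hw, zero_mul] at h
  apply hv
  rw [← one_mul (proj ψ M v), ← hQP, mul_assoc, h, mul_zero]

end CfsgLib.KnownSimple.OrbitBound
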