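import Cfsg.Agent.Lib.CharDegrees.SUElements
import Cfsg.Agent.Lib.Amalgams.UnitaryThree

/-!
The element orders of `PSU 3 F q` in odd characteristic.
-/

set_option autoImplicit false
set_option linter.unusedSectionVars false

namespace CfsgLib.KnownSimple.PSUThree

open Polynomial Matrix CfsgLib.CharDegrees CfsgLib.Amalgams CfsgLib.Generators

/-! ### A scalar power from three eigenvalues -/

section closed

variable {E : Type*} [Field E] {M : Matrix (Fin 3) (Fin 3) E} {r₁ r₂ r₃ : E}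

theorem pow_eq_scalar_of_ne (hch : M.charpoly = (X - C r₁) * (X - C r₂) * (X - C r₃))
    (h12 : r₁ ≠ r₂) (h13 : r₁ ≠ r₃) (h23 : r₂ ≠ r₃) {N : ℕ} {x : E}
    (h1 : r₁ ^ N = x) (h2 : r₂ ^ N = x) (h3 : r₃ ^ N = x) : M ^ N = Matrix.scalar (Fin 3) x := by
  have hd : ∀ r : E, r ^ N = x → X - C r ∣ (X ^ N - C x : E[X]) := fun r hr =>
    dvd_iff_isRoot.2 (by simp [hr])
  obtain ⟨w, hw⟩ : M.charpoly ∣ X ^ N - C x := by
    rw [hch]
    exact (((isCoprime_X_sub_C_of_isUnit_sub (sub_ne_zero.2 h13).isUnit).mul_left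
      (isCoprime_X_sub_C_of_isUnit_sub (sub_ne_zero.2 h23).isUnit))).mul_dvd
      ((isCoprime_X_sub_C_of_isUnit_sub (sub_ne_zero.2 h12).isUnit).mul_dvd (hd _ h1) (hd _ h2)) (hd _ h3)
  have h := congrArg (aeval M) hw
  rw [map_mul, Matrix.aeval_self_charpoly, zero_mul, map_sub, map_pow, aeval_X, aeval_C, sub_eq_zero] at h
  rw [h]
  rfl

theorem pow_eq_scalar_of_char (p : ℕ) [Fact p.Prime] [CharP E p] (hp : 3 ≤ p)
    (hch : M.charpoly = (X - C r₁) * (X - C r₂) * (X - C r₃)) {k : ℕ} {x : E}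
    (h1 : r₁ ^ k = x) (h2 : r₂ ^ k = x) (h3 : r₃ ^ k = x) :
    M ^ (k * p) = Matrix.scalar (Fin 3) (x ^ p) := by
  haveI : CharP (Matrix (Fin 3) (Fin 3) E) p :=
    charP_of_injective_algebraMap (algebraMap E (Matrix (Fin 3) (Fin 3) E)).injective p
  have hd : ∀ r : E, r ^ k = x → X - C r ∣ (X ^ k - C x : E[X]) := fun r hr =>
    dvd_iff_isRoot.2 (by simp [hr])
  obtain ⟨w, hw⟩ : M.charpoly ∣ (X ^ k - C x) ^ 3 := by
    rw [hch, pow_three, mul_assoc]
    exact mul_dvd_mul (hd _ h1) (mul_dvd_mul (hd _ h2) (hd _ h3))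
  have h := congrArg (aeval M) hw
  rw [map_mul, Matrix.aeval_self_charpoly, zero_mul, map_pow, map_sub, map_pow, aeval_X, aeval_C] at h
  have hp0 : (M ^ k - algebraMap E (Matrix (Fin 3) (Fin 3) E) x) ^ p = 0 :=
    pow_eq_zero_of_le hp h
  rw [sub_pow_char_of_commute p (Algebra.commute_algebraMap_right _ _), sub_eq_zero, ← pow_mul, ← map_pow]
    at hp0
  rw [hp0]
  rfl

end closed

/-- The four maximal element orders. -/
def orderSet (p q : ℕ) : Set ℕ :=
  {q + 1, p * (q + 1) / Nat.gcd 3 (q + 1), (q ^ 2 - 1) / Nat.gcd 3 (q + 1),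
    (q ^ 2 - q + 1) / Nat.gcd 3 (q + 1)}

section combinatorics

variable {E : Type*} [Field E] {q : ℕ}

/-- The map on eigenvalues coming from the unitary condition. -/
def invPow (q : ℕ) (r : E) : E := (r ^ q)⁻¹

theorem pow_succ_eq_one_of_fix {r : E} (h0 : r ≠ 0) (h : invPow q r = r) : r ^ (q + 1) = 1 := by
  rw [invPow] at h
  rw [pow_succ]
  nth_rewrite 2 [← h]
  exact mul_inv_cancel₀ (pow_ne_zero _ h0)

theorem invPow_pow {r x : E} {N : ℕ} (hr : r ^ N = x) (hx : x ^ (q + 1) = 1) : invPow q r ^ N = x := by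
  rw [invPow, inv_pow, ← pow_mul, mul_comm, pow_mul, hr]
  exact inv_eq_of_mul_eq_one_right (by rw [← pow_succ]; exact hx)

end combinatorics

theorem dvd_facts {q : ℕ} (_hq : 1 ≤ q) :
    q ^ 2 - 1 ∣ (q ^ 2 - 1) / Nat.gcd 3 (q + 1) * (q + 1) ∧
      q ^ 2 - 1 ∣ 3 * ((q ^ 2 - 1) / Nat.gcd 3 (q + 1)) ∧
      q + 1 ∣ 3 * ((q + 1) / Nat.gcd 3 (q + 1)) ∧
      Nat.gcd 3 (q + 1) ∣ q ^ 2 - q + 1 ∧
      Nat.gcd 3 (q + 1) ∣ q ^ 2 - 1 := by
  set d := Nat.gcd 3 (q + 1)
  have hd : d ∣ q + 1 := Nat.gcd_dvd_right _ _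
  have hd3 : d ∣ 3 := Nat.gcd_dvd_left _ _
  have h2 : d ∣ q ^ 2 - 1 := hd.trans ⟨q - 1, by rw [← Nat.sq_sub_sq, one_pow]⟩
  refine ⟨?_, ?_, ?_, ?_, h2⟩
  · obtain ⟨w, hw⟩ := hd
    rw [hw, ← mul_assoc, Nat.div_mul_cancel h2]
    exact dvd_mul_right _ _
  · obtain ⟨w, hw⟩ := hd3
    rw [hw]
    rw [mul_comm d, mul_assoc, Nat.mul_div_cancel' h2]
    exact dvd_mul_left _ _
  · obtain ⟨w, hw⟩ := hd3
    rw [hw, mul_comm d, mul_assoc, Nat.mul_div_cancel' hd]
    exact dvd_mul_left _ _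
  · have h3 : q ^ 2 - q + 1 + 2 * (q + 1) = q ^ 2 + q + 3 := by
      have : q ≤ q ^ 2 := Nat.le_self_pow two_ne_zero q
      omega
    have h4 : d ∣ q ^ 2 + q + 3 := by
      refine dvd_add ?_ hd3
      rw [sq, ← Nat.mul_succ]
      exact hd.mul_left q
    exact (Nat.dvd_add_left (hd.mul_left 2)).1 (h3 ▸ h4)

variable {F : Type*} [Field F] [Fintype F] {q : ℕ}

set_option maxHeartbeats 1000000 in
/-- Every element of `SU 3` has a power in the list which is scalar. -/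
theorem exists_pow_scalar (p : ℕ) [Fact p.Prime] [CharP F p] (hp : p ≠ 2)
    (hF : Fintype.card F = q ^ 2) (A : Cfsg.SU 3 F q) :
    ∃ s ∈ orderSet p q, ∃ c : F, suMat A ^ s = Matrix.scalar (Fin 3) c := by
  classical
  let E := AlgebraicClosure F
  haveI : CharP E p := charP_of_injective_algebraMap (algebraMap F E).injective p
  let ι := algebraMap F E
  have hp3 : 3 ≤ p := by have := (Fact.out : p.Prime).two_le; omega
  have hq1 := one_lt_of_card_eq_sq hF
  obtain ⟨a, ha⟩ : ∃ a, q = p ^ a := by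
    obtain ⟨k, hprime, hk⟩ := FiniteField.card F p
    obtain ⟨j, -, hj⟩ := (Nat.dvd_prime_pow hprime).mp (show q ∣ p ^ (k : ℕ) from ⟨q, by rw [← hk, hF]; ring⟩)
    exact ⟨j, hj⟩
  set M : Matrix (Fin 3) (Fin 3) E := (suMat A).map ι with hM
  suffices h : ∃ s ∈ orderSet p q, ∃ x : E, M ^ s = Matrix.scalar (Fin 3) x by
    obtain ⟨s, hs, x, hx⟩ := h
    refine ⟨s, hs, (suMat A ^ s) 0 0, ?_⟩
    have e : ∀ i j, ι ((suMat A ^ s) i j) = Matrix.scalar (Fin 3) x i j := by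
      intro i j
      rw [← hx, hM, show (suMat A).map ι = ι.mapMatrix (suMat A) from rfl, ← map_pow]
      rfl
    ext i j
    apply ι.injective
    rw [e, Matrix.scalar_apply, Matrix.scalar_apply]
    by_cases hij : i = j
    · subst hij
      rw [Matrix.diagonal_apply_eq, Matrix.diagonal_apply_eq, e, Matrix.scalar_apply, Matrix.diagonal_apply_eq]
    · rw [Matrix.diagonal_apply_ne _ hij, Matrix.diagonal_apply_ne _ hij, map_zero]
  have hdet : M.det = 1 := by
    rw [hM, show (suMat A).map ι = ι.mapMatrix (suMat A) from rfl, ← RingHom.map_det,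
      (A : Matrix.SpecialLinearGroup (Fin 3) F).2, map_one]
  obtain ⟨r₁, r₂, r₃, hrs⟩ : ∃ r₁ r₂ r₃, M.charpoly.roots = {r₁, r₂, r₃} := by
    refine Multiset.card_eq_three.1 ?_
    rw [← (IsAlgClosed.splits M.charpoly).natDegree_eq_card_roots, Matrix.charpoly_natDegree_eq_dim,
      Fintype.card_fin]
  have hch : M.charpoly = (X - C r₁) * (X - C r₂) * (X - C r₃) := by
    rw [(IsAlgClosed.splits M.charpoly).eq_prod_roots_of_monic M.charpoly_monic, hrs]
    simp [mul_assoc]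
  have hprod : r₁ * r₂ * r₃ = 1 := by
    rw [← hdet, Matrix.det_eq_prod_roots_charpoly, hrs]
    simp [mul_assoc]
  have h10 : r₁ ≠ 0 := left_ne_zero_of_mul (left_ne_zero_of_mul (by rw [hprod]; exact one_ne_zero))
  have h20 : r₂ ≠ 0 := right_ne_zero_of_mul (left_ne_zero_of_mul (by rw [hprod]; exact one_ne_zero))
  have h30 : r₃ ≠ 0 := right_ne_zero_of_mul (a := r₁ * r₂) (by rw [hprod]; exact one_ne_zero)
  have hroot : ∀ {r}, (r = r₁ ∨ r = r₂ ∨ r = r₃) → M.charpoly.eval r = 0 := by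
    rintro r (rfl | rfl | rfl) <;> simp [hch]
  have hclosed : ∀ {r}, (r = r₁ ∨ r = r₂ ∨ r = r₃) →
      invPow q r = r₁ ∨ invPow q r = r₂ ∨ invPow q r = r₃ := by
    intro r hr
    have hr0 : r ≠ 0 := by rcases hr with rfl | rfl | rfl <;> assumption
    have h1 := hroot hr
    rw [Matrix.eval_charpoly] at h1
    set φ := iterateFrobenius E p a
    have hφ : ∀ x, φ x = x ^ q := fun x => by rw [iterateFrobenius_def, ha]
    set W : Matrix (Fin 3) (Fin 3) E := ((qAdjoint q (suMat A)).map ι)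
    have h2 : (Matrix.scalar (Fin 3) (r ^ q) - W).det = 0 := by
      have h3 := congrArg φ h1
      rw [map_zero, RingHom.map_det] at h3
      rw [← h3, ← Matrix.det_transpose]
      congr 1
      ext i j
      rw [RingHom.mapMatrix_apply, Matrix.map_apply, Matrix.sub_apply, map_sub]
      simp [W, M, qAdjoint, hφ, Matrix.scalar_apply, Matrix.diagonal_apply, eq_comm]
      split_ifs <;> simp [ha, zero_pow (pow_ne_zero a (Fact.out : p.Prime).ne_zero)]
    have hWM : W * M = 1 := by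
      rw [← Matrix.map_mul, (CfsgLib.CharDegrees.mem_SU_iff hF _).1 A.2,
        Matrix.map_one ι (map_zero _) (map_one _)]
    have h4 : ((Matrix.scalar (Fin 3) (r ^ q) - W) * M).det = 0 := by rw [Matrix.det_mul, h2, zero_mul]
    have h5 : (Matrix.scalar (Fin 3) (r ^ q) - W) * M =
        -((r ^ q) • (Matrix.scalar (Fin 3) (invPow q r) - M)) := by
      rw [sub_mul, hWM, smul_sub]
      rw [show Matrix.scalar (Fin 3) (r ^ q) * M = (r ^ q) • M by
          ext i j; simp [Matrix.scalar_apply, Matrix.diagonal_mul],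
          show (r ^ q) • Matrix.scalar (Fin 3) (invPow q r) = (1 : Matrix (Fin 3) (Fin 3) E) by
            ext i j
            by_cases hij : i = j <;>
              simp [Matrix.scalar_apply, invPow, hij, Matrix.one_apply, mul_inv_cancel₀ (pow_ne_zero q hr0)]]
      abel
    rw [h5, Matrix.det_neg, Matrix.det_smul, mul_eq_zero, mul_eq_zero] at h4
    have h6 : M.charpoly.eval (invPow q r) = 0 := by
      rw [Matrix.eval_charpoly]
      rcases h4 with h | h | h
      · exact absurd h (pow_ne_zero _ (neg_ne_zero.2 one_ne_zero))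
      · exact absurd h (pow_ne_zero _ (pow_ne_zero _ hr0))
      · exact h
    simpa [hch, sub_eq_zero, or_assoc] using h6
  have hinj : Function.Injective (invPow q : E → E) := fun x y h =>
    iterateFrobenius_inj E p a (by
      rw [iterateFrobenius_def, iterateFrobenius_def, ← ha]; exact inv_injective h)
  obtain ⟨hN1, hN2, hk3, hd0, -⟩ := dvd_facts (q := q) hq1.le
  set d := Nat.gcd 3 (q + 1)
  have hd : d ∣ q + 1 := Nat.gcd_dvd_right _ _
  have hd3 : d ∣ 3 := Nat.gcd_dvd_left _ _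
  have hpow : ∀ {x : E} {m n : ℕ}, x ^ m = 1 → m ∣ n → x ^ n = 1 := fun {x m n} h ⟨w, hw⟩ => by
    rw [hw, pow_mul, h, one_pow]
  by_cases hdist : r₁ ≠ r₂ ∧ r₁ ≠ r₃ ∧ r₂ ≠ r₃
  · obtain ⟨h12, h13, h23⟩ := hdist
    have swap : ∀ s₁ s₂ s₃ : E, s₂ ≠ 0 → s₁ * s₂ * s₃ = 1 → invPow q s₂ = s₃ → invPow q s₃ = s₂ →
        ∃ x, s₁ ^ ((q ^ 2 - 1) / d) = x ∧ s₂ ^ ((q ^ 2 - 1) / d) = x ∧ s₃ ^ ((q ^ 2 - 1) / d) = x := by
      intro s₁ s₂ s₃ hs0 hpr h3 h2
      have hsq : s₂ ^ (q ^ 2 - 1) = 1 := by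
        have e : s₂ ^ (q ^ 2) = s₂ := by
          conv_rhs => rw [← h2, ← h3, invPow, invPow, inv_pow, inv_inv, ← pow_mul, ← sq]
        refine mul_right_cancel₀ hs0 ?_
        rw [← pow_succ, Nat.sub_add_cancel (Nat.one_le_pow _ _ (by omega)), one_mul, e]
      set N := (q ^ 2 - 1) / d
      set x := s₂ ^ N with hx
      have hx1 : x ^ (q + 1) = 1 := by rw [hx, ← pow_mul]; exact hpow hsq hN1
      have hx3 : x ^ 3 = 1 := by rw [hx, ← pow_mul, mul_comm]; exact hpow hsq hN2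
      have h3' : s₃ ^ N = x := by rw [← h3]; exact invPow_pow rfl hx1
      refine ⟨x, ?_, rfl, h3'⟩
      have := congrArg (· ^ N) hpr
      simp only [one_pow, mul_pow, h3', ← hx] at this
      linear_combination x * this - s₁ ^ N * hx3
    by_cases hex : invPow q r₁ = r₁ ∧ invPow q r₂ = r₂ ∧ invPow q r₃ = r₃
    · obtain ⟨e1, e2, e3⟩ := hex
      exact ⟨q + 1, by simp [orderSet], 1, pow_eq_scalar_of_ne hch h12 h13 h23
        (pow_succ_eq_one_of_fix h10 e1) (pow_succ_eq_one_of_fix h20 e2) (pow_succ_eq_one_of_fix h30 e3)⟩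
    have hswapcase : (invPow q r₁ = r₁ ∧ invPow q r₂ = r₃ ∧ invPow q r₃ = r₂) ∨
        (invPow q r₂ = r₂ ∧ invPow q r₁ = r₃ ∧ invPow q r₃ = r₁) ∨
        (invPow q r₃ = r₃ ∧ invPow q r₁ = r₂ ∧ invPow q r₂ = r₁) ∨
        (invPow q r₁ = r₂ ∧ invPow q r₂ = r₃ ∧ invPow q r₃ = r₁) ∨
        (invPow q r₁ = r₃ ∧ invPow q r₃ = r₂ ∧ invPow q r₂ = r₁) := by
      have i12 := fun h => h12 (hinj h)
      have i13 := fun h => h13 (hinj h)
      have i23 := fun h => h23 (hinj h)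
      rcases hclosed (Or.inl rfl) with a1 | a1 | a1 <;>
        rcases hclosed (Or.inr (Or.inl rfl)) with a2 | a2 | a2 <;>
        rcases hclosed (Or.inr (Or.inr rfl)) with a3 | a3 | a3 <;>
        first
          | exact (i12 (a1.trans a2.symm)).elim
          | exact (i13 (a1.trans a3.symm)).elim
          | exact (i23 (a2.trans a3.symm)).elim
          | exact (hex ⟨a1, a2, a3⟩).elim
          | exact Or.inl ⟨a1, a2, a3⟩
          | exact Or.inr (Or.inl ⟨a2, a1, a3⟩)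
          | exact Or.inr (Or.inr (Or.inl ⟨a3, a1, a2⟩))
          | exact Or.inr (Or.inr (Or.inr (Or.inl ⟨a1, a2, a3⟩)))
          | exact Or.inr (Or.inr (Or.inr (Or.inr ⟨a1, a3, a2⟩)))
    rcases hswapcase with ⟨-, e, e'⟩ | ⟨-, e, e'⟩ | ⟨-, e, e'⟩ | h | h
    · obtain ⟨x, x1, x2, x3⟩ := swap r₁ r₂ r₃ h20 hprod e e'
      exact ⟨_, by simp [orderSet, d], x, pow_eq_scalar_of_ne hch h12 h13 h23 x1 x2 x3⟩
    · obtain ⟨x, x2, x1, x3⟩ := swap r₂ r₁ r₃ h10 (by rw [mul_comm r₂]; exact hprod) e e'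
      exact ⟨_, by simp [orderSet, d], x, pow_eq_scalar_of_ne hch h12 h13 h23 x1 x2 x3⟩
    · obtain ⟨x, x3, x1, x2⟩ := swap r₃ r₁ r₂ h10 (by linear_combination hprod) e e'
      exact ⟨_, by simp [orderSet, d], x, pow_eq_scalar_of_ne hch h12 h13 h23 x1 x2 x3⟩
    all_goals
      have cyc : ∀ s₁ s₂ s₃ : E, s₁ ≠ 0 → s₁ * s₂ * s₃ = 1 → invPow q s₁ = s₂ → invPow q s₂ = s₃ →
          ∃ x, s₁ ^ ((q ^ 2 - q + 1) / d) = x ∧ s₂ ^ ((q ^ 2 - q + 1) / d) = x ∧
            s₃ ^ ((q ^ 2 - q + 1) / d) = x := by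
        intro s₁ s₂ s₃ hs0 hpr h2 h3
        have hsq : s₁ ^ (q ^ 2 - q + 1) = 1 := by
          have e : s₁ * (s₁ ^ q)⁻¹ * s₁ ^ (q ^ 2) = 1 := by
            rw [← h3, ← h2, invPow, invPow, inv_pow, inv_inv, ← pow_mul, ← sq] at hpr
            exact hpr
          refine mul_right_cancel₀ (pow_ne_zero q hs0) ?_
          rw [← pow_add, one_mul]
          have hle : q ≤ q ^ 2 := Nat.le_self_pow two_ne_zero q
          rw [show q ^ 2 - q + 1 + q = q ^ 2 + 1 by omega, pow_succ]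
          calc s₁ ^ (q ^ 2) * s₁ = s₁ * (s₁ ^ q)⁻¹ * s₁ ^ (q ^ 2) * s₁ ^ q := by
                linear_combination -(s₁ * s₁ ^ (q ^ 2)) * inv_mul_cancel₀ (pow_ne_zero q hs0)
            _ = s₁ ^ q := by rw [e, one_mul]
        set N := (q ^ 2 - q + 1) / d
        have hxd : (s₁ ^ N) ^ d = 1 := by rw [← pow_mul, Nat.div_mul_cancel hd0]; exact hsq
        have hx1 : (s₁ ^ N) ^ (q + 1) = 1 := hpow hxd hd
        have h2' : s₂ ^ N = s₁ ^ N := by rw [← h2]; exact invPow_pow rfl hx1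
        exact ⟨_, rfl, h2', by rw [← h3]; exact invPow_pow h2' hx1⟩
    · obtain ⟨e, e', -⟩ := h
      obtain ⟨x, x1, x2, x3⟩ := cyc r₁ r₂ r₃ h10 hprod e e'
      exact ⟨_, by simp [orderSet, d], x, pow_eq_scalar_of_ne hch h12 h13 h23 x1 x2 x3⟩
    · obtain ⟨e, e', -⟩ := h
      obtain ⟨x, x1, x3, x2⟩ := cyc r₁ r₃ r₂ h10 (by linear_combination hprod) e e'
      exact ⟨_, by simp [orderSet, d], x, pow_eq_scalar_of_ne hch h12 h13 h23 x1 x2 x3⟩
  · -- a repeated eigenvalue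
    obtain ⟨l, m, hl, hm, hlm, hpr, hl0, hch'⟩ : ∃ l m, (l = r₁ ∨ l = r₂ ∨ l = r₃) ∧
        (m = r₁ ∨ m = r₂ ∨ m = r₃) ∧ (∀ r, r = r₁ ∨ r = r₂ ∨ r = r₃ → r = l ∨ r = m) ∧
        l * l * m = 1 ∧ l ≠ 0 ∧ M.charpoly = (X - C l) * (X - C l) * (X - C m) := by
      push Not at hdist
      by_cases h12 : r₁ = r₂
      · subst h12
        exact ⟨r₁, r₃, by simp, by simp, by aesop, hprod, h10, hch⟩
      · by_cases h13 : r₁ = r₃
        · subst h13
          exact ⟨r₁, r₂, by simp, by simp, by aesop, by linear_combination hprod, h10, by rw [hch]; ring⟩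
        · have h23 := hdist h12 h13
          subst h23
          exact ⟨r₂, r₁, by simp, by simp, by aesop, by linear_combination hprod, h20, by rw [hch]; ring⟩
    have hfix : l ^ (q + 1) = 1 := by
      refine pow_succ_eq_one_of_fix hl0 ?_
      rcases hlm _ (hclosed hl) with h | h
      · exact h
      rcases hlm _ (hclosed hm) with h' | h'
      · have hm' : m = (l ^ 2)⁻¹ := eq_inv_of_mul_eq_one_right (by rw [sq]; exact hpr)
        have e1 : l ^ q = l ^ 2 := inv_injective (by rw [← hm']; exact h)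
        have e3 : l ^ 3 = 1 := by
          rw [invPow, hm', inv_pow, inv_inv, ← pow_mul, mul_comm, pow_mul, e1, ← pow_mul] at h'
          refine mul_left_cancel₀ hl0 ?_
          rw [← pow_succ', mul_one]
          exact h'
        have : m = l := by rw [hm']; exact inv_eq_of_mul_eq_one_right (by rw [← pow_succ]; exact e3)
        exact h.trans this
      · rw [hinj (h.trans h'.symm)]
        exact h'
    set k := (q + 1) / d
    have hx3 : (l ^ k) ^ 3 = 1 := by rw [← pow_mul, mul_comm]; exact hpow hfix hk3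
    have hmk : m ^ k = l ^ k := by
      have := congrArg (· ^ k) hpr
      simp only [one_pow, mul_pow] at this
      linear_combination (l ^ k) * this - m ^ k * hx3
    refine ⟨k * p, ?_, _, pow_eq_scalar_of_char p hp3 hch' rfl rfl hmk⟩
    simp only [orderSet, Set.mem_insert_iff]
    exact Or.inr (Or.inl (by rw [Nat.mul_div_assoc _ hd, mul_comm]))

/-! ### Elements of the maximal orders -/

theorem exists_unit_order (hF : Fintype.card F = q ^ 2) {N : ℕ} (hN : N ∣ q ^ 2 - 1) :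
    ∃ a : F, a ≠ 0 ∧ ∀ s : ℕ, a ^ s = 1 ↔ N ∣ s := by
  obtain ⟨g, hg⟩ := IsCyclic.exists_ofOrder_eq_natCard (α := Fˣ)
  rw [Nat.card_units, Nat.card_eq_fintype_card, hF] at hg
  have hq1 := one_lt_of_card_eq_sq hF
  have hq2 : 1 < q ^ 2 := one_lt_pow₀ hq1 two_ne_zero
  refine ⟨((g ^ (orderOf g / N) : Fˣ) : F), Units.ne_zero _, fun s => ?_⟩
  rw [← Units.val_pow_eq_pow_val, Units.val_eq_one, ← orderOf_dvd_iff_pow_eq_one,
    orderOf_pow_orderOf_div (by omega) (hg ▸ hN)]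

theorem orderOf_eq_of_forall {G : Type*} [Monoid G] {g : G} {N : ℕ} (h : ∀ s : ℕ, g ^ s = 1 ↔ N ∣ s) :
    orderOf g = N :=
  Nat.dvd_antisymm (orderOf_dvd_of_pow_eq_one ((h N).2 dvd_rfl)) ((h _).1 (pow_orderOf_eq_one g))

theorem exists_order_succ (hF : Fintype.card F = q ^ 2) :
    ∃ x : Cfsg.PSU 3 F q, orderOf x = q + 1 := by
  have hq1 := one_lt_of_card_eq_sq hF
  obtain ⟨a, ha0, ha⟩ := exists_unit_order hF (N := q + 1) ⟨q - 1, by rw [← Nat.sq_sub_sq, one_pow]⟩
  have hq : a ^ (q + 1) = 1 := (ha _).2 dvd_rfl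
  obtain ⟨A, hA⟩ := exists_su_of_qAdjoint hF (Matrix.diagonal ![a, a⁻¹, 1]) (by
      rw [qAdjoint_diagonal hF, Matrix.diagonal_mul_diagonal, ← Matrix.diagonal_one]
      congr 1
      funext i
      rw [← pow_succ]
      fin_cases i <;> simp [hq, inv_pow])
    (by simp [Matrix.det_diagonal, Fin.prod_univ_three, ha0])
  refine ⟨toPSU A, orderOf_eq_of_forall fun s => ?_⟩
  rw [← map_pow, toPSU_eq_one_iff hF le_rfl, suMat_pow, hA, Matrix.diagonal_pow, ← ha]
  constructor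
  · rintro ⟨c, hc⟩
    have h0 := congrFun (congrFun hc 0) 0
    have h2 := congrFun (congrFun hc 2) 2
    simp at h0 h2
    exact h0.trans h2.symm
  · intro h
    refine ⟨1, ?_⟩
    rw [map_one, ← Matrix.diagonal_one]
    congr 1
    funext i
    fin_cases i <;> simp [h, inv_pow]

section anti

variable {σ : F →+* F}

theorem center_entries (h : UniField F σ q) {g : suAnti σ} (hg : g ∈ Subgroup.center (suAnti σ))
    {x y w z : F} (he : mat₃ σ g = !![x, 0, z; 0, y, 0; 0, 0, w]) : x = y ∧ y = w ∧ z = 0 := by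
  obtain ⟨c, hc⟩ := h.exists_trace (a := -1) (by simp)
  have hc' : c + σ c + (1 : F) * σ 1 = 0 := by rw [map_one, mul_one, hc, neg_add_cancel]
  have h1 := congrArg (mat₃ σ) (Subgroup.mem_center_iff.1 hg (uEl₃ h.conj_conj 1 c hc'))
  have h2 := congrArg (mat₃ σ) (Subgroup.mem_center_iff.1 hg (wEl₃ σ))
  rw [map_mul, map_mul, he, mat₃_uEl] at h1
  rw [map_mul, map_mul, he, mat₃_wEl] at h2
  have a01 := congrFun (congrFun h1 0) 1
  have a12 := congrFun (congrFun h1 1) 2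
  have b00 := congrFun (congrFun h2 0) 0
  simp [uMat₃, Matrix.mul_apply, Fin.sum_univ_three] at a01 a12
  simp [wMat₃, Matrix.mul_apply, Fin.sum_univ_three] at b00
  exact ⟨a01.symm, a12.symm, b00.symm⟩

theorem mem_center_of_scalar {g : suAnti σ} {x : F} (he : mat₃ σ g = Matrix.scalar (Fin 3) x) :
    g ∈ Subgroup.center (suAnti σ) :=
  Subgroup.mem_center_iff.2 fun u => mat₃_injective σ (by
    rw [map_mul, map_mul, he]
    exact (Matrix.scalar_commute x (fun r => Commute.all _ _) _).eq.symm)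

theorem exists_order_of_anti (h : UniField F σ q) {g : suAnti σ} {N : ℕ}
    (hg : ∀ s, g ^ s ∈ Subgroup.center (suAnti σ) ↔ N ∣ s) :
    ∃ x : Cfsg.PSU 3 F q, orderOf x = N := by
  obtain ⟨e⟩ := exists_suAnti_equiv h
  refine ⟨toPSU (e g), orderOf_eq_of_forall fun s => ?_⟩
  rw [← map_pow, QuotientGroup.mk'_apply, QuotientGroup.eq_one_iff, ← map_pow, ← hg]
  constructor
  · intro hc
    exact Subgroup.mem_center_iff.2 fun u => e.injective (by
      rw [map_mul, map_mul]; exact Subgroup.mem_center_iff.1 hc (e u))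
  · intro hc
    exact Subgroup.mem_center_iff.2 fun u => e.symm.injective (by
      rw [map_mul, map_mul, e.symm_apply_apply]; exact Subgroup.mem_center_iff.1 hc (e.symm u))

theorem exists_order_torus (h : UniField F σ q) (hF : Fintype.card F = q ^ 2) :
    ∃ x : Cfsg.PSU 3 F q, orderOf x = (q ^ 2 - 1) / Nat.gcd 3 (q + 1) := by
  obtain ⟨l, hl0, hl⟩ := exists_unit_order hF (N := q ^ 2 - 1) dvd_rfl
  have hq1 := one_lt_of_card_eq_sq hF
  obtain ⟨hN1, hN2, -, -, hd⟩ := dvd_facts (q := q) hq1.le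
  set N := (q ^ 2 - 1) / Nat.gcd 3 (q + 1)
  have hlq : l ^ (q ^ 2) = l := hF ▸ FiniteField.pow_card l
  let D : Fin 3 → F := ![l, l ^ q / l, (l ^ q)⁻¹]
  have hdet : (Matrix.diagonal D).det = 1 := by
    simp [D, Matrix.det_diagonal, Fin.prod_univ_three]
    field_simp
  have hmem : (⟨Matrix.diagonal D, hdet⟩ : Matrix.SpecialLinearGroup (Fin 3) F) ∈ suAnti σ := by
    refine mem_suAnti.2 ?_
    show (Matrix.diagonal D)ᵀ * antiForm * (Matrix.diagonal D).map σ = antiForm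
    ext i j
    fin_cases i <;> fin_cases j <;>
      simp [D, antiForm, Matrix.mul_apply, Fin.sum_univ_three, h.apply_eq, zero_pow (show q ≠ 0 by omega), div_pow, inv_pow, ← pow_mul,
        ← sq, hlq, hl0] 
  refine exists_order_of_anti h (g := ⟨_, hmem⟩) fun s => ?_
  have hpow : mat₃ σ ((⟨_, hmem⟩ : suAnti σ) ^ s) = Matrix.diagonal fun i => D i ^ s := by
    rw [map_pow]
    exact Matrix.diagonal_pow D s
  constructor
  · intro hc
    obtain ⟨e1, e2, -⟩ := center_entries h hc (x := D 0 ^ s) (y := D 1 ^ s) (w := D 2 ^ s) (z := 0) (by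
      rw [hpow]
      ext i j
      fin_cases i <;> fin_cases j <;> simp)
    have hprod : D 0 * D 1 * D 2 = 1 := by
      simp [D]
      field_simp
    have h3 : l ^ (3 * s) = 1 := by
      have := congrArg (· ^ s) hprod
      simp only [mul_pow, one_pow, ← e2, ← e1] at this
      rw [mul_comm, pow_mul, pow_three, ← mul_assoc]
      simpa [D] using this
    have hs1 : l ^ ((q + 1) * s) = 1 := by
      have e3 : l ^ s = ((l ^ q)⁻¹) ^ s := e1.trans e2
      rw [inv_pow] at e3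
      rw [add_mul, one_mul, pow_add, pow_mul]
      conv_lhs => arg 2; rw [e3]
      exact mul_inv_cancel₀ (pow_ne_zero _ (pow_ne_zero _ hl0))
    have h4 : q ^ 2 - 1 ∣ Nat.gcd 3 (q + 1) * s := by
      rw [← Nat.gcd_mul_right]
      exact Nat.dvd_gcd ((hl _).1 h3) ((hl _).1 hs1)
    exact (Nat.div_dvd_iff_dvd_mul hd (Nat.gcd_pos_of_pos_right _ (by omega))).2 h4
  · rintro ⟨w, rfl⟩
    set x := l ^ N with hx
    have hx1 : x ^ (q + 1) = 1 := by rw [hx, ← pow_mul]; exact (hl _).2 hN1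
    have hx3 : x ^ 3 = 1 := by rw [hx, ← pow_mul, mul_comm]; exact (hl _).2 hN2
    have h1 : (l ^ q / l) ^ N = x := by
      rw [div_pow, div_eq_iff (pow_ne_zero _ hl0), ← pow_mul, mul_comm, pow_mul, ← hx]
      refine mul_right_cancel₀ (pow_ne_zero N hl0) ?_
      rw [← hx, ← pow_succ, hx1, ← pow_three']
      exact hx3.symm
    have h2 : ((l ^ q)⁻¹) ^ N = x := invPow_pow (q := q) rfl hx1
    refine mem_center_of_scalar (x := x ^ w) ?_
    classical
    rw [hpow, Matrix.scalar_apply]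
    congr 1
    funext i
    fin_cases i <;> simp only [D, pow_mul] <;> simp [h1, h2, ← hx]

theorem exists_order_unipotent (h : UniField F σ q) (p : ℕ) [Fact p.Prime] [CharP F p]
    (hF : Fintype.card F = q ^ 2) :
    ∃ x : Cfsg.PSU 3 F q, orderOf x = p * (q + 1) / Nat.gcd 3 (q + 1) := by
  have hq1 := one_lt_of_card_eq_sq hF
  obtain ⟨a, ha0, ha⟩ := exists_unit_order hF (N := q + 1) ⟨q - 1, by rw [← Nat.sq_sub_sq, one_pow]⟩
  have haq : a ^ (q + 1) = 1 := (ha _).2 dvd_rfl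
  obtain ⟨c, hc0, hc⟩ := h.exists_skew
  obtain ⟨-, -, hk3, -, -⟩ := dvd_facts (q := q) hq1.le
  set d := Nat.gcd 3 (q + 1)
  have hd : d ∣ q + 1 := Nat.gcd_dvd_right _ _
  set k := (q + 1) / d
  let T : Matrix (Fin 3) (Fin 3) F := !![a, 0, a * c; 0, (a * a)⁻¹, 0; 0, 0, a]
  have hdet : T.det = 1 := by
    simp [T, Matrix.det_fin_three]
    field_simp
  have hσa : σ a = a⁻¹ := by
    rw [h.apply_eq]
    exact eq_inv_of_mul_eq_one_left (by rw [← pow_succ]; exact haq)
  have hmem : (⟨T, hdet⟩ : Matrix.SpecialLinearGroup (Fin 3) F) ∈ suAnti σ := by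
    refine mem_suAnti.2 ?_
    show Tᵀ * antiForm * T.map σ = antiForm
    ext i j
    fin_cases i <;> fin_cases j <;>
      simp [T, antiForm, Matrix.mul_apply, Fin.sum_univ_three, hσa, hc] <;> field_simp <;> ring
  have hpow : ∀ s : ℕ, mat₃ σ ((⟨_, hmem⟩ : suAnti σ) ^ s) =
      !![a ^ s, 0, (s : F) * a ^ s * c; 0, ((a * a)⁻¹) ^ s, 0; 0, 0, a ^ s] := by
    intro s
    induction s with
    | zero => ext i j; fin_cases i <;> fin_cases j <;> simp
    | succ s ih =>
      rw [pow_succ, map_mul, ih]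
      show _ * T = _
      ext i j
      fin_cases i <;> fin_cases j <;>
        simp [T, Matrix.mul_apply, Fin.sum_univ_three, pow_succ] <;> ring
  refine exists_order_of_anti h (g := ⟨_, hmem⟩) fun s => ?_
  rw [Nat.mul_div_assoc _ hd, show (q + 1) / d = k from rfl]
  have hpk : Nat.Coprime p k := by
    refine (Nat.Prime.coprime_iff_not_dvd Fact.out).2 fun hpk => ?_
    obtain ⟨m, hprime, hm⟩ := FiniteField.card F p
    have hpq : p ∣ q :=
      hprime.dvd_of_dvd_pow (n := 2) (hF ▸ hm ▸ dvd_pow_self p m.ne_zero)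
    have h1 : p ∣ q + 1 := hpk.trans (Nat.div_dvd_of_dvd hd)
    exact hprime.not_dvd_one ((Nat.dvd_add_right hpq).1 h1)
  constructor
  · intro hs
    obtain ⟨e1, -, e3⟩ := center_entries h hs (hpow s)
    have h3 : a ^ (3 * s) = 1 := by
      rw [inv_pow, mul_pow] at e1
      rw [mul_comm, pow_mul, pow_three]
      exact mul_eq_one_iff_eq_inv₀ (mul_ne_zero (pow_ne_zero _ ha0) (pow_ne_zero _ ha0)) |>.2 e1
    have h4 : q + 1 ∣ d * s := by
      rw [← Nat.gcd_mul_right]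
      exact Nat.dvd_gcd ((ha _).1 h3) (dvd_mul_right _ _)
    have hp : p ∣ s := by
      rw [← CharP.cast_eq_zero_iff F p]
      exact ((mul_eq_zero.1 ((mul_eq_zero.1 e3).resolve_right hc0))).resolve_right (pow_ne_zero _ ha0)
    exact hpk.mul_dvd_of_dvd_of_dvd hp
      ((Nat.div_dvd_iff_dvd_mul hd (Nat.gcd_pos_of_pos_right _ (by omega))).2 h4)
  · rintro ⟨w, rfl⟩
    refine mem_center_of_scalar (x := a ^ (p * k * w)) ?_
    rw [hpow]
    have h0 : ((p * k * w : ℕ) : F) = 0 := by simp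
    have hx3 : (a ^ (p * k * w)) ^ 3 = 1 := by
      rw [← pow_mul, ha, show p * k * w * 3 = 3 * k * (p * w) by ring]
      exact hk3.mul_right _
    have hb : ((a * a)⁻¹) ^ (p * k * w) = a ^ (p * k * w) := by
      rw [inv_pow, mul_pow]
      exact inv_eq_of_mul_eq_one_right (by linear_combination hx3)
    rw [hb, h0]
    ext i j
    fin_cases i <;> fin_cases j <;> simp [Matrix.scalar_apply]

end anti

theorem exists_order_singer (hF : Fintype.card F = q ^ 2) (p : ℕ) [Fact p.Prime] [CharP F p] :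
    ∃ x : Cfsg.PSU 3 F q, orderOf x = (q ^ 2 - q + 1) / Nat.gcd 3 (q + 1) := by
  obtain ⟨k, hprime, hk⟩ := FiniteField.card F p
  obtain ⟨a, -, ha⟩ := (Nat.dvd_prime_pow hprime).mp (show q ∣ p ^ (k : ℕ) from ⟨q, by rw [← hk, hF]; ring⟩)
  obtain ⟨A, hA⟩ := exists_psu_singer (n := 3) hF p a ha le_rfl
  have e : (altSum q 3).natAbs = q ^ 2 - q + 1 := by
    have hle : q ≤ q ^ 2 := Nat.le_self_pow two_ne_zero q
    have : altSum q 3 = ((q ^ 2 - q + 1 : ℕ) : ℤ) := by
      simp [altSum, Finset.sum_range_succ, hle]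
      ring
    rw [this, Int.natAbs_natCast]
  rw [e] at hA
  exact ⟨toPSU A ^ (orderOf (toPSU A) / _), orderOf_pow_orderOf_div (orderOf_pos _).ne' hA⟩

/-- The spectrum of `PSU 3 F q` in odd characteristic. -/
theorem range_orderOf (p : ℕ) [Fact p.Prime] [CharP F p] (hp : p ≠ 2) (hF : Fintype.card F = q ^ 2) :
    Set.range (orderOf : Cfsg.PSU 3 F q → ℕ) =
      {s : ℕ | s ∣ q + 1} ∪ {s : ℕ | s ∣ p * (q + 1) / Nat.gcd 3 (q + 1)} ∪
        {s : ℕ | s ∣ (q ^ 2 - 1) / Nat.gcd 3 (q + 1)} ∪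
        {s : ℕ | s ∣ (q ^ 2 - q + 1) / Nat.gcd 3 (q + 1)} := by
  refine Set.Subset.antisymm ?_ ?_
  · rintro _ ⟨x, rfl⟩
    obtain ⟨A, rfl⟩ := QuotientGroup.mk'_surjective (Subgroup.center _) x
    obtain ⟨s, hs, hc⟩ := exists_pow_scalar p hp hF A
    have hd := (orderOf_toPSU_dvd_iff hF le_rfl A s).2 hc
    simp only [orderSet, Set.mem_insert_iff, Set.mem_singleton_iff] at hs
    simp only [Set.mem_union, Set.mem_ofPred_eq]
    rcases hs with rfl | rfl | rfl | rfl
    · exact Or.inl (Or.inl (Or.inl hd))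
    · exact Or.inl (Or.inl (Or.inr hd))
    · exact Or.inl (Or.inr hd)
    · exact Or.inr hd
  · obtain ⟨σ, h⟩ := exists_uniField (F := F) (q := q) (by rw [Nat.card_eq_fintype_card, hF])
    have key : ∀ {N}, (∃ x : Cfsg.PSU 3 F q, orderOf x = N) → {s : ℕ | s ∣ N} ⊆ Set.range
        (orderOf : Cfsg.PSU 3 F q → ℕ) := by
      rintro N ⟨x, rfl⟩ s hs
      exact ⟨x ^ (orderOf x / s), orderOf_pow_orderOf_div (orderOf_pos x).ne' hs⟩
    exact Set.union_subset (Set.union_subset (Set.union_subset (key (exists_order_succ hF))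
      (key (exists_order_unipotent h p hF))) (key (exists_order_torus h hF)))
      (key (exists_order_singer hF p))

end CfsgLib.KnownSimple.PSUThree
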