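import Cfsg.Agent.Lib.Chevalley.Weyl
import Cfsg.Agent.Lib.Chevalley.ExtraData
import Cfsg.Prelude.Def_ChevAutomorphisms

/-!
Generation of a Chevalley group by the monomial subgroup and few fundamental root subgroups.
-/

set_option autoImplicit false

namespace CfsgLib.KnownSimple.ShortRootGen

open Cfsg.Lie CfsgLib.Chevalley

variable (D : ChevalleyDatum)

/-- The coefficient of a commutator with a single term, the root `j`. -/
def commLink (p : ℕ) (r s j : ℕ) : Bool :=
  match D.commTerms r s with
  | [(k, c, a, b)] => k == j && a == 1 && b == 1 && c.natAbs == p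
  | _ => false

/-- The fundamental root `j` is reached from the fundamental root `k` in one step. -/
def linkB (p : ℕ) (k j : ℕ) : Bool :=
  (D.reflectRoot k (D.reflectRoot j (D.simple k)) == D.simple j) ||
    (p != 0 && D.neg (D.simple k) != D.reflectRoot j (D.simple k) &&
      D.neg (D.neg (D.simple k)) != D.reflectRoot j (D.simple k) &&
      commLink D p (D.neg (D.simple k)) (D.reflectRoot j (D.simple k)) (D.simple j))

/-- One round of the closure. -/
def grow (p : ℕ) (S : List ℕ) : List ℕ :=
  (List.range D.rank).filter fun j => S.contains j || S.any fun k => Nat.blt k D.rank && linkB D p k j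

/-- All fundamental roots are reached from `S`. -/
def reachAllB (p : ℕ) (S : List ℕ) : Bool :=
  (List.range D.rank).all fun j => ((grow D p)^[D.rank] S).contains j

variable {D} {A : Aux} {F : Type*} [Field F]

theorem conj_mem (h : Full D A) {M : Subgroup (GL D.Idx F)} (hN : D.monomialSubgroup F ≤ M)
    (i : Fin D.rank) (s : Fin D.nroots) (hs : D.rootSubgroup F s ≤ M) :
    D.rootSubgroup F (rf h.cert i s) ≤ M := by
  have hn : nG h.cert (D.simple i) (1 : F) ∈ M :=
    hN (by
      have := nW_mem_monomial (F := F) h [i]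
      rwa [nW_cons, nW_nil, mul_one] at this)
  have ha := acts_nG_simple (F := F) h i one_ne_zero
  intro g hg
  obtain ⟨t, rfl⟩ := (mem_rootSubgroup_iff h.cert).1 hg
  set η := fun s : Fin D.nroots => (etaAt A i s : F) * (1 : F) ^ (-D.cartan i s) with hη
  have e := ha.conj s ((η s)⁻¹ * t)
  rw [mul_inv_cancel_left₀ (ha.ne_zero s), rfPerm_apply] at e
  rw [← e]
  exact M.mul_mem (M.mul_mem hn (hs (xG_mem_rootSubgroup _ _ _))) (M.inv_mem hn)

theorem link_mem (h : Full D A) {M : Subgroup (GL D.Idx F)} (hN : D.monomialSubgroup F ≤ M)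
    {p : ℕ} (hp : p = 0 ∨ (p : F) ≠ 0) {k j : ℕ} (hk : k < D.rank) (hj : j < D.rank)
    (hl : linkB D p k j = true) (hm : D.rootSubgroup F (D.simple k) ≤ M) :
    D.rootSubgroup F (D.simple j) ≤ M := by
  have hC := h.cert
  set a : Fin D.nroots := smp hC ⟨k, hk⟩
  set b : Fin D.nroots := rf hC ⟨j, hj⟩ a
  have hb : D.rootSubgroup F b ≤ M := conj_mem h hN ⟨j, hj⟩ a hm
  rw [linkB, Bool.or_eq_true] at hl
  rcases hl with hl | hl
  · have := conj_mem h hN ⟨k, hk⟩ b hb
    change D.rootSubgroup F (D.reflectRoot k (D.reflectRoot j (D.simple k))) ≤ M at this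
    rwa [beq_iff_eq.1 hl] at this
  · simp only [Bool.and_eq_true, bne_iff_ne, ne_eq] at hl
    obtain ⟨⟨⟨hp0, hne⟩, hneg⟩, hc⟩ := hl
    have hr : D.rootSubgroup F (ngR hC a) ≤ M := by
      rw [← rf_smp hC ⟨k, hk⟩]
      exact conj_mem h hN ⟨k, hk⟩ a hm
    unfold commLink at hc
    split at hc
    swap
    · exact absurd hc (by simp)
    next x c' a' b' heq =>
    simp only [Bool.and_eq_true, beq_iff_eq] at hc
    obtain ⟨⟨⟨rfl, rfl⟩, rfl⟩, hc'⟩ := hc
    have hcF : (c' : F) ≠ 0 := by
      have hpF := hp.resolve_left hp0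
      rcases Int.natAbs_eq c' with e | e <;> rw [e, hc'] <;> simpa using hpF
    intro g hg
    obtain ⟨v, rfl⟩ := (mem_rootSubgroup_iff hC).1 hg
    have hxr : ∀ t : F, xG hC (ngR hC a : ℕ) t ∈ M := fun t => hr (xG_mem_rootSubgroup _ _ _)
    have hxs : ∀ t : F, xG hC (b : ℕ) t ∈ M := fun t => hb (xG_mem_rootSubgroup _ _ _)
    have e := x_mul_x h.mem (F := F) (r := (ngR hC a : ℕ)) (s := (b : ℕ)) (ngR hC a).isLt b.isLt
      (fun e => hne e.symm) (fun e => hneg e.symm) (-(v / c')) 1
    rw [wordMat_eq_prod hC] at e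
    have hterms : D.commTerms (ngR hC a) b = [(D.simple j, c', 1, 1)] := heq
    simp only [ChevalleyDatum.commWord, hterms, List.map_cons, List.map_nil, List.prod_cons,
      List.prod_nil, mul_one, neg_neg, pow_one, one_pow] at e
    rw [mul_div_cancel₀ _ hcF] at e
    have e' : xG hC (b : ℕ) (1 : F) * xG hC (ngR hC a : ℕ) (-(v / c')) =
        xG hC (ngR hC a : ℕ) (-(v / c')) * xG hC (b : ℕ) 1 * xG hC (D.simple j) v :=
      Units.ext (by simpa using e)
    have : xG hC (D.simple j) v = (xG hC (ngR hC a : ℕ) (-(v / c')) * xG hC (b : ℕ) 1)⁻¹ *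
        (xG hC (b : ℕ) (1 : F) * xG hC (ngR hC a : ℕ) (-(v / c'))) := by
      rw [e', inv_mul_cancel_left]
    rw [this]
    exact M.mul_mem (M.inv_mem (M.mul_mem (hxr _) (hxs _))) (M.mul_mem (hxs _) (hxr _))

/-- The group lies in a subgroup containing `N` and enough fundamental root subgroups. -/
theorem group_le (h : Full D A) {M : Subgroup (GL D.Idx F)} (hN : D.monomialSubgroup F ≤ M)
    {p : ℕ} (hp : p = 0 ∨ (p : F) ≠ 0) {S : List ℕ} (hS : reachAllB D p S = true)
    (hmem : ∀ i ∈ S, D.rootSubgroup F (D.simple i) ≤ M) : D.group F ≤ M := by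
  have hcl : ∀ n, ∀ j ∈ (grow D p)^[n] S, D.rootSubgroup F (D.simple j) ≤ M := by
    intro n
    induction n with
    | zero => exact hmem
    | succ n ih =>
      intro j hj
      rw [Function.iterate_succ_apply', grow, List.mem_filter, List.mem_range, Bool.or_eq_true,
        List.contains_iff_mem, List.any_eq_true] at hj
      obtain ⟨hjr, hj | ⟨k, hk, hkj⟩⟩ := hj
      · exact ih j hj
      · rw [Bool.and_eq_true, Nat.blt_eq] at hkj
        exact link_mem h hN hp hkj.1 hjr hkj.2 (ih k hk)
  rw [reachAllB, List.all_eq_true] at hS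
  have hsimp : ∀ j : Fin D.rank, D.rootSubgroup F (D.simple j) ≤ M := fun j =>
    hcl D.rank j (List.contains_iff_mem.1 (hS j (List.mem_range.2 j.isLt)))
  have hall : ∀ r : Fin D.nroots, D.rootSubgroup F r ≤ M :=
    h.root_induction hsimp fun i s hs => conj_mem h hN i s hs
  rw [ChevalleyDatum.group, Subgroup.closure_le]
  rintro g ⟨r, t, hg⟩
  refine hall r (Subgroup.subset_closure ⟨t, ?_⟩)
  rw [ChevalleyDatum.x, dif_pos r.isLt]
  exact hg

/-- Every short fundamental root reaches all fundamental roots. -/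
def shortReachB (p : ℕ) : Bool :=
  (List.range D.rank).all fun i => D.isLong (D.simple i) || reachAllB D p [i]

/-- A short and a long fundamental root together reach all fundamental roots. -/
def pairReachB : Bool :=
  (List.range D.rank).all fun i => (List.range D.rank).all fun j =>
    D.isLong (D.simple i) || !D.isLong (D.simple j) || reachAllB D 0 [i, j]

end CfsgLib.KnownSimple.ShortRootGen
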