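import Cfsg.Agent.Lib.KnownSimple.ShortRootGen

/-! The certificates for generation by a short fundamental root subgroup. -/

set_option autoImplicit false

namespace CfsgLib.KnownSimple.ShortRootGen

open Cfsg.Lie

theorem short_B2 : shortReachB (D := chevB2) 2 = true := by decide +kernel
theorem short_F4 : shortReachB (D := chevF4) 2 = true := by decide +kernel
theorem short_G2 : shortReachB (D := chevG2) 3 = true := by decide +kernel
theorem short_D4 : shortReachB (D := chevD4) 0 = true := by decide +kernel
theorem short_E6 : shortReachB (D := chevE6) 0 = true := by decide +kernel
theorem short_E7 : shortReachB (D := chevE7) 0 = true := by decide +kernel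
theorem short_E8 : shortReachB (D := chevE8) 0 = true := by decide +kernel
theorem pair_B2 : pairReachB (D := chevB2) = true := by decide +kernel
theorem pair_F4 : pairReachB (D := chevF4) = true := by decide +kernel
theorem pair_G2 : pairReachB (D := chevG2) = true := by decide +kernel

theorem shortReach_apply {D : ChevalleyDatum} {p : ℕ} (h : shortReachB (D := D) p = true) {i : ℕ}
    (hi : i < D.rank) (hs : D.isLong (D.simple i) = false) : reachAllB D p [i] = true := by
  rw [shortReachB, List.all_eq_true] at h
  simpa [hs] using h i (List.mem_range.2 hi)

theorem pairReach_apply {D : ChevalleyDatum} (h : pairReachB (D := D) = true) {i j : ℕ}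
    (hi : i < D.rank) (hj : j < D.rank) (hs : D.isLong (D.simple i) = false)
    (hl : D.isLong (D.simple j) = true) : reachAllB D 0 [i, j] = true := by
  rw [pairReachB, List.all_eq_true] at h
  have := h i (List.mem_range.2 hi)
  rw [List.all_eq_true] at this
  simpa [hs, hl] using this j (List.mem_range.2 hj)

end CfsgLib.KnownSimple.ShortRootGen
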