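import Cfsg.Agent.Lib.SteinbergPres.CenterCard
import Cfsg.Agent.Lib.ReflectionsSpinor.ChevFieldCent
import Cfsg.Agent.Lib.Chevalley.TorusCard

/-!
The Frobenius on Steinberg's group: an element fixed by the entrywise map in the Chevalley group
comes from the small field as soon as it has a fixed lift, and the lifts of the torus give the
obstruction.
-/

set_option autoImplicit false
set_option linter.unusedSectionVars false

namespace CfsgLib.KnownSimple.SteinbergLift

open Cfsg.Lie CfsgLib.Chevalley CfsgLib.SteinbergPres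
open CfsgLib.ReflectionsSpinor.ChevField (push push_xG push_nW push_torus push_mem_group push_rootsU
  push_injective exists_fixed_posU)

variable {D : ChevalleyDatum} {A : Aux} {K L : Type*} [Field K] [Field L]

/-- A homomorphism of fields applied to Steinberg's group. -/
noncomputable def stMap (h : Full D A) (f : K →+* L) : D.SteinbergGroup K →* D.SteinbergGroup L :=
  PresentedGroup.toGroup (f := fun p : Fin D.nroots × K => D.stGen L p.1 (f p.2)) (by
    let X : ℕ → K → D.SteinbergGroup L := fun r t => D.stGen L r (f t)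
    have hS := stRel_stGen D L
    have hw : ∀ w : List (ℕ × K), (∀ p ∈ w, p.1 < D.nroots) →
        FreeGroup.lift (fun p : Fin D.nroots × K => X p.1 p.2) (D.stWord w) =
          (w.map fun p => X p.1 p.2).prod := by
      intro w hw
      rw [map_stWord]
      exact congrArg List.prod (List.map_congr_left fun p hp => lift_stX X (hw p hp) _)
    show ∀ x ∈ D.steinbergRels K, FreeGroup.lift (fun p : Fin D.nroots × K => X p.1 p.2) x = 1
    rintro x ((⟨r, t, u, hr, rfl⟩ | ⟨r, s, t, u, hr, hs, h1, h2, rfl⟩) | ⟨r, t, u, hr, ht, hu, rfl⟩)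
    · simp only [map_mul, map_inv, lift_stX X hr, mul_inv_eq_one, X, map_add]
      exact hS.add r hr _ _
    · have hlt : ∀ p ∈ D.commWord K r s t u, p.1 < D.nroots := by
        intro p hp
        obtain ⟨c, hc, rfl⟩ := List.mem_map.1 hp
        exact (h.pos.commTerms_phi h.cert hr hs hc).1
      rw [map_mul, map_mul, map_mul, map_mul, map_inv, map_inv, map_inv, lift_stX X hr, lift_stX X hs,
        hw _ hlt, mul_inv_eq_one, hS.comm r hr s hs h1 h2 (f t) (f u)]
      simp [ChevalleyDatum.commWord, List.map_map, Function.comp_def, X, map_intCast]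
    · have hlt : ∀ v : K, ∀ p ∈ D.hWord r v, p.1 < D.nroots := by
        intro v p hp
        simp only [ChevalleyDatum.hWord, ChevalleyDatum.nWord, List.cons_append, List.nil_append,
          List.mem_cons, List.not_mem_nil, or_false] at hp
        rcases hp with rfl | rfl | rfl | rfl | rfl | rfl <;>
          first | exact hr | exact h.cert.wf.neg_lt r hr
      have e : ∀ v : K, ((D.hWord r v).map fun p => X p.1 p.2).prod =
          ((D.hWord r (f v)).map fun p => D.stGen L p.1 p.2).prod := fun v => by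
        simp [ChevalleyDatum.hWord, ChevalleyDatum.nWord, X, map_inv₀]
      simp only [map_mul, map_inv, ChevalleyDatum.stH, hw _ (hlt _), mul_inv_eq_one, e]
      exact hS.hmul r hr (f t) (f u) (by simpa using ht) (by simpa using hu))

theorem stMap_gen (h : Full D A) (f : K →+* L) {r : ℕ} (hr : r < D.nroots) (t : K) :
    stMap h f (D.stGen K r t) = D.stGen L r (f t) :=
  lift_stX (fun r t => D.stGen L r (f t)) hr t

theorem hom_ext {G : Type*} [Group G] {φ ψ : D.SteinbergGroup K →* G}
    (e : ∀ r < D.nroots, ∀ t, φ (D.stGen K r t) = ψ (D.stGen K r t)) : φ = ψ := by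
  apply PresentedGroup.ext
  rintro ⟨⟨r, hr⟩, t⟩
  have e' : (PresentedGroup.of (⟨r, hr⟩, t) : D.SteinbergGroup K) = D.stGen K r t := by
    simp [ChevalleyDatum.stGen, ChevalleyDatum.stX, hr, PresentedGroup.of]
  rw [e']
  exact e r hr t

theorem theta_stMap (h : Full D A) (f : K →+* L) (x : D.SteinbergGroup K) :
    theta h (stMap h f x) = push D f (theta h x) := by
  have e : (theta h).comp (stMap h f) = (push D f).comp (theta (K := K) h) :=
    hom_ext fun r hr t => by
      simp only [MonoidHom.comp_apply, stMap_gen h f hr, theta_gen h hr, push_xG]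
  exact DFunLike.congr_fun e x

theorem stMap_stMap (h : Full D A) {M : Type*} [Field M] (f : K →+* L) (g : L →+* M)
    (x : D.SteinbergGroup K) : stMap h g (stMap h f x) = stMap h (g.comp f) x := by
  have e : (stMap h g).comp (stMap h f) = stMap h (g.comp f) :=
    hom_ext fun r hr t => by
      simp only [MonoidHom.comp_apply, stMap_gen h _ hr, RingHom.comp_apply]
  exact DFunLike.congr_fun e x

theorem exists_lift (h : Full D A) {g : GL D.Idx K} (hg : g ∈ D.group K) :
    ∃ x, theta h x = g := by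
  rw [← theta_range h] at hg
  exact hg

/-- A lift from the small field is fixed. -/
theorem exists_fixed_lift (h : Full D A) {σ : L →+* L} {i : K →+* L} (hi : ∀ x, σ (i x) = i x)
    {g : GL D.Idx K} (hg : g ∈ D.group K) :
    ∃ x, theta h x = push D i g ∧ stMap h σ x = x := by
  obtain ⟨x, rfl⟩ := exists_lift h hg
  refine ⟨stMap h i x, theta_stMap h i x, ?_⟩
  rw [stMap_stMap, show σ.comp i = i from RingHom.ext hi]

theorem ker_central (h : Full D A) {z : D.SteinbergGroup K} (hz : theta h z = 1)
    (x : D.SteinbergGroup K) : x * z = z * x :=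
  Subgroup.mem_center_iff.1 ((theta_eq_one_iff h z).1 hz) x

section torus

variable (h : Full D A)

theorem torP_comm : Pairwise fun i j : Fin D.rank =>
    ∀ (x y : Kˣ), Commute (torCoord (K := K) h i x) (torCoord h j y) := by
  obtain ⟨σ, η, cart, coro, par, dep, w0, C, hE⟩ := hasStCert_of_mem h.mem K
  exact C.tor_pairwise h hE

/-- The torus of Steinberg's group. -/
noncomputable def torP : (Fin D.rank → Kˣ) →* D.SteinbergGroup K :=
  MonoidHom.noncommPiCoprod (torCoord h) (torP_comm h)

theorem theta_torP (c : Fin D.rank → Kˣ) : theta h (torP h c) = torusHom D K c := by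
  obtain ⟨σ, η, cart, coro, par, dep, w0, C, hE⟩ := hasStCert_of_mem h.mem K
  exact C.theta_torPhi h hE c

theorem exists_torP_of_ker {z : D.SteinbergGroup K} (hz : theta h z = 1) : ∃ c, torP h c = z := by
  obtain ⟨σ, η, cart, coro, par, dep, w0, C, hE⟩ := hasStCert_of_mem h.mem K
  exact C.exists_torPhi h hE (C.ker_le_tor h hE hz)

theorem stMap_torP (f : K →+* L) (c : Fin D.rank → Kˣ) :
    stMap h f (torP h c) = torP h fun k => Units.map (f : K →* L) (c k) := by
  let U : (Fin D.rank → Kˣ) →* (Fin D.rank → Lˣ) :=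
    { toFun := fun c k => Units.map (f : K →* L) (c k)
      map_one' := funext fun k => map_one _
      map_mul' := fun a b => funext fun k => map_mul _ _ _ }
  have e : (stMap h f).comp (torP h) = (torP h).comp U := by
    refine MonoidHom.pi_ext fun i u => ?_
    have hU : U (Pi.mulSingle i u) = Pi.mulSingle i (Units.map (f : K →* L) u) :=
      funext fun k => by
        rcases eq_or_ne k i with rfl | hk
        · simp [U]
        · simp [U, hk]
    have hp := h.cert.wf.simple_lt i i.isLt
    have hn := h.cert.wf.neg_lt _ hp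
    simp only [MonoidHom.comp_apply, hU, torP, MonoidHom.noncommPiCoprod_mulSingle]
    show stMap h f (hSt D K i (u : K)) = hSt D L i (f (u : K))
    simp [hSt, nSt, map_mul, stMap_gen h f hp, stMap_gen h f hn, map_inv₀]
  exact DFunLike.congr_fun e c

include h in
/-- The kernel in the torus has exponent `d`. -/
theorem pow_eq_one_of_theta {N : Fin D.rank → Fin D.rank → ℤ} {d : ℕ}
    (hN : ∀ i k, ∑ j, cartanMat D i j * N j k = if i = k then (d : ℤ) else 0)
    {c : Fin D.rank → Kˣ} (hc : torusHom D K c = 1) : c ^ d = 1 := by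
  rw [← MonoidHom.mem_ker, ker_torusHom h, MonoidHom.mem_ker] at hc
  have e5 := congrArg (matPow N) hc
  rw [matPow_comp, map_one, show (fun i k => ∑ j, cartanMat D i j * N j k) =
    fun i k => if i = k then (d : ℤ) else 0 from funext₂ hN] at e5
  funext k
  have e6 := congrFun e5 k
  replace e6 : ∏ i, c i ^ (if i = k then (d : ℤ) else 0) = 1 := e6
  rwa [Finset.prod_eq_single k (fun i _ hi => by simp [hi]) (by simp), if_pos rfl, zpow_natCast] at e6

end torus

section detection

/-- A minuscule representation detects the coordinate of its highest weight. -/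
theorem apply_eq_one_of_torP (h : Full D A) {coro cart : ℕ → ℕ → ℤ} {σ : ℕ → ℕ → ℕ} {η : ℕ → ℕ → ℤ}
    {par : ℕ → ℕ × ℕ} {dep : ℕ → ℕ} {wd : ℕ → ℕ → List ℕ} {g : ℕ → ℕ}
    (CT : CTCert D coro cart σ η par dep wd g) {d w : ℕ} {E : ℕ → SPerm}
    (hR : checkRep d D coro E = true) (hW : weightB D d w E = true) (hw : w < D.rank)
    {c : Fin D.rank → Kˣ} (hc : torP h c = 1) : c ⟨w, hw⟩ = 1 := by
  have hX := ctRel_repX (K := K) hR CT.ht
  set Y := rootElem D coro σ η (repX hR K) with hYdef
  have hY := CT.stRel_rootElem hX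
  have hψw : ∀ w : List (ℕ × K), (∀ q ∈ w, q.1 < D.nroots) →
      FreeGroup.lift (fun q : Fin D.nroots × K => Y q.1 q.2) (D.stWord w) =
        (w.map fun q => Y q.1 q.2).prod := by
    intro w hw
    rw [map_stWord]
    exact congrArg List.prod (List.map_congr_left fun q hq => lift_stX Y (hw q hq) _)
  have hρ : ∀ x ∈ D.steinbergRels K,
      FreeGroup.lift (fun q : Fin D.nroots × K => Y q.1 q.2) x = 1 := by
    rintro x ((⟨r, t, u, hr, rfl⟩ | ⟨r, s, t, u, hr, hs, h1, h2, rfl⟩) | ⟨r, t, u, hr, ht, hu, rfl⟩)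
    · simp only [map_mul, map_inv, lift_stX Y hr, mul_inv_eq_one]
      exact hY.add r hr t u
    · rw [map_mul, map_mul, map_mul, map_mul, map_inv, map_inv, map_inv, lift_stX Y hr, lift_stX Y hs,
        hψw (D.commWord K r s t u) (fun q hq => CT.mem_commWord_lt (K := K) hr hs hq), mul_inv_eq_one]
      exact hY.comm r hr s hs h1 h2 t u
    · have hw : ∀ v : K, ∀ q ∈ D.hWord r v, q.1 < D.nroots := by
        intro v q hq
        simp only [ChevalleyDatum.hWord, ChevalleyDatum.nWord, List.cons_append, List.nil_append,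
          List.mem_cons, List.not_mem_nil, or_false] at hq
        rcases hq with rfl | rfl | rfl | rfl | rfl | rfl <;>
          first | exact hr | exact CT.root.neg_lt hr
      simp only [map_mul, map_inv, ChevalleyDatum.stH, hψw _ (hw _), mul_inv_eq_one]
      exact hY.hmul r hr t u ht hu
  let ρ := PresentedGroup.toGroup hρ
  simp only [weightB, Bool.and_eq_true, List.all_eq_true, List.mem_range, decide_eq_true_eq] at hW
  obtain ⟨hd, hW⟩ := hW
  let o : Fin d := ⟨0, hd⟩
  have hcol : ∀ i : Fin D.rank, ∀ c : Kˣ, ∀ a : Fin d,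
      (ρ (torCoord h i c) : Matrix (Fin d) (Fin d) K) a o =
        if a = o then ((c ^ (if (i : ℕ) = w then (1 : ℤ) else 0) : Kˣ) : K) else 0 := by
    intro i c a
    have hp := h.cert.wf.simple_lt i i.isLt
    have hpm := CT.pm_simple i.isLt
    obtain ⟨a', b', hab⟩ := (CT.smallB_iff hp).1 hpm.1.1
    have e0 : ρ (torCoord h i c) =
        ((D.hWord (D.simple i) (c : K)).map fun q => repX hR K q.1 q.2).prod := by
      show ρ (hSt D K i c) = _
      rw [← stH_eq_hSt, ChevalleyDatum.stH]
      show FreeGroup.lift (fun q : Fin D.nroots × K => Y q.1 q.2) (D.stWord _) = _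
      rw [map_stWord]
      refine congrArg List.prod (List.map_congr_left fun q hq => ?_)
      have hq' : q.1 = D.simple i ∨ q.1 = D.neg (D.simple i) := by
        simp only [ChevalleyDatum.hWord, ChevalleyDatum.nWord, List.cons_append, List.nil_append,
          List.mem_cons, List.not_mem_nil, or_false] at hq
        rcases hq with rfl | rfl | rfl | rfl | rfl | rfl <;> simp
      rcases hq' with e | e <;> rw [e]
      · rw [lift_stX Y hp, hYdef, CT.rootElem_small _ hpm.1.1]
      · rw [lift_stX Y (h.cert.wf.neg_lt _ hp), hYdef, CT.rootElem_small _ hpm.2.1]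
    rw [e0, repH_formula hR (inSub_of CT.ht hab) (c : K) c.ne_zero]
    obtain ⟨w1, w2⟩ := hW i i.isLt a a.isLt
    have w1 := CfsgLib.Twisted.intEqb_eq w1
    have w2 := CfsgLib.Twisted.intEqb_eq w2
    have m1 : (spMat d (E (D.simple i)) K * spMat d (E (D.neg (D.simple i))) K) a o =
        if a = o ∧ (i : ℕ) = w then (1 : K) else 0 := by
      rw [← spMat_comp, spMat, Matrix.of_apply, w1]
      simp only [o, Fin.ext_iff]
      split_ifs <;> simp
    have m2 : (spMat d (E (D.neg (D.simple i))) K * spMat d (E (D.simple i)) K) a o = 0 := by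
      rw [← spMat_comp, spMat, Matrix.of_apply, w2, Int.cast_zero]
    simp only [Matrix.add_apply, Matrix.sub_apply, Matrix.smul_apply, smul_eq_mul, m1, m2,
      Matrix.one_apply, sub_zero, mul_zero, add_zero]
    by_cases ha : a = o <;> by_cases hi : (i : ℕ) = w <;> simp [ha, hi]
  have key : ∀ S : Finset (Fin D.rank), ∀ a : Fin d,
      (ρ (torP h (∏ i ∈ S, Pi.mulSingle i (c i))) : Matrix (Fin d) (Fin d) K) a o =
        if a = o then (((∏ i ∈ S, c i ^ (if (i : ℕ) = w then (1 : ℤ) else 0) : Kˣ)) : K) else 0 := by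
    intro S
    induction S using Finset.induction_on with
    | empty => intro a; simp [Matrix.one_apply]
    | insert i S hi ih =>
      intro a
      rw [Finset.prod_insert hi, Finset.prod_insert hi, map_mul, map_mul, Units.val_mul,
        Matrix.mul_apply, Finset.sum_eq_single o (fun b _ hb => by rw [ih, if_neg hb, mul_zero])
          (by simp), ih, if_pos rfl, torP, MonoidHom.noncommPiCoprod_mulSingle, hcol]
      split_ifs <;> simp
  have e := key Finset.univ o
  rw [Finset.univ_prod_mulSingle, hc, map_one, Units.val_one, Matrix.one_apply_eq, if_pos rfl,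
    Finset.prod_eq_single (⟨w, hw⟩ : Fin D.rank)
      (fun i _ hi => by rw [if_neg (fun e => hi (Fin.ext e)), zpow_zero]) (by simp),
    if_pos rfl, zpow_one] at e
  exact Units.ext e.symm

/-- The torus of Steinberg's group is faithfully parametrised. -/
theorem torP_injective (h : Full D A) {coro cart : ℕ → ℕ → ℤ} {σ : ℕ → ℕ → ℕ} {η : ℕ → ℕ → ℤ}
    {par : ℕ → ℕ × ℕ} {dep : ℕ → ℕ} {wd : ℕ → ℕ → List ℕ} {g : ℕ → ℕ}
    (CT : CTCert D coro cart σ η par dep wd g) {d w p : ℕ} {E : ℕ → SPerm} {v : List ℤ}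
    {y : List (List ℤ)} {z : List ℤ}
    (hR : checkRep d D coro E = true) (hW : weightB D d w E = true)
    (hM : muB D w p v y z = true) : Function.Injective (torP (K := K) h) := by
  simp only [muB, Bool.and_eq_true, List.all_eq_true, List.mem_range, decide_eq_true_eq] at hM
  obtain ⟨⟨⟨hw, -⟩, hy⟩, -⟩ := hM
  rw [injective_iff_map_eq_one]
  intro c hc
  have hwc := apply_eq_one_of_torP h CT hR hW hw hc
  have ht : torusHom D K c = 1 := by rw [← theta_torP h, hc, map_one]
  rw [← MonoidHom.mem_ker, ker_torusHom h, MonoidHom.mem_ker] at ht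
  funext i
  have e := units_pow_combine c (fun k j => D.cartan k (D.simple j)) (fun j => (y.getD i []).getD j 0)
  have e1 : ∀ k : Fin D.rank, (∑ j : Fin D.rank, D.cartan k (D.simple j) * (y.getD i []).getD j 0) =
      (if (k : ℕ) = i then 1 else 0) - (if (k : ℕ) = w then v.getD i 0 else 0) := fun k => by
    rw [← SteinbergPres.list_range_sum (fun j => D.cartan k (D.simple j) * (y.getD i []).getD j 0)]
    exact CfsgLib.Twisted.intEqb_eq ((hy k k.isLt).2 i i.isLt)
  simp only [show ∀ j : Fin D.rank, (∏ k : Fin D.rank, c k ^ D.cartan k (D.simple j)) = 1 from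
      fun j => congrFun ht j, one_zpow, Finset.prod_const_one, e1, zpow_sub, Finset.prod_mul_distrib,
      Finset.prod_inv_distrib] at e
  rw [Finset.prod_eq_single i (fun k _ hk => by rw [if_neg (fun x => hk (Fin.ext x)), zpow_zero])
      (by simp), Finset.prod_eq_single (⟨w, hw⟩ : Fin D.rank)
      (fun k _ hk => by rw [if_neg (fun x => hk (Fin.ext x)), zpow_zero]) (by simp),
    if_pos rfl, if_pos rfl, zpow_one, hwc, one_zpow, inv_one, mul_one] at e
  exact e.symm

end detection

section fixed

variable (h : Full D A)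

/-- An element with a fixed lift comes from the small field. -/
theorem mem_range_of_fixed_lift (hinj : Function.Injective (torP (K := L) h)) {σ : L ≃+* L}
    {i : K →+* L} (hi : ∀ x, σ (i x) = i x) (hi' : ∀ y, σ y = y → ∃ x, i x = y)
    {Y : D.SteinbergGroup L} (hY : stMap h σ.toRingHom Y = Y) :
    ∃ g₀ ∈ D.group K, push D i g₀ = theta h Y := by
  have hy : theta h Y ∈ D.group L := theta_mem h Y
  have hfix : push D σ.toRingHom (theta h Y) = theta h Y := by rw [← theta_stMap, hY]
  obtain ⟨u, hu, n, hn, π, η, hA, u', hu', e⟩ := exists_canonical h hy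
  obtain ⟨l, t, ht, rfl⟩ := (mem_monomial_iff h).1 hn
  rw [diagonalSubgroup_eq_range h] at ht
  obtain ⟨c, rfl⟩ := ht
  obtain ⟨η₀, hη₀⟩ := acts_nW (F := L) h l
  have hA' := hη₀.mul (acts_torus h.cert fun k => Units.map (σ.toRingHom : L →* L) (c k))
  have hAc := hη₀.mul (acts_torus h.cert c)
  have hperm : π = wPerm h.cert l * 1 := hA.perm_eq hAc
  subst hperm
  have himg : push D σ.toRingHom (nW h.cert L l * torusHom D L c) =
      nW h.cert L l * torusHom D L (fun k => Units.map (σ.toRingHom : L →* L) (c k)) := by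
    rw [map_mul, push_nW, push_torus]
  have hm : push D σ.toRingHom (nW h.cert L l * torusHom D L c) ∈ D.monomialSubgroup L := by
    rw [himg, mem_monomial_iff h]
    refine ⟨l, _, ?_, rfl⟩
    rw [diagonalSubgroup_eq_range h]
    exact ⟨_, rfl⟩
  rw [e, map_mul, map_mul] at hfix
  obtain ⟨e1, -, e3⟩ := canonical_unique h (push_rootsU h.cert σ.toRingHom hu) hu hm hn
    (himg ▸ hA') hA (push_rootsU h.cert σ.toRingHom hu') hu' hfix
  obtain ⟨u₀, hu₀, rfl⟩ := exists_fixed_posU h hi' hu e1
  obtain ⟨v₀, hv₀, rfl⟩ := exists_fixed_posU h hi'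
    (rootsU_mono (T := {r | D.IsPosRoot r}) (fun r hr => hr.1) hu') e3
  obtain ⟨U, hU, hUf⟩ := exists_fixed_lift h (σ := σ.toRingHom) hi hu₀
  obtain ⟨V, hV, hVf⟩ := exists_fixed_lift h (σ := σ.toRingHom) hi hv₀
  obtain ⟨W, hW, hWf⟩ := exists_fixed_lift h (σ := σ.toRingHom) hi
    (monomial_le_group (F := K) h.cert (nW_mem_monomial h l))
  rw [push_nW] at hW
  obtain ⟨cz, hcz⟩ : ∃ cz, torP h cz = (U * (W * torP h c) * V)⁻¹ * Y :=
    exists_torP_of_ker h (by
      rw [map_mul, map_inv, map_mul, map_mul, map_mul, hU, hV, hW, theta_torP, ← e, inv_mul_cancel])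
  have hcz1 : torusHom D L cz = 1 := by
    rw [← theta_torP h, hcz, map_mul, map_inv, map_mul, map_mul, map_mul, hU, hV, hW, theta_torP,
      ← e, inv_mul_cancel]
  have hY' : Y = U * (W * torP h (c * cz)) * V := by
    have hz := ker_central h (K := L) (z := torP h cz) (by rw [theta_torP, hcz1]) V
    calc Y = U * (W * torP h c) * V * torP h cz := by rw [hcz, mul_inv_cancel_left]
      _ = U * (W * torP h c) * (torP h cz * V) := by rw [mul_assoc, hz]
      _ = _ := by rw [map_mul]; simp only [mul_assoc]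
  rw [hY', map_mul, map_mul, map_mul, hUf, hVf, hWf, stMap_torP] at hY
  have he := hinj (mul_left_cancel (mul_left_cancel (mul_right_cancel hY)))
  have hc : ∀ k, σ ((c * cz) k : L) = (c * cz) k := fun k => congrArg Units.val (congrFun he k)
  choose c₀ hc₀ using fun k => hi' _ (hc k)
  have hc0 : ∀ k, c₀ k ≠ 0 := fun k h0 => ((c * cz) k).ne_zero (by rw [← hc₀ k, h0, map_zero])
  set e₀ : Fin D.rank → Kˣ := fun k => Units.mk0 (c₀ k) (hc0 k)
  refine ⟨u₀ * (nW h.cert K l * torusHom D K e₀) * v₀,
    mul_mem (mul_mem hu₀ (monomial_le_group h.cert (mul_mem (nW_mem_monomial h l)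
      (diagonal_le_monomial (torus_mem_diagonal h e₀))))) hv₀, ?_⟩
  rw [e, map_mul, map_mul, map_mul, push_nW, push_torus,
    show (fun k => Units.map (i : K →* L) (e₀ k)) = c * cz from funext fun k => Units.ext (hc₀ k),
    map_mul, hcz1, mul_one]

/-- A fixed element to the power `gcd(d, q - 1)` comes from the small field. -/
theorem pow_mem_range (hinj : Function.Injective (torP (K := L) h))
    {N : Fin D.rank → Fin D.rank → ℤ} {d : ℕ}
    (hN : ∀ i k, ∑ j, cartanMat D i j * N j k = if i = k then (d : ℤ) else 0)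
    {σ : L ≃+* L} {q : ℕ} (hq : 1 ≤ q) (hσ : ∀ x, σ x = x ^ q) {i : K →+* L}
    (hi : ∀ x, σ (i x) = i x) (hi' : ∀ y, σ y = y → ∃ x, i x = y)
    {y : GL D.Idx L} (hy : y ∈ D.group L) (hfix : push D σ.toRingHom y = y) :
    ∃ g₀ ∈ D.group K, push D i g₀ = y ^ Nat.gcd d (q - 1) := by
  obtain ⟨Y, rfl⟩ := exists_lift h hy
  obtain ⟨cz, hcz⟩ : ∃ cz, torP h cz = Y⁻¹ * stMap h σ.toRingHom Y := exists_torP_of_ker h (by
    rw [map_mul, map_inv, theta_stMap, hfix, inv_mul_cancel])
  have hcz1 : torusHom D L cz = 1 := by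
    rw [← theta_torP h, hcz, map_mul, map_inv, theta_stMap, hfix, inv_mul_cancel]
  have hd := pow_eq_one_of_theta h hN hcz1
  set g := Nat.gcd d (q - 1) with hg
  set b : ℤ := Nat.gcdB d (q - 1) with hb
  have hσP : ∀ e : Fin D.rank → Lˣ, stMap h σ.toRingHom (torP h e) = torP h (e ^ (q : ℤ)) := fun e => by
    rw [stMap_torP]
    refine congrArg _ (funext fun k => Units.ext ?_)
    rw [zpow_natCast]
    exact (hσ _).trans (Units.val_pow_eq_pow_val _ _).symm
  have hcomm : Commute Y (torP h cz) :=
    ker_central h (by rw [theta_torP, hcz1]) Y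
  have hfix' : stMap h σ.toRingHom (Y ^ g * torP h (cz ^ (-b))) = Y ^ g * torP h (cz ^ (-b)) := by
    rw [map_mul, map_pow, hσP, show stMap h σ.toRingHom Y = Y * torP h cz by
      rw [hcz, mul_inv_cancel_left], hcomm.mul_pow, mul_assoc, ← map_pow, ← map_mul]
    congr 2
    rw [← zpow_natCast, ← _root_.zpow_mul, ← _root_.zpow_add]
    have e := Nat.gcd_eq_gcd_ab d (q - 1)
    rw [← hg, ← hb, Nat.cast_sub hq, Nat.cast_one] at e
    rw [show (g : ℤ) + -b * q = (d : ℤ) * Nat.gcdA d (q - 1) + -b by linear_combination e,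
      _root_.zpow_add, _root_.zpow_mul, zpow_natCast, hd, _root_.one_zpow, one_mul]
  obtain ⟨g₀, hg₀, e⟩ := mem_range_of_fixed_lift h hinj hi hi' hfix'
  refine ⟨g₀, hg₀, ?_⟩
  rw [e, map_mul, map_pow, theta_torP, map_zpow, hcz1, _root_.one_zpow, mul_one]

/-- The parameters of the torus moved by a word. -/
noncomputable def wTor {M : Type*} [Field M] (D : ChevalleyDatum) (l : List (Fin D.rank))
    (c : Fin D.rank → Mˣ) : Fin D.rank → Mˣ :=
  l.foldr (reflTorus D) c

theorem wTor_mul (l : List (Fin D.rank)) (a b : Fin D.rank → Lˣ) :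
    wTor D l (a * b) = wTor D l a * wTor D l b := by
  induction l with
  | nil => rfl
  | cons i l ih =>
    show reflTorus D i (wTor D l (a * b)) = reflTorus D i (wTor D l a) * reflTorus D i (wTor D l b)
    rw [ih]
    simp only [reflTorus, map_mul, mul_inv, Pi.mulSingle_mul]
    exact mul_mul_mul_comm _ _ _ _

theorem nW_conj_torus_eq : ∀ (l : List (Fin D.rank)) (c : Fin D.rank → Lˣ),
    nW h.cert L l * torusHom D L c * (nW h.cert L l)⁻¹ = torusHom D L (wTor D l c) := by
  intro l
  induction l with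
  | nil => intro c; simp [wTor]
  | cons i l ih =>
    intro c
    show _ = torusHom D L (reflTorus D i (wTor D l c))
    rw [nW_cons, ← nG_simple_mul_torus h i 1 one_ne_zero (wTor D l c), ← ih c]
    group

/-- In Steinberg's group too the Weyl word moves the torus by `wTor`. -/
theorem conj_torP [IsAlgClosed L] {N : Fin D.rank → Fin D.rank → ℤ} {d : ℕ} (hd : 0 < d)
    (hN : ∀ i k, ∑ j, cartanMat D i j * N j k = if i = k then (d : ℤ) else 0)
    {l : List (Fin D.rank)} {W : D.SteinbergGroup L} (hW : theta h W = nW h.cert L l)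
    (c : Fin D.rank → Lˣ) : W * torP h c * W⁻¹ = torP h (wTor D l c) := by
  set Δ : (Fin D.rank → Lˣ) → D.SteinbergGroup L :=
    fun e => W * torP h e * W⁻¹ * (torP h (wTor D l e))⁻¹ with hΔ
  have h0 : ∀ e, theta h (Δ e) = 1 := fun e => by
    simp only [hΔ, map_mul, map_inv, hW, theta_torP, nW_conj_torus_eq h, mul_inv_cancel]
  have hmul : ∀ a b, Δ (a * b) = Δ a * Δ b := fun a b => by
    have e1 : W * torP h (a * b) * W⁻¹ = (W * torP h a * W⁻¹) * (W * torP h b * W⁻¹) := by
      rw [map_mul]; group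
    show W * torP h (a * b) * W⁻¹ * (torP h (wTor D l (a * b)))⁻¹ = _
    rw [e1, wTor_mul, map_mul, _root_.mul_inv_rev,
      show W * torP h b * W⁻¹ = Δ b * torP h (wTor D l b) by simp [hΔ],
      show W * torP h a * W⁻¹ = Δ a * torP h (wTor D l a) by simp [hΔ]]
    calc Δ a * torP h (wTor D l a) * (Δ b * torP h (wTor D l b)) *
          ((torP h (wTor D l b))⁻¹ * (torP h (wTor D l a))⁻¹)
        = Δ a * (torP h (wTor D l a) * Δ b) * (torP h (wTor D l a))⁻¹ := by group
      _ = Δ a * (Δ b * torP h (wTor D l a)) * (torP h (wTor D l a))⁻¹ := by rw [ker_central h (h0 b)]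
      _ = Δ a * Δ b := by group
  let φ : (Fin D.rank → Lˣ) →* D.SteinbergGroup L := MonoidHom.mk' Δ hmul
  have hroot : ∀ x : Lˣ, ∃ r : Lˣ, r ^ d = x := fun x => by
    obtain ⟨r, hr⟩ := IsAlgClosed.exists_pow_nat_eq (x : L) hd
    have hr0 : r ≠ 0 := fun e => x.ne_zero (by rw [← hr, e, zero_pow hd.ne'])
    exact ⟨Units.mk0 r hr0, Units.ext (by simpa using hr)⟩
  choose f hf using fun k => hroot (c k)
  have hc : c = f ^ d := funext fun k => (hf k).symm
  obtain ⟨cz, hcz⟩ := exists_torP_of_ker h (h0 f)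
  have : Δ c = 1 := by
    show φ c = 1
    rw [hc, map_pow, show φ f = torP h cz from hcz.symm, ← map_pow,
      pow_eq_one_of_theta h hN (by rw [← theta_torP h, hcz, h0]), map_one]
  exact mul_inv_eq_one.1 this

/-- If a conjugate of a torus element by a Lang element comes from the small field, the parameters
are fixed by the twisted Frobenius. -/
theorem wTor_eq_of_mem_range [IsAlgClosed L] (hinj : Function.Injective (torP (K := L) h))
    {N : Fin D.rank → Fin D.rank → ℤ} {d : ℕ} (hd : 0 < d)
    (hN : ∀ i k, ∑ j, cartanMat D i j * N j k = if i = k then (d : ℤ) else 0)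
    {σ : L ≃+* L} {q : ℕ} (hq : 1 ≤ q) (hdq : d ∣ q - 1) (hσ : ∀ x, σ x = x ^ q) {i : K →+* L}
    (hi : ∀ x, σ (i x) = i x) {l : List (Fin D.rank)} {g : GL D.Idx L} (hg : g ∈ D.group L)
    (hgn : push D σ.toRingHom g = g * nW h.cert L l) {c : Fin D.rank → Lˣ} {g₀ : GL D.Idx K}
    (hg₀ : g₀ ∈ D.group K) (e : push D i g₀ = g * torusHom D L c * g⁻¹) :
    wTor D l (c ^ q) = c := by
  obtain ⟨X, hX, hXf⟩ := exists_fixed_lift h (σ := σ.toRingHom) hi hg₀
  obtain ⟨W, hW, hWf⟩ := exists_fixed_lift h (σ := σ.toRingHom) hi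
    (monomial_le_group (F := K) h.cert (nW_mem_monomial h l))
  rw [push_nW] at hW
  obtain ⟨G, rfl⟩ := exists_lift h hg
  obtain ⟨cz, hcz⟩ : ∃ cz, torP h cz = X⁻¹ * (G * torP h c * G⁻¹) := exists_torP_of_ker h (by
    rw [map_mul, map_inv, map_mul, map_mul, map_inv, theta_torP, hX, e, inv_mul_cancel])
  have hcz1 : torusHom D L cz = 1 := by
    rw [← theta_torP h, hcz, map_mul, map_inv, map_mul, map_mul, map_inv, theta_torP, hX, e,
      inv_mul_cancel]
  have hczq : cz ^ q = cz := by
    obtain ⟨m, hm⟩ := hdq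
    rw [show q = d * m + 1 by omega, pow_succ, pow_mul, pow_eq_one_of_theta h hN hcz1, one_pow,
      one_mul]
  have hσP : ∀ e : Fin D.rank → Lˣ, stMap h σ.toRingHom (torP h e) = torP h (e ^ q) := fun e => by
    rw [stMap_torP]
    exact congrArg _ (funext fun k => Units.ext ((hσ _).trans (Units.val_pow_eq_pow_val _ _).symm))
  have h1 : theta h ((G * W)⁻¹ * stMap h σ.toRingHom G) = 1 := by
    rw [map_mul, map_inv, map_mul, theta_stMap, hgn, hW, inv_mul_cancel]
  set z₁ := (G * W)⁻¹ * stMap h σ.toRingHom G with hz₁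
  have hG : stMap h σ.toRingHom G = G * W * z₁ := by rw [hz₁, mul_inv_cancel_left]
  have hX' : G * torP h c * G⁻¹ = X * torP h cz := by rw [hcz, mul_inv_cancel_left]
  have key := congrArg (stMap h σ.toRingHom) hX'
  rw [map_mul, map_mul, map_inv, map_mul, hG, hσP, hXf, hσP, hczq, ← hX',
    show G * W * z₁ * torP h (c ^ q) * (G * W * z₁)⁻¹ =
      G * (W * (z₁ * torP h (c ^ q) * z₁⁻¹) * W⁻¹) * G⁻¹ by group,
    ← ker_central h h1, mul_inv_cancel_right, conj_torP h hd hN hW] at key
  exact hinj (mul_left_cancel (mul_right_cancel key))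

end fixed

end CfsgLib.KnownSimple.SteinbergLift
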