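import Mathlib
import Cfsg.Agent.Lib.KnownSimple.HomocyclicSylow
import Cfsg.Agent.Lib.ClassicalLinear.SympCard
import Cfsg.Agent.Lib.Forms.Symplectic
import Cfsg.Agent.Lib.Forms.SympBridge

/-!
Homocyclic tori of the symplectic groups.
-/

set_option autoImplicit false

namespace CfsgLib.KnownSimple.SympTorus

open Finset HomocyclicSylow

variable {q r : ℕ} [hr : Fact r.Prime] {F : Type*} [Field F] [Fintype F]

/-- The `r`-part of `|Sp_{2n}(q)|`. -/
theorem valuation_sp (hqF : Fintype.card F = q) {n : ℕ} (hr2 : r ≠ 2) (hrn : n < r) (hrq : ¬ r ∣ q) :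
    (Nat.card (Matrix.symplecticGroup (Fin n) F)).factorization r =
      ((Icc 1 n).filter (fun i => orderOf (q : ZMod r) ∣ 2 * i)).card * cycExp q r := by
  classical
  have hq : 2 ≤ q := hqF ▸ Fintype.one_lt_card
  rw [CfsgLib.ClassicalLinear.card_sp, hqF]
  have hne : ∀ i ∈ range n, q ^ (2 * (i + 1)) - 1 ≠ 0 := fun i _ => by
    have := Nat.one_lt_pow (show 2 * (i + 1) ≠ 0 by omega) (show 1 < q by omega); omega
  rw [Nat.factorization_mul (pow_ne_zero _ (by omega)) (prod_ne_zero_iff.2 hne), Finsupp.add_apply,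
    Nat.factorization_eq_zero_of_not_dvd (fun h => hrq (hr.out.dvd_of_dvd_pow h)), zero_add,
    Nat.factorization_prod hne, Finsupp.finsetSum_apply]
  have hnd : ∀ i ∈ range n, ¬ r ∣ 2 * (i + 1) := fun i hi h => by
    rcases hr.out.dvd_mul.1 h with h' | h'
    · exact hr2 ((Nat.prime_dvd_prime_iff_eq hr.out Nat.prime_two).1 h')
    · have := mem_range.1 hi
      have := Nat.le_of_dvd (by omega) h'
      omega
  rw [sum_congr rfl fun i hi => valuation_pow hq hrq (show 0 < 2 * (i + 1) by omega) (hnd i hi)]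
  rw [← sum_filter, sum_const, smul_eq_mul]
  congr 1
  refine card_bij' (fun i _ => i + 1) (fun i _ => i - 1) ?_ ?_ ?_ ?_ <;>
    intro i hi <;> simp only [mem_filter, mem_range, mem_Icc] at hi ⊢
  · exact ⟨by omega, hi.2⟩
  · exact ⟨by omega, by rw [Nat.sub_add_cancel hi.1.1]; exact hi.2⟩
  · omega
  · omega

omit [Fintype F] in
open Matrix in
/-- `GL_n` inside `Sp_{2n}`. -/
theorem exists_levi (n : ℕ) :
    ∃ Λ : GL (Fin n) F →* ↥(Matrix.symplecticGroup (Fin n) F), Function.Injective Λ := by
  refine ⟨MonoidHom.mk' (fun g => ⟨fromBlocks g.1 0 0 (g⁻¹ : GL (Fin n) F).1ᵀ, ?_⟩)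
    (fun g h => Subtype.ext ?_), fun g h e => Units.ext (fromBlocks_inj.1 (congrArg Subtype.val e)).1⟩
  · rw [SymplecticGroup.mem_iff, Matrix.J, fromBlocks_transpose, fromBlocks_multiply,
      fromBlocks_multiply]
    simp only [transpose_transpose, transpose_zero, Matrix.mul_zero, Matrix.zero_mul,
      Matrix.mul_one, Matrix.mul_neg, Matrix.neg_mul, add_zero, zero_add, neg_zero,
      ← transpose_mul, Units.mul_inv, transpose_one]
  · show fromBlocks (g * h).1 0 0 ((g * h)⁻¹ : GL (Fin n) F).1ᵀ =
      fromBlocks g.1 0 0 (g⁻¹ : GL (Fin n) F).1ᵀ * fromBlocks h.1 0 0 (h⁻¹ : GL (Fin n) F).1ᵀ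
    simp [fromBlocks_multiply, _root_.mul_inv_rev]

/-- The torus of `q^f + 1` type. -/
theorem exists_torus_even (hqF : Fintype.card F = q) {n m f : ℕ} (hrq : ¬ r ∣ q)
    (hf : orderOf (q : ZMod r) = 2 * f) (hm : f * m ≤ n) :
    ∃ Φ : (Fin m → Multiplicative (ZMod (r ^ cycExp q r))) →* ↥(Matrix.symplecticGroup (Fin n) F),
      Function.Injective Φ := by
  classical
  have hq : 2 ≤ q := hqF ▸ Fintype.one_lt_card
  have he0 := order_pos hrq
  have : NeZero (2 * f) := ⟨by omega⟩
  have := Fact.mk (CharP.char_is_prime F (ringChar F))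
  let K := FiniteField.Extension F (ringChar F) (2 * f)
  have : Finite K := Module.finite_of_finite F
  have := Fintype.ofFinite K
  have hK : Nat.card K = q ^ (2 * f) := by
    rw [FiniteField.natCard_extension, Nat.card_eq_fintype_card, hqF]
  have hfr : Module.finrank F K = 2 * f := by
    have h := Module.natCard_eq_pow_finrank (K := F) (V := K)
    rw [hK, Nat.card_eq_fintype_card, hqF] at h
    exact (Nat.pow_right_injective hq h).symm
  -- the involutive automorphism
  let σ : K →ₐ[F] K := (FiniteField.frobeniusAlgHom F K) ^ f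
  have hfrob : ∀ (i : ℕ) (x : K), ((FiniteField.frobeniusAlgHom F K) ^ i) x = x ^ q ^ i := by
    intro i
    induction i with
    | zero => intro x; simp
    | succ i ih =>
      intro x
      rw [pow_succ, AlgHom.mul_apply, ih, FiniteField.coe_frobeniusAlgHom, hqF, ← pow_mul,
        ← pow_succ']
  have hσ : ∀ x : K, σ x = x ^ q ^ f := hfrob f
  have hσσ : ∀ x : K, σ (σ x) = x := fun x => by
    rw [hσ, hσ, ← pow_mul, ← pow_add, ← two_mul, ← hK, Nat.card_eq_fintype_card, FiniteField.pow_card]
  -- a trace-zero element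
  obtain ⟨w, hw⟩ : ∃ w : K, σ w ≠ w := by
    by_contra hc
    push Not at hc
    have h1 : ∀ x : K, x ^ q ^ f = x := fun x => (hσ x).symm.trans (hc x)
    have hlt : 1 < q ^ f := Nat.one_lt_pow (by omega) (by omega)
    have hsub : (Finset.univ : Finset K) ⊆
        (Polynomial.X ^ q ^ f - Polynomial.X : Polynomial K).roots.toFinset := fun x _ => by
      rw [Multiset.mem_toFinset, Polynomial.mem_roots (FiniteField.X_pow_card_sub_X_ne_zero K hlt)]
      simp [h1 x]
    have h2 := (Finset.card_le_card hsub).trans ((Multiset.toFinset_card_le _).trans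
      (Polynomial.card_roots' _))
    rw [Finset.card_univ, FiniteField.X_pow_card_sub_X_natDegree_eq K hlt, ← Nat.card_eq_fintype_card,
      hK] at h2
    have := (Nat.pow_le_pow_iff_right (show 1 < q by omega)).1 h2
    omega
  set c := w - σ w with hc
  have hc0 : c ≠ 0 := sub_ne_zero.2 (Ne.symm hw)
  have hσc : σ c = -c := by rw [hc, map_sub, hσσ, neg_sub]
  -- torus elements
  have hN : r ^ cycExp q r ∣ q ^ f + 1 := by
    have h1 : r ^ cycExp q r ∣ (q ^ f - 1) * (q ^ f + 1) := by
      have : (q ^ f - 1) * (q ^ f + 1) = q ^ (2 * f) - 1 := by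
        rw [mul_comm, ← Nat.sq_sub_sq, one_pow, ← pow_mul, mul_comm f]
      rw [this, ← valuation_order hq hrq, hf]
      exact Nat.ordProj_dvd _ _
    refine (Nat.Coprime.dvd_of_dvd_mul_left (Nat.Coprime.pow_left _ ?_) h1)
    refine hr.out.coprime_iff_not_dvd.2 fun h => ?_
    have h2 := Nat.le_of_dvd (by omega) ((cast_pow_sub_one_eq_zero_iff (by omega) f).1 h)
    omega
  have hNK : r ^ cycExp q r ∣ Nat.card Kˣ := by
    rw [Nat.card_units, hK, ← hf, ← valuation_order hq hrq]
    exact Nat.ordProj_dvd _ _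
  obtain ⟨z, hz⟩ := exists_hom hNK
  have hzσ : ∀ g, (z g : K) * σ (z g : K) = 1 := fun g => by
    obtain ⟨t, ht⟩ := hN
    rw [hσ, ← pow_succ', ← Units.val_pow_eq_pow_val, ← map_pow, ht, pow_mul]
    have : g ^ r ^ cycExp q r = 1 := by
      have hc' : Nat.card (Multiplicative (ZMod (r ^ cycExp q r))) = r ^ cycExp q r := by
        rw [Nat.card_congr Multiplicative.toAdd, Nat.card_zmod]
      calc g ^ r ^ cycExp q r = g ^ Nat.card (Multiplicative (ZMod (r ^ cycExp q r))) := by rw [hc']
        _ = 1 := pow_card_eq_one'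
    simp [this]
  -- the form
  set k := n - f * m with hk
  let B : LinearMap.BilinForm F ((Fin m → K) × (Fin k ⊕ Fin k → F)) := LinearMap.mk₂ F
    (fun u v => (∑ i, Algebra.trace F K (c * u.1 i * σ (v.1 i))) +
      CfsgLib.Omega.sympBilin k F u.2 v.2)
    (fun u u' v => by
      simp only [Prod.fst_add, Prod.snd_add, Pi.add_apply, mul_add, add_mul, map_add,
        sum_add_distrib, LinearMap.add_apply]
      abel)
    (fun t u v => by
      simp only [Prod.smul_fst, Prod.smul_snd, Pi.smul_apply, mul_smul_comm, smul_mul_assoc,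
        map_smul, LinearMap.smul_apply, smul_eq_mul, mul_add, mul_sum])
    (fun u v v' => by
      simp only [Prod.fst_add, Prod.snd_add, Pi.add_apply, mul_add, map_add, sum_add_distrib]
      abel)
    (fun t u v => by
      simp only [Prod.smul_fst, Prod.smul_snd, Pi.smul_apply, map_smul, mul_smul_comm,
        smul_eq_mul, mul_add, mul_sum])
  have htr : ∀ x : K, Algebra.trace F K (c * x * σ x) = 0 := by
    intro x
    apply (algebraMap F K).injective
    rw [FiniteField.algebraMap_trace_eq_sum_pow,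
      show Module.finrank F K = f + f from hfr.trans (two_mul f),
      Nat.card_eq_fintype_card (α := F), hqF, map_zero, sum_range_add, ← sum_add_distrib]
    refine sum_eq_zero fun i _ => ?_
    set u := c * x * σ x with hu
    have hσu : σ u = -u := by rw [hu, map_mul, map_mul, hσc, hσσ]; ring
    rw [add_comm f i, ← hfrob, ← hfrob (i + f), pow_add, AlgHom.mul_apply,
      show ((FiniteField.frobeniusAlgHom F K) ^ f) u = -u from hσu, map_neg, add_neg_cancel]
  have hA : B.IsAlt := fun u => by
    simp [B, htr, CfsgLib.Omega.sympBilin_self]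
  have hB : B.Nondegenerate := by
    have hl : B.SeparatingLeft := by
      intro u hu
      have h2 : u.2 = 0 := (CfsgLib.Forms.sympBilin_nondeg k F).1 u.2 fun y => by
        simpa [B] using hu ((0 : Fin m → K), y)
      have h1 : u.1 = 0 := funext fun i => by
        have h3 : c * u.1 i = 0 := (traceForm_nondegenerate F K).1 _ fun y => by
          have h := hu (Pi.single i (σ y), 0)
          simp only [B, LinearMap.mk₂_apply, map_zero, add_zero] at h
          rw [sum_eq_single_of_mem i (mem_univ _) fun j _ hj => by simp [hj],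
            Pi.single_eq_same, hσσ] at h
          simpa [Algebra.traceForm_apply] using h
        simpa [hc0] using h3
      exact Prod.ext h1 h2
    refine ⟨hl, fun v hv => hl v fun u => ?_⟩
    rw [← LinearMap.IsAlt.neg hA, hv u, neg_zero]
  have hdim : Module.finrank F ((Fin m → K) × (Fin k ⊕ Fin k → F)) = Module.finrank F (Fin n ⊕ Fin n → F) := by
    simp only [Module.finrank_prod, Module.finrank_pi_fintype, hfr, Module.finrank_self,
      sum_const, card_univ, Fintype.card_fin, Fintype.card_sum, smul_eq_mul, mul_one]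
    rw [hk, show m * (2 * f) = 2 * (f * m) by ring]
    omega
  obtain ⟨E, hE⟩ := CfsgLib.Forms.alt_isometric B hB hA (CfsgLib.Omega.sympBilin n F)
    (CfsgLib.Forms.sympBilin_nondeg n F) (CfsgLib.Forms.sympBilin_isAlt n F) hdim
  -- the action
  let h : (Fin m → Multiplicative (ZMod (r ^ cycExp q r))) →* ((Fin m → K) × (Fin k ⊕ Fin k → F)) :=
    { toFun := fun g => (fun i => (z (g i) : K), 1)
      map_one' := Prod.ext (funext fun i => by simp) rfl
      map_mul' := fun g g' => Prod.ext (funext fun i => by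
        show ((z (g i * g' i) : Kˣ) : K) = (z (g i) : K) * (z (g' i) : K)
        rw [map_mul, Units.val_mul]) (one_mul 1).symm }
  let Ψ : (Fin m → Multiplicative (ZMod (r ^ cycExp q r))) →*
      Matrix (Fin n ⊕ Fin n) (Fin n ⊕ Fin n) F :=
    ((LinearMap.toMatrixAlgEquiv' : Module.End F (Fin n ⊕ Fin n → F) ≃ₐ[F] _).toMonoidHom.comp
      (((E.conjAlgEquiv F).toMonoidHom).comp ((Algebra.lmul F ((Fin m → K) × (Fin k ⊕ Fin k → F))).toMonoidHom.comp h)))
  have hΨ : ∀ g x, (Ψ g).mulVec x = E (h g * E.symm x) := fun g x => by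
    show (LinearMap.toMatrixAlgEquiv' (E.conjAlgEquiv F (Algebra.lmul F ((Fin m → K) × (Fin k ⊕ Fin k → F)) (h g)))).mulVec x = _
    rw [← Matrix.toLinAlgEquiv'_apply, Matrix.toLinAlgEquiv'_toMatrixAlgEquiv']
    rfl
  have hmem : ∀ g, Ψ g ∈ Matrix.symplecticGroup (Fin n) F := fun g =>
    CfsgLib.Forms.mem_symplecticGroup_iff_form.2 fun u v => by
      rw [hΨ, hΨ, ← CfsgLib.Omega.sympBilin_apply, ← CfsgLib.Omega.sympBilin_apply, hE]
      conv_rhs => rw [← E.apply_symm_apply u, ← E.apply_symm_apply v, hE]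
      simp only [B, LinearMap.mk₂_apply]
      congr 1
      · refine sum_congr rfl fun i _ => congrArg _ ?_
        show c * ((z (g i) : K) * (E.symm u).1 i) * σ ((z (g i) : K) * (E.symm v).1 i) = _
        rw [map_mul, show c * ((z (g i) : K) * (E.symm u).1 i) *
          (σ (z (g i) : K) * σ ((E.symm v).1 i)) = ((z (g i) : K) * σ (z (g i) : K)) *
          (c * (E.symm u).1 i * σ ((E.symm v).1 i)) by ring, hzσ, one_mul]
      · show CfsgLib.Omega.sympBilin k F ((1 : Fin k ⊕ Fin k → F) * (E.symm u).2)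
          ((1 : Fin k ⊕ Fin k → F) * (E.symm v).2) = _
        rw [one_mul, one_mul]
  refine ⟨Ψ.codRestrict _ hmem, fun g g' hgg => ?_⟩
  have h1 : ∀ y, h g * y = h g' * y := fun y => E.injective (by
    rw [← E.symm_apply_apply y, ← hΨ, ← hΨ,
      show Ψ g = Ψ g' from congrArg Subtype.val hgg])
  have h2 : h g = h g' := by simpa using h1 1
  funext i
  exact hz (Units.ext (congrFun (congrArg Prod.fst h2) i))

end CfsgLib.KnownSimple.SympTorus
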