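import Cfsg.Agent.Lib.KnownSimple.TrialityTorusRegular
import Cfsg.Agent.Lib.Twisted.TorusCounts
import Cfsg.Agent.Lib.Chevalley.SL2
import Cfsg.Agent.Lib.Chevalley.RegularTorus

/-!
A maximal torus of order `(q³ − 1)(q + 1)` of ³D₄(q): it lies in the Levi subgroup of the central
node, is diagonalised over the field of `q⁶` elements, where it becomes a regular subgroup of the
split torus, and is its own centraliser.
-/

set_option autoImplicit false
set_option maxRecDepth 100000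

namespace CfsgLib.KnownSimple.TrialityTorus

open Cfsg.Lie
open CfsgLib.Chevalley (Cert Aux Full Acts auxD4 xG nG hG smp chi torusHom rfPerm rootsU invSet crd
  SLRel slH slN slFun xG_mem_group cert_D4)
open CfsgLib.Twisted (fullD4 graphSigmaD4A graphEtaD4A graphTwist wordG wordG_cons wordG_nil
  wordG_mem_gen)

section centraliser

variable {D : ChevalleyDatum} {A : Aux} {F : Type*} [Field F]

/-- An element of `U` commuting with a torus element without a root value `1` is trivial. -/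
theorem eq_one_of_commute_torus (h : Full D A) {c : Fin D.rank → Fˣ}
    (h1 : ∀ s : Fin D.nroots, chi D s c ≠ 1) {u : GL D.Idx F} (hu : u ∈ D.posUnipotent F)
    (hc : Commute (torusHom D F c) u) : u = 1 := by
  obtain ⟨hs, hset, -⟩ := h.toStd.posList
  have hcl : CfsgLib.Chevalley.IsClosedRoots D {r | r ∈ D.posRoots} :=
    hset ▸ h.toStd.isClosed_pos
  rw [CfsgLib.Chevalley.posUnipotent_eq, ← hset] at hu
  obtain ⟨t, -, rfl⟩ := CfsgLib.Chevalley.exists_prodU h.toStd hs hcl hu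
  let t' : ℕ → F := fun r =>
    if hr : r < D.nroots then ((chi D (⟨r, hr⟩ : Fin D.nroots) c : Fˣ) : F) * t r else 0
  have hlt : ∀ r ∈ D.posRoots, r < D.nroots := fun r hr =>
    ((Set.ext_iff.1 hset r).1 hr : D.IsPosRoot r).1
  have key : ∀ L : List ℕ, (∀ r ∈ L, r < D.nroots) →
      torusHom D F c * CfsgLib.Chevalley.prodU h.cert L t =
        CfsgLib.Chevalley.prodU h.cert L t' * torusHom D F c := by
    intro L
    induction L with
    | nil => intro _; simp [CfsgLib.Chevalley.prodU]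
    | cons r L ih =>
      intro hL
      have hr := hL r (List.mem_cons_self ..)
      have e := (CfsgLib.Chevalley.acts_torus h.cert c).conj ⟨r, hr⟩ (t r)
      rw [Equiv.Perm.one_apply, mul_inv_eq_iff_eq_mul] at e
      rw [CfsgLib.Chevalley.prodU_cons, CfsgLib.Chevalley.prodU_cons, ← mul_assoc, e, mul_assoc,
        ih fun x hx => hL x (List.mem_cons_of_mem _ hx), ← mul_assoc]
      simp only [t', dif_pos hr]
  have e := (key _ hlt).symm.trans hc.eq
  have hz := CfsgLib.Chevalley.prodU_injOn h.toStd hs hcl (mul_right_cancel e)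
  have h0 : ∀ r ∈ D.posRoots, t r = 0 := by
    intro r hr
    have hr' := hlt r hr
    have e2 := hz r hr
    simp only [t', dif_pos hr'] at e2
    by_contra hne
    exact h1 ⟨r, hr'⟩ (Units.ext (mul_right_cancel₀ hne (e2.trans (one_mul (t r)).symm)))
  refine List.prod_eq_one fun x hx => ?_
  obtain ⟨r, hr, rfl⟩ := List.mem_map.1 hx
  rw [h0 r hr, CfsgLib.Chevalley.xG_zero]

/-- The centraliser of a torus element without a root value `1` and fixed only by the trivial
element of the Weyl group is the diagonal subgroup. -/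
theorem mem_diagonal_of_commute_torus (h : Full D A) {c : Fin D.rank → Fˣ}
    (h1 : ∀ s : Fin D.nroots, chi D s c ≠ 1)
    (h2 : ∀ {n : GL D.Idx F} {σ : Equiv.Perm (Fin D.nroots)} {η : Fin D.nroots → F},
      Acts h.cert n σ η → (∀ s : Fin D.nroots, chi D (σ s) c = chi D s c) →
      ∀ i : Fin D.rank, σ (smp h.cert i) = smp h.cert i) {g : GL D.Idx F}
    (hg : g ∈ D.group F) (hc : Commute (torusHom D F c) g) : g ∈ D.diagonalSubgroup F := by
  obtain ⟨u, hu, n, hn, σ, η, hA, v, hv, rfl⟩ := CfsgLib.Chevalley.exists_canonical h hg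
  set d := torusHom D F c with hd
  have hdH : d ∈ D.diagonalSubgroup F := CfsgLib.Chevalley.torus_mem_diagonal h c
  obtain ⟨η', hA'⟩ : ∃ η', Acts h.cert (d * n * d⁻¹) σ η' := by
    have := ((CfsgLib.Chevalley.acts_torus h.cert c).mul hA).mul
      (CfsgLib.Chevalley.acts_torus h.cert c⁻¹)
    rw [map_inv, ← hd, mul_one, one_mul] at this
    exact ⟨_, this⟩
  have hpU : ∀ {x : GL D.Idx F}, x ∈ rootsU D F (invSet D σ) → x ∈ D.posUnipotent F :=
    fun hx => CfsgLib.Chevalley.rootsU_mono (T := {r | D.IsPosRoot r}) (fun r hr => hr.1) hx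
  have hu' : d * u * d⁻¹ ∈ D.posUnipotent F :=
    CfsgLib.Chevalley.diagonal_conj_rootsU h _ d hdH u hu
  have hv' : d * v * d⁻¹ ∈ rootsU D F (invSet D σ) :=
    CfsgLib.Chevalley.diagonal_conj_rootsU h _ d hdH v hv
  have hn' : d * n * d⁻¹ ∈ D.monomialSubgroup F :=
    mul_mem (mul_mem (CfsgLib.Chevalley.diagonal_le_monomial hdH) hn)
      (inv_mem (CfsgLib.Chevalley.diagonal_le_monomial hdH))
  obtain ⟨eu, en, ev⟩ := CfsgLib.Chevalley.canonical_unique h hu' hu hn' hn hA' hA hv' hv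
    (by rw [show d * u * d⁻¹ * (d * n * d⁻¹) * (d * v * d⁻¹) = d * (u * n * v) * d⁻¹ by group,
      hc.eq, mul_inv_cancel_right])
  have cn : Commute d n := mul_inv_eq_iff_eq_mul.1 en
  rw [eq_one_of_commute_torus h h1 hu (mul_inv_eq_iff_eq_mul.1 eu),
    eq_one_of_commute_torus h h1 (hpU hv) (mul_inv_eq_iff_eq_mul.1 ev), one_mul, mul_one]
  have hσ : ∀ s, chi D (σ s) c = chi D s c := by
    intro s
    have he := congrArg
      (fun g : GL D.Idx F => (g : Matrix D.Idx D.Idx F) (Sum.inr (σ s)) (Sum.inr s)) cn.eq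
    simp only [hd, Units.val_mul, CfsgLib.Chevalley.coe_torusHom, Matrix.diagonal_mul,
      Matrix.mul_diagonal, hA.col, if_true, Sum.elim_inr] at he
    rw [mul_comm] at he
    exact Units.ext (mul_left_cancel₀ (hA.ne_zero s) he)
  refine CfsgLib.Chevalley.mem_diagonal_of_perm h hn hA fun i => ?_
  rw [h2 hA hσ i]
  exact h.simple_pos i.isLt

end centraliser

theorem d4Torus_data :
    ([chevD4.simple 0, chevD4.simple 1, chevD4.simple 2, chevD4.simple 3, chevD4.neg 14] ==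
        [18, 14, 13, 12, 9] &&
      [graphSigmaD4A 18, graphSigmaD4A 13, graphSigmaD4A 12, graphSigmaD4A 14, graphSigmaD4A 9] ==
        [13, 12, 18, 14, 9] &&
      [graphEtaD4A 14, graphEtaD4A 9] == [1, 1] &&
      [rfPerm cert_D4 (1 : Fin 4) ⟨13, by decide⟩, rfPerm cert_D4 (1 : Fin 4) ⟨12, by decide⟩,
        rfPerm cert_D4 (1 : Fin 4) ⟨18, by decide⟩, rfPerm cert_D4 (1 : Fin 4) ⟨14, by decide⟩].map
          (fun x => x.val) == [16, 15, 19, 9] &&
      [16, 15, 19, 9].map (fun u => (List.range 4).map fun j => crd auxD4 j u) ==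
        [[0, 1, 1, 0], [0, 1, 0, 1], [1, 1, 0, 0], [0, -1, 0, 0]] &&
      decide (∀ j : Fin 4, crd auxD4 j 19 = crd auxD4 j 18 + crd auxD4 j 14)) = true := by
  decide +kernel

section base

variable {K F : Type*} [Field K] [Field F] (f : K →+* F)

theorem map_xG (r : ℕ) (t : K) :
    Matrix.GeneralLinearGroup.map f (xG cert_D4 r t) = xG cert_D4 r (f t) := by
  apply Units.ext
  show (chevD4.x K r t).map f = chevD4.x F r (f t)
  by_cases hr : r < chevD4.nroots
  · rw [CfsgLib.Chevalley.x_eq_xR chevD4 K hr, CfsgLib.Chevalley.x_eq_xR chevD4 F hr,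
      CfsgLib.Chevalley.xR_map f cert_D4.wf]
  · simp [ChevalleyDatum.x, hr, map_zero, map_one]

theorem eq_xG {g : GL chevD4.Idx K} {r : Fin chevD4.nroots} {t : K}
    (hg : (g : Matrix chevD4.Idx chevD4.Idx K) = chevD4.xMat K r t) : g = xG cert_D4 r t :=
  (CfsgLib.Chevalley.eq_xG_iff cert_D4).1 (by rw [hg, ChevalleyDatum.x, dif_pos r.isLt])

theorem map_mem_group {g : GL chevD4.Idx K} (hg : g ∈ chevD4.group K) :
    Matrix.GeneralLinearGroup.map f g ∈ chevD4.group F := by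
  rw [ChevalleyDatum.group] at hg
  induction hg using Subgroup.closure_induction with
  | mem g hg =>
    obtain ⟨r, t, hg⟩ := hg
    rw [eq_xG hg, map_xG]
    exact xG_mem_group cert_D4 _ _
  | one => simp
  | mul x y _ _ hx hy => rw [map_mul]; exact mul_mem hx hy
  | inv x _ hx => rw [map_inv]; exact inv_mem hx

theorem gl_map_injective {ι : Type*} [Fintype ι] [DecidableEq ι] :
    Function.Injective (Matrix.GeneralLinearGroup.map (n := ι) f) := fun a b h => by
  apply Units.ext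
  ext i j
  exact f.injective (congrArg (fun y : GL ι F => (y : Matrix ι ι F) i j) h)

theorem map_nG (r : ℕ) (c : K) :
    Matrix.GeneralLinearGroup.map f (nG cert_D4 r c) = nG cert_D4 r (f c) := by
  simp only [nG, map_mul, map_xG, map_neg, map_inv₀]

theorem map_hG (r : ℕ) (c : K) :
    Matrix.GeneralLinearGroup.map f (hG cert_D4 r c) = hG cert_D4 r (f c) := by
  simp only [hG, map_mul, map_nG, map_neg, map_one]

theorem map_torusHom (c : Fin chevD4.rank → Kˣ) :
    Matrix.GeneralLinearGroup.map f (torusHom chevD4 K c) =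
      torusHom chevD4 F fun j => Units.map f.toMonoidHom (c j) := by
  apply Units.ext
  show ((torusHom chevD4 K c : GL chevD4.Idx K) : Matrix chevD4.Idx chevD4.Idx K).map f = _
  rw [CfsgLib.Chevalley.coe_torusHom, CfsgLib.Chevalley.coe_torusHom,
    Matrix.diagonal_map (map_zero f)]
  congr 1
  funext a
  rcases a with j | s
  · simp
  · have e : chi chevD4 s (fun j => Units.map f.toMonoidHom (c j)) =
        Units.map f.toMonoidHom (chi chevD4 s c) := by
      simp [chi, map_prod, map_zpow]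
    show f ((chi chevD4 s c : Kˣ) : K) = ((chi chevD4 s fun j => Units.map f.toMonoidHom (c j) : Fˣ) : F)
    rw [e]
    rfl

end base

section fields

variable {K F : Type*} [Field K] [Fintype K] [Field F] [Fintype F] {q : ℕ}

/-- The fixed points of `x ↦ x^(q³)` are the image of `K`. -/
theorem exists_preimage (f : K →+* F) (hK : Fintype.card K = q ^ 3) (hq : 2 ≤ q) {a : F}
    (ha : a ^ q ^ 3 = a) : ∃ k, f k = a := by
  classical
  have h1 : 1 < q ^ 3 := Nat.one_lt_pow (by norm_num) (by omega)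
  set P : Polynomial F := Polynomial.X ^ q ^ 3 - Polynomial.X with hP
  have hP0 : P ≠ 0 := FiniteField.X_pow_card_sub_X_ne_zero F h1
  have hsub : Finset.univ.image f ⊆ P.roots.toFinset := by
    intro x hx
    obtain ⟨k, -, rfl⟩ := Finset.mem_image.1 hx
    rw [Multiset.mem_toFinset, Polynomial.mem_roots hP0, Polynomial.IsRoot, hP,
      Polynomial.eval_sub, Polynomial.eval_pow, Polynomial.eval_X, ← map_pow, ← hK,
      FiniteField.pow_card, sub_self]
  have hcard : P.roots.toFinset.card ≤ (Finset.univ.image f).card := by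
    rw [Finset.card_image_of_injective _ f.injective, Finset.card_univ, hK]
    refine (Multiset.toFinset_card_le _).trans ((Polynomial.card_roots' P).trans ?_)
    rw [hP, FiniteField.X_pow_card_sub_X_natDegree_eq F h1]
  have : a ∈ Finset.univ.image f := by
    rw [Finset.eq_of_subset_of_card_le hsub hcard, Multiset.mem_toFinset,
      Polynomial.mem_roots hP0, Polynomial.IsRoot, hP, Polynomial.eval_sub, Polynomial.eval_pow,
      Polynomial.eval_X, ha, sub_self]
  obtain ⟨k, -, rfl⟩ := Finset.mem_image.1 this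
  exact ⟨k, rfl⟩

/-- The torus element `h₁(t) h₃(t^q) h₄(t^(q²))`. -/
theorem torus_mem (hq : IsPrimePow q) (hK : Fintype.card K = q ^ 3) (t : Kˣ) :
    torusHom chevD4 K (![t, 1, t ^ q, t ^ q ^ 2] : Fin 4 → Kˣ) ∈ twistedD4 K q := by
  have hm : (-1 : K) ^ q = -1 := CfsgLib.Twisted.neg_one_pow_primePow hq three_ne_zero hK
  have hm2 : (-1 : K) ^ q ^ 2 = -1 := by rw [sq, pow_mul, hm, hm]
  have hc := CfsgLib.Twisted.torusChecksD4
  simp only [Bool.and_eq_true, beq_iff_eq, List.cons.injEq, and_true] at hc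
  obtain ⟨⟨⟨⟨⟨⟨⟨-, o13⟩, o14⟩, o34⟩, n1, n2, n3, n4⟩, s0, s1, s2, s3⟩, -⟩, -⟩ := hc
  have hC := fullD4.cert
  have hsplit : torusHom chevD4 K (![t, 1, t ^ q, t ^ q ^ 2] : Fin 4 → Kˣ) =
      ([(d4p1, (t : K)), (d4p3, (t : K) ^ q), (d4p4, (t : K) ^ q ^ 2)].map
        fun p => hG hC p.1 p.2).prod := by
    simp only [List.map_cons, List.map_nil, List.prod_cons, List.prod_nil, mul_one]
    rw [← s0, ← s2, ← s3, ← Units.val_pow_eq_pow_val, ← Units.val_pow_eq_pow_val,
      show hG hC (chevD4.simple 0) (t : K) = torusHom chevD4 K (Pi.mulSingle (0 : Fin 4) t) from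
        (CfsgLib.Chevalley.torusHom_mulSingle hC (0 : Fin 4) t).symm,
      show hG hC (chevD4.simple 2) ((t ^ q : Kˣ) : K) =
          torusHom chevD4 K (Pi.mulSingle (2 : Fin 4) (t ^ q)) from
        (CfsgLib.Chevalley.torusHom_mulSingle hC (2 : Fin 4) (t ^ q)).symm,
      show hG hC (chevD4.simple 3) ((t ^ q ^ 2 : Kˣ) : K) =
          torusHom chevD4 K (Pi.mulSingle (3 : Fin 4) (t ^ q ^ 2)) from
        (CfsgLib.Chevalley.torusHom_mulSingle hC (3 : Fin 4) (t ^ q ^ 2)).symm, ← map_mul, ← map_mul]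
    have key : (![t, 1, t ^ q, t ^ q ^ 2] : Fin 4 → Kˣ) =
        Pi.mulSingle 0 t * (Pi.mulSingle 2 (t ^ q) * Pi.mulSingle 3 (t ^ q ^ 2)) := by
      funext k
      fin_cases k <;> simp [Pi.mulSingle_apply]
    exact congrArg (torusHom chevD4 K) key
  rw [hsplit]
  have w3 : ∀ t : K, ∀ rs ∈ [(d4p1, d4p3, d4p4), (d4m1, d4m3, d4m4)],
      wordG hC [(rs.1, t), (rs.2.1, t ^ q), (rs.2.2, t ^ q ^ 2)] ∈ twistedD4 K q := fun t rs hrs =>
    wordG_mem_gen _ (Or.inr ⟨t, rs, hrs, rfl⟩)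
  refine CfsgLib.Twisted.prod_hG_mem hC ?_ (w3 _ _ (List.mem_cons_self ..)) ?_ ?_ ?_
  · simp only [List.map_cons, List.map_nil, List.pairwise_cons, List.mem_cons, List.not_mem_nil,
      or_false, forall_eq_or_imp, forall_eq, IsEmpty.forall_iff, implies_true, List.Pairwise.nil,
      and_true]
    exact ⟨⟨CfsgLib.Twisted.orthPair_of_check hC CfsgLib.Twisted.rootCertD4 o13,
      CfsgLib.Twisted.orthPair_of_check hC CfsgLib.Twisted.rootCertD4 o14⟩,
      CfsgLib.Twisted.orthPair_of_check hC CfsgLib.Twisted.rootCertD4 o34⟩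
  · simpa [CfsgLib.Twisted.negPart, n1, n3, n4, inv_pow, neg_pow, hm, hm2] using
      w3 (-(t : K)⁻¹) (d4m1, d4m3, d4m4) (by simp)
  · simpa [hm, hm2] using w3 (-1) (d4p1, d4p3, d4p4) (by simp)
  · simpa [CfsgLib.Twisted.negPart, n1, n3, n4] using w3 1 (d4m1, d4m3, d4m4) (by simp)

/-- The twist over the larger field fixes the image of ³D₄(q). -/
theorem exists_twist (f : K →+* F) (hq : IsPrimePow q) (hK : Fintype.card K = q ^ 3)
    (hF : Fintype.card F = q ^ 6) :
    ∃ s : ↥(chevD4.group F) →* GL chevD4.Idx F,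
      (∀ (g : ↥(chevD4.group F)) (r : ℕ) (t : F), r < chevD4.nroots →
        (g : GL chevD4.Idx F) = xG cert_D4 r t →
          s g = xG cert_D4 (graphSigmaD4A r) (graphTwist graphEtaD4A q r t)) ∧
      ∀ g : ↥(chevD4.group F), ∀ z : GL chevD4.Idx K, z ∈ twistedD4 K q →
        (g : GL chevD4.Idx F) = Matrix.GeneralLinearGroup.map f z → s g = g := by
  have h := CfsgLib.Twisted.graphAutD4A_check
  simp only [Bool.and_eq_true] at h
  obtain ⟨⟨⟨h1, h2⟩, h3⟩, -⟩ := h
  obtain ⟨s, hs⟩ := CfsgLib.Twisted.exists_graph_twist (F := F) cert_D4 CfsgLib.Twisted.tablesD4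
    h1 h2 h3 hq (by norm_num : (6 : ℕ) ≠ 0) hF
  have hT := CfsgLib.Twisted.d4Twist_isTwist hq hK
  obtain ⟨σ, hσ, hfix⟩ := hT.exists_map
  let M : ↥(chevD4.group K) →* ↥(chevD4.group F) :=
    MonoidHom.mk' (fun g => ⟨Matrix.GeneralLinearGroup.map f g, map_mem_group f g.2⟩)
      fun g g' => Subtype.ext (by simp)
  have key : s.comp M = (Matrix.GeneralLinearGroup.map f).comp σ := by
    refine MonoidHom.eq_of_eqOn_dense (s := Subtype.val ⁻¹' {g : GL chevD4.Idx K |
      ∃ (r : Fin chevD4.nroots) (t : K), (g : Matrix chevD4.Idx chevD4.Idx K) = chevD4.xMat K r t})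
      Subgroup.closure_closure_coe_preimage ?_
    rintro g ⟨r, t, hg⟩
    have e := eq_xG hg
    show s (M g) = Matrix.GeneralLinearGroup.map f (σ g)
    rw [hs (M g) r (f t) r.isLt (by
        show Matrix.GeneralLinearGroup.map f (g : GL chevD4.Idx K) = _
        rw [e, map_xG]),
      hσ g r t r.isLt e, map_xG]
    simp [graphTwist, map_pow]
  refine ⟨s, hs, fun g z hz hg => ?_⟩
  have hzg := hT.le hz
  have e : g = M ⟨z, hzg⟩ := Subtype.ext hg
  rw [e, ← MonoidHom.comp_apply, key, MonoidHom.comp_apply, hfix ⟨z, hzg⟩ hz]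
  rfl

end fields

section main

variable {K F : Type*} [Field K] [Fintype K] [Field F] [Fintype F]

/-- The homomorphism on `SL₂` along the central node, on the elements used below. -/
theorem exists_centralHom :
    ∃ Φ : Matrix.SpecialLinearGroup (Fin 2) F →* GL chevD4.Idx F,
      (∀ g : Matrix.SpecialLinearGroup (Fin 2) F, g.1 1 0 ≠ 0 →
        Φ g = xG cert_D4 14 (g.1 0 0 / g.1 1 0) * nG cert_D4 14 (-(g.1 1 0)⁻¹) *
          xG cert_D4 14 (g.1 1 1 / g.1 1 0)) ∧
      (∀ g : Matrix.SpecialLinearGroup (Fin 2) F, g.1 1 0 = 0 →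
        Φ g = hG cert_D4 14 (g.1 0 0) * xG cert_D4 14 (g.1 0 1 / g.1 0 0)) := by
  classical
  have hd := d4Torus_data
  simp only [Bool.and_eq_true, beq_iff_eq, decide_eq_true_eq, List.cons.injEq, and_true] at hd
  obtain ⟨⟨⟨⟨⟨-, -⟩, -⟩, -⟩, -⟩, -⟩ := hd
  have R : SLRel (fun t : F => xG cert_D4 14 t) (fun t : F => xG cert_D4 (chevD4.neg 14) t) :=
    CfsgLib.Chevalley.slRel_root fullD4 (⟨14, by decide⟩ : Fin chevD4.nroots)
  refine ⟨R.hom, fun g hg => ?_, fun g hg => ?_⟩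
  · show slFun _ _ g = _
    rw [slFun, if_neg hg]
    rfl
  · show slFun _ _ g = _
    rw [slFun, if_pos hg]
    rfl

/-- The exponents of the values at the roots. -/
theorem chi_eq_zpow {c : Fin chevD4.rank → Fˣ} {ξ : Fˣ} {q : ℤ}
    (h0 : chi chevD4 18 c = ξ ^ (-q ^ 2 + q + 1)) (h1 : chi chevD4 14 c = ξ ^ (1 - q ^ 3))
    (h2 : chi chevD4 13 c = ξ ^ (q ^ 2 + q - 1))
    (h3 : chi chevD4 12 c = ξ ^ (2 * q ^ 3 + q ^ 2 - q - 1)) (s : Fin chevD4.nroots) :
    chi chevD4 s c = ξ ^ ex q s := by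
  have hd := d4Torus_data
  simp only [Bool.and_eq_true, beq_iff_eq, decide_eq_true_eq, List.cons.injEq, and_true] at hd
  obtain ⟨⟨⟨⟨⟨⟨s0, s1, s2, s3, -⟩, -⟩, -⟩, -⟩, -⟩, -⟩ := hd
  rw [CfsgLib.Twisted.chi_eq_prod fullD4 s c]
  show ∏ j : Fin 4, chi chevD4 (chevD4.simple j) c ^ crd auxD4 j s = _
  rw [Fin.prod_univ_four]
  simp only [Fin.val_zero, Fin.val_one, Fin.val_two, show ((3 : Fin 4) : ℕ) = 3 from rfl, s0, s1, s2,
    s3, h0, h1, h2, h3, ← zpow_mul, ← zpow_add, ex, exCoef]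
  congr 1
  ring

theorem chi_sum {c : Fin chevD4.rank → Fˣ} :
    chi chevD4 16 c = chi chevD4 14 c * chi chevD4 13 c ∧
    chi chevD4 15 c = chi chevD4 14 c * chi chevD4 12 c ∧
    chi chevD4 19 c = chi chevD4 18 c * chi chevD4 14 c ∧
    chi chevD4 9 c = (chi chevD4 14 c)⁻¹ := by
  have hd := d4Torus_data
  simp only [Bool.and_eq_true, beq_iff_eq, decide_eq_true_eq, List.cons.injEq, and_true,
    List.map_cons, List.map_nil, show List.range 4 = [0, 1, 2, 3] from rfl] at hd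
  obtain ⟨⟨⟨⟨⟨⟨s0, s1, s2, s3, -⟩, -⟩, -⟩, -⟩, ⟨a0, a1, a2, a3⟩, ⟨b0, b1, b2, b3⟩, ⟨c0, c1, c2, c3⟩,
    ⟨d0, d1, d2, d3⟩⟩, -⟩ := hd
  have key : ∀ u : Fin chevD4.nroots, chi chevD4 u c =
      chi chevD4 18 c ^ crd auxD4 0 u * chi chevD4 14 c ^ crd auxD4 1 u *
        chi chevD4 13 c ^ crd auxD4 2 u * chi chevD4 12 c ^ crd auxD4 3 u := by
    intro u
    rw [CfsgLib.Twisted.chi_eq_prod fullD4 u c]
    show ∏ j : Fin 4, chi chevD4 (chevD4.simple j) c ^ crd auxD4 j u = _
    rw [Fin.prod_univ_four]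
    simp only [Fin.val_zero, Fin.val_one, Fin.val_two, show ((3 : Fin 4) : ℕ) = 3 from rfl, s0, s1,
      s2, s3]
  refine ⟨?_, ?_, ?_, ?_⟩
  · have := key ⟨16, by decide⟩
    simpa [a0, a1, a2, a3] using this
  · have := key ⟨15, by decide⟩
    simpa [b0, b1, b2, b3] using this
  · have := key ⟨19, by decide⟩
    simpa [c0, c1, c2, c3] using this
  · have := key ⟨9, by decide⟩
    simpa [d0, d1, d2, d3] using this

theorem torusHom_ext4 {c d : Fin chevD4.rank → Fˣ} (h0 : chi chevD4 18 c = chi chevD4 18 d)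
    (h1 : chi chevD4 14 c = chi chevD4 14 d) (h2 : chi chevD4 13 c = chi chevD4 13 d)
    (h3 : chi chevD4 12 c = chi chevD4 12 d) : torusHom chevD4 F c = torusHom chevD4 F d := by
  have hd := d4Torus_data
  simp only [Bool.and_eq_true, beq_iff_eq, decide_eq_true_eq, List.cons.injEq, and_true] at hd
  obtain ⟨⟨⟨⟨⟨⟨s0, s1, s2, s3, -⟩, -⟩, -⟩, -⟩, -⟩, -⟩ := hd
  refine CfsgLib.Twisted.torusHom_ext fullD4 fun j => ?_
  rcases j with ⟨_ | _ | _ | _ | j, hj⟩
  · simpa [s0] using h0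
  · simpa [s1] using h1
  · simpa [s2] using h2
  · simpa [s3] using h3
  · exact absurd hj (by show ¬ j + 4 < 4; omega)

/-- Arithmetic: the exponents generate the integers modulo the order. -/
theorem dvd_of_dvd_exponents {q k : ℤ} (h0 : torusOrd q ∣ k * (-q ^ 2 + q + 1))
    (h2 : torusOrd q ∣ k * (q ^ 2 + q - 1)) : torusOrd q ∣ k := by
  have h2q : torusOrd q ∣ k * (2 * q) := by
    have := dvd_add h0 h2
    rwa [show k * (-q ^ 2 + q + 1) + k * (q ^ 2 + q - 1) = k * (2 * q) by ring] at this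
  have h2k : torusOrd q ∣ 2 * k := by
    have := dvd_sub (dvd_mul_of_dvd_left h2q (q ^ 3 + q ^ 2 - 1)) (dvd_mul_right (torusOrd q) (2 * k))
    rwa [show k * (2 * q) * (q ^ 3 + q ^ 2 - 1) - torusOrd q * (2 * k) = 2 * k by
      rw [torusOrd]; ring] at this
  obtain ⟨j, hj⟩ : ∃ j, (q - 1) * q = j + j := by
    have := Int.even_mul_succ_self (q - 1)
    rwa [sub_add_cancel] at this
  have := dvd_add h0 (dvd_mul_of_dvd_left h2k j)
  rwa [show k * (-q ^ 2 + q + 1) + 2 * k * j = k by linear_combination (-k) * hj] at this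

set_option maxHeartbeats 1000000 in
/-- The self-centralising torus. -/
theorem exists_self_centralizing {q : ℕ} (f : K →+* F) (hq : IsPrimePow q)
    (hK : Fintype.card K = q ^ 3) (hF : Fintype.card F = q ^ 6) :
    ∃ H : Subgroup ↥(twistedD4 K q), IsCyclic ↥H ∧ Nat.card ↥H = (q ^ 3 - 1) * (q + 1) ∧
      Subgroup.centralizer (H : Set ↥(twistedD4 K q)) = H := by
  classical
  have hq2 := hq.two_le
  set N := (q ^ 3 - 1) * (q + 1) with hN
  have hq3 : 1 < q ^ 3 := Nat.one_lt_pow (by norm_num) (by omega)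
  have hN0 : 0 < N := Nat.mul_pos (by omega) (by omega)
  have hNz : (N : ℤ) = torusOrd q := by
    rw [hN, torusOrd, Nat.cast_mul, Nat.cast_sub hq3.le]
    push_cast
    ring
  -- the field elements
  obtain ⟨ξ, hξ⟩ : ∃ ξ : Fˣ, orderOf ξ = N := by
    obtain ⟨γ, hγ⟩ := IsCyclic.exists_ofOrder_eq_natCard (α := Fˣ)
    refine ⟨γ ^ (orderOf γ / N), orderOf_pow_orderOf_div (orderOf_pos γ).ne' ?_⟩
    rw [hγ, Nat.card_units, Nat.card_eq_fintype_card, hF]
    refine ⟨q ^ 2 - q + 1, ?_⟩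
    have h6 : 1 ≤ q ^ 6 := Nat.one_le_pow _ _ (by omega)
    have hqq : q ≤ q ^ 2 := Nat.le_self_pow (by norm_num) q
    zify [h6, hqq, hq3.le, hN]
    ring
  have hord : ∀ k : ℤ, ξ ^ k = 1 ↔ torusOrd q ∣ k := fun k => by
    rw [← orderOf_dvd_iff_zpow_eq_one, hξ, hNz]
  have hpow : ∀ k : ℕ, ξ ^ k = 1 ↔ N ∣ k := fun k => by rw [← hξ]; exact orderOf_dvd_iff_pow_eq_one.symm
  set tU : Fˣ := ξ ^ (q + 1) with htU
  set lU : Fˣ := ξ ^ (q ^ 2 + q + 1) with hlU
  set nU : Fˣ := tU * tU ^ q * tU ^ q ^ 2 with hnU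
  have hlm : lU * lU ^ q = nU := by
    simp only [hlU, hnU, htU, ← pow_mul, ← pow_add]
    congr 1
    ring
  have hll : lU ^ (q * q) = lU := by
    have h1 : lU ^ (q * q - 1) = 1 := by
      rw [hlU, ← pow_mul, hpow]
      refine ⟨1, ?_⟩
      have hqq : 1 ≤ q * q := Nat.one_le_iff_ne_zero.2 (Nat.mul_ne_zero (by omega) (by omega))
      zify [hqq, hq3.le, hN]
      ring
    have hqq : 1 ≤ q * q := Nat.one_le_iff_ne_zero.2 (Nat.mul_ne_zero (by omega) (by omega))
    conv_lhs => rw [show q * q = q * q - 1 + 1 by omega, pow_succ, h1, one_mul]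
  have htfix : tU ^ q ^ 3 = tU := by
    conv_lhs => rw [show q ^ 3 = q ^ 3 - 1 + 1 by omega, pow_succ]
    rw [htU, ← pow_mul, (hpow _).2 ⟨1, by rw [hN]; ring⟩, one_mul]
  -- the Frobenius map
  obtain ⟨p, k, hp, hk, hpk⟩ := id hq
  have hp' := hp.nat_prime
  haveI : Fact p.Prime := ⟨hp'⟩
  haveI : CharP F p := CfsgLib.Twisted.charP_of_cast_zero hp'
    (CfsgLib.Twisted.natCast_char_zero (p := p) (k := k * 6) (by omega) (by rw [hF, ← hpk, pow_mul]))
  obtain ⟨φ, hφ⟩ : ∃ φ : F →+* F, ∀ x, φ x = x ^ q :=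
    ⟨iterateFrobenius F p k, fun x => by rw [iterateFrobenius_def, hpk]⟩
  have hm1 : (-1 : F) ^ q = -1 := by rw [← hφ, map_neg, map_one]
  set lam : F := (lU : F) with hlam
  set mu : F := lam ^ q with hmu
  set n : F := (nU : F) with hn
  have hn0 : n ≠ 0 := Units.ne_zero _
  have hl0 : lam ≠ 0 := Units.ne_zero _
  have hlm' : lam * mu = n := by
    rw [hn, ← hlm]; simp [hlam, hmu]
  have hmq : mu ^ q = lam := by
    rw [hmu, hlam, ← pow_mul, ← Units.val_pow_eq_pow_val, hll]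
  have hnq : n ^ q = n := by rw [← hlm', mul_pow, ← hmu, hmq, mul_comm]
  set d : F := lam - mu with hd
  have hd0 : d ≠ 0 := by
    intro e
    have e1 : lU ^ q = lU := Units.ext (by
      rw [Units.val_pow_eq_pow_val]; exact (sub_eq_zero.1 e).symm)
    have e2 : lU ^ (q - 1) = 1 := by
      have h' : lU ^ (q - 1) * lU = 1 * lU := by rw [← pow_succ, show q - 1 + 1 = q by omega, e1, one_mul]
      exact mul_right_cancel h'
    rw [hlU, ← pow_mul, hpow] at e2
    have hlt : (q ^ 2 + q + 1) * (q - 1) < N := by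
      rw [show (q ^ 2 + q + 1) * (q - 1) = q ^ 3 - 1 by
        zify [show 1 ≤ q by omega, hq3.le]; ring, hN]
      exact lt_mul_of_one_lt_right (by omega) (by omega)
    exact (Nat.mul_pos (by positivity) (by omega : 0 < q - 1)).ne'
      (Nat.eq_zero_of_dvd_of_lt e2 hlt)
  have hdq : d ^ q = -d := by rw [← hφ, hd, map_sub, hφ, hφ, hmq, ← hmu]; ring
  set bF : F := (lam + mu) / n with hbF
  have hbq : bF ^ q = bF := by
    rw [← hφ, hbF, map_div₀, map_add, hφ, hφ, hφ, hmq, hnq, ← hmu, add_comm]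
  obtain ⟨bK, hbK⟩ := exists_preimage f hK hq2 (a := bF)
    (by rw [pow_succ, pow_two, pow_mul, pow_mul, hbq, hbq, hbq])
  have hbKq : bK ^ q = bK := f.injective (by rw [map_pow, hbK, hbq])
  obtain ⟨tK0, htK⟩ := exists_preimage f hK hq2 (a := (tU : F))
    (by rw [← Units.val_pow_eq_pow_val, htfix])
  let tK : Kˣ := Units.mk0 tK0 fun e => tU.ne_zero (by rw [← htK, e, map_zero])
  -- the element
  set TK := torusHom chevD4 K (![tK, 1, tK ^ q, tK ^ q ^ 2] : Fin 4 → Kˣ) with hTK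
  have hx : xG cert_D4 9 (1 : K) * xG cert_D4 14 (-1) * xG cert_D4 9 1 * xG cert_D4 14 bK * TK ∈
      twistedD4 K q := by
    have hmK : (-1 : K) ^ q = -1 := CfsgLib.Twisted.neg_one_pow_primePow hq three_ne_zero hK
    have w1 : ∀ t : K, t ^ q = t → ∀ r ∈ [d4p2, d4m2], xG cert_D4 r t ∈ twistedD4 K q := by
      intro t ht r hr
      have := wordG_mem_gen cert_D4 (S := d4Words K q) (Or.inl ⟨t, ht, r, hr, rfl⟩)
      show _ ∈ chevD4.genSubgroup K (d4Words K q)
      simpa [wordG_cons, wordG_nil] using this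
    exact mul_mem (mul_mem (mul_mem (mul_mem (w1 _ (one_pow q) 9 (by simp [d4m2]))
      (w1 _ hmK 14 (by simp [d4p2]))) (w1 _ (one_pow q) 9 (by simp [d4m2])))
      (w1 _ hbKq 14 (by simp [d4p2]))) (torus_mem hq hK tK)
  set xK : ↥(twistedD4 K q) := ⟨_, hx⟩ with hxK
  set cH : Fin chevD4.rank → Fˣ := (![tU, 1, tU ^ q, tU ^ q ^ 2] : Fin 4 → Fˣ) with hcH
  set c0 : Fin chevD4.rank → Fˣ := (![tU, lU, tU ^ q, tU ^ q ^ 2] : Fin 4 → Fˣ) with hc0
  set TH := torusHom chevD4 F cH with hTH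
  set T0 := torusHom chevD4 F c0 with hT0
  have hdat := d4Torus_data
  simp only [Bool.and_eq_true, beq_iff_eq, decide_eq_true_eq, List.cons.injEq, and_true] at hdat
  obtain ⟨⟨⟨⟨⟨⟨s0, s1, s2, s3, s9⟩, ⟨g18, g13, g12, g14, g9⟩⟩, ⟨η14, η9⟩⟩, hrf⟩, -⟩, hu19⟩ := hdat
  simp only [List.map_cons, List.map_nil, List.cons.injEq, and_true] at hrf
  obtain ⟨p13, p12, p18, p14⟩ := hrf
  -- the conjugating element
  obtain ⟨Φ, hΦ1, hΦ0⟩ := exists_centralHom (F := F)
  have hΦX : ∀ a : F, Φ (CfsgLib.Chevalley.slX a) = xG cert_D4 14 a := by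
    intro a
    rw [hΦ0 _ (by simp [CfsgLib.Chevalley.slX])]
    simp only [CfsgLib.Chevalley.slX_coe]
    simp [hG, ← CfsgLib.Chevalley.nG_inv]
  have hΦY : Φ (CfsgLib.Chevalley.slY 1) = xG cert_D4 9 (1 : F) := by
    rw [hΦ1 _ (by simp [CfsgLib.Chevalley.slY])]
    simp only [CfsgLib.Chevalley.slY_coe]
    simp only [nG, s9]
    simp only [Matrix.of_apply, Matrix.cons_val', Matrix.cons_val_zero, Matrix.cons_val_one,
      Matrix.empty_val', Matrix.cons_val_fin_one, div_one, inv_one, neg_neg, inv_neg]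
    rw [← mul_assoc, ← mul_assoc, CfsgLib.Chevalley.xG_mul, add_neg_cancel,
      CfsgLib.Chevalley.xG_zero, one_mul, mul_assoc, CfsgLib.Chevalley.xG_mul, neg_add_cancel,
      CfsgLib.Chevalley.xG_zero, mul_one]
  let P : Matrix.SpecialLinearGroup (Fin 2) F := ⟨!![-mu, -lam / d; 1, d⁻¹], by
    rw [Matrix.det_fin_two_of]; field_simp; rw [hd]; ring⟩
  let P'' : Matrix.SpecialLinearGroup (Fin 2) F := ⟨!![-mu, -lam / (d * n); n, d⁻¹], by
    rw [Matrix.det_fin_two_of]; field_simp; rw [hd]; ring⟩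
  let Pq : Matrix.SpecialLinearGroup (Fin 2) F := ⟨!![-lam, mu / d; 1, -d⁻¹], by
    rw [Matrix.det_fin_two_of]; field_simp; rw [hd]⟩
  let M : Matrix.SpecialLinearGroup (Fin 2) F := ⟨!![0, -d⁻¹; d, 0], by
    rw [Matrix.det_fin_two_of]; field_simp; ring⟩
  let Dl : Matrix.SpecialLinearGroup (Fin 2) F := ⟨!![lam, 0; 0, lam⁻¹], by
    rw [Matrix.det_fin_two_of]; field_simp; ring⟩
  let A' : Matrix.SpecialLinearGroup (Fin 2) F := ⟨!![0, -1; 1, bF], by simp [Matrix.det_fin_two]⟩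
  have hΦP : Φ P = xG cert_D4 14 (-mu) * nG cert_D4 14 (-1) * xG cert_D4 14 d⁻¹ := by
    rw [hΦ1 _ (by simp [P])]; simp [P]
  have hΦP'' : Φ P'' = xG cert_D4 14 (-mu / n) * nG cert_D4 14 (-n⁻¹) * xG cert_D4 14 (d⁻¹ / n) := by
    rw [hΦ1 _ (by simpa [P''] using hn0)]; simp [P'']
  have hΦPq : Φ Pq = xG cert_D4 14 (-lam) * nG cert_D4 14 (-1) * xG cert_D4 14 (-d⁻¹) := by
    rw [hΦ1 _ (by simp [Pq])]; simp [Pq]
  have hΦM : Φ M = nG cert_D4 14 (-d⁻¹) := by
    rw [hΦ1 _ (by simpa [M] using hd0)]; simp [M, CfsgLib.Chevalley.xG_zero]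
  have hΦD : Φ Dl = hG cert_D4 14 lam := by
    rw [hΦ0 _ (by simp [Dl])]; simp [Dl, CfsgLib.Chevalley.xG_zero]
  have hPM : Pq = P * M := by
    refine Subtype.ext ?_
    rw [Matrix.SpecialLinearGroup.coe_mul]
    show !![-lam, mu / d; 1, -d⁻¹] = !![-mu, -lam / d; 1, d⁻¹] * !![0, -d⁻¹; d, 0]
    rw [Matrix.mul_fin_two]
    ext i j
    fin_cases i <;> fin_cases j <;> simp <;> field_simp
  have hAP : A' * P'' = P * Dl := by
    refine Subtype.ext ?_
    rw [Matrix.SpecialLinearGroup.coe_mul, Matrix.SpecialLinearGroup.coe_mul]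
    show !![0, -1; 1, bF] * !![-mu, -lam / (d * n); n, d⁻¹] =
      !![-mu, -lam / d; 1, d⁻¹] * !![lam, 0; 0, lam⁻¹]
    rw [Matrix.mul_fin_two, Matrix.mul_fin_two]
    ext i j
    fin_cases i <;> fin_cases j <;> simp [hbF] <;> field_simp <;>
      first | linear_combination hlm' | linear_combination -hlm'
  have hΦA : Φ A' = xG cert_D4 9 (1 : F) * xG cert_D4 14 (-1) * xG cert_D4 9 1 * xG cert_D4 14 bF := by
    rw [← hΦY, ← hΦX (-1), ← hΦX bF, ← map_mul, ← map_mul, ← map_mul]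
    congr 1
    refine Subtype.ext ?_
    simp only [Matrix.SpecialLinearGroup.coe_mul]
    show !![0, -1; 1, bF] = !![1, 0; 1, 1] * !![1, -1; 0, 1] * !![1, 0; 1, 1] * !![1, bF; 0, 1]
    simp [Matrix.mul_fin_two]
  have hchiH : chi chevD4 14 cH = nU⁻¹ := by
    rw [show (14 : ℕ) = d4p2 from rfl, (CfsgLib.Twisted.chi_simpleD4 cH).2.1]
    simp only [hcH, hnU, Matrix.cons_val_zero, Matrix.cons_val_one, Matrix.cons_val, one_pow,
      mul_one, mul_inv]
  have hcX : ∀ a : F, TH * xG cert_D4 14 a = xG cert_D4 14 (a / n) * TH := by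
    intro a
    have e := (CfsgLib.Chevalley.acts_torus (F := F) cert_D4 cH).conj ⟨14, by decide⟩ a
    rw [Equiv.Perm.one_apply, mul_inv_eq_iff_eq_mul] at e
    refine e.trans ?_
    congr 2
    simp only [hchiH, Units.val_inv_eq_inv_val, ← hn]
    ring
  have hcY : ∀ a : F, TH * xG cert_D4 9 a = xG cert_D4 9 (a * n) * TH := by
    intro a
    have e := (CfsgLib.Chevalley.acts_torus (F := F) cert_D4 cH).conj ⟨9, by decide⟩ a
    rw [Equiv.Perm.one_apply, mul_inv_eq_iff_eq_mul] at e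
    refine e.trans ?_
    congr 2
    simp only [(chi_sum (c := cH)).2.2.2, hchiH, inv_inv, ← hn]
    ring
  have hconj : TH * Φ P = Φ P'' * TH := by
    rw [hΦP, hΦP'']
    simp only [nG, s9, inv_neg, inv_one, neg_neg, inv_inv, mul_assoc, hcX, ← mul_assoc TH, hcY]
    simp [neg_div, div_eq_mul_inv]
  have hT0split : T0 = hG cert_D4 14 lam * TH := by
    rw [← s1, hlam]
    show _ = hG cert_D4 (chevD4.simple ((1 : Fin 4) : ℕ)) (lU : F) * TH
    rw [← CfsgLib.Chevalley.torusHom_mulSingle cert_D4 (1 : Fin 4) lU, hTH, ← map_mul]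
    refine congrArg (torusHom chevD4 F) ?_
    show (![tU, lU, tU ^ q, tU ^ q ^ 2] : Fin 4 → Fˣ) =
      (Pi.mulSingle (1 : Fin 4) lU : Fin 4 → Fˣ) * ![tU, 1, tU ^ q, tU ^ q ^ 2]
    funext j
    fin_cases j <;> simp [Pi.mulSingle_apply]
  set Ff := Matrix.GeneralLinearGroup.map (n := chevD4.Idx) f with hFf
  have hXX : Ff (xK : GL chevD4.Idx K) = Φ A' * TH := by
    show Ff (xG cert_D4 9 (1 : K) * xG cert_D4 14 (-1) * xG cert_D4 9 1 * xG cert_D4 14 bK * TK) = _
    rw [hFf, map_mul, hTK]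
    erw [map_torusHom]
    simp only [map_mul, map_xG, map_one, map_neg, hbK]
    rw [hΦA, hTH]
    have hu : Units.map f.toMonoidHom tK = tU := Units.ext htK
    refine congrArg _ (congrArg (torusHom chevD4 F) (funext fun j => ?_))
    rcases j with ⟨_ | _ | _ | _ | j, hj⟩
    · exact hu
    · exact map_one _
    · show Units.map f.toMonoidHom (tK ^ q) = tU ^ q
      rw [map_pow, hu]
    · show Units.map f.toMonoidHom (tK ^ q ^ 2) = tU ^ q ^ 2
      rw [map_pow, hu]
    · exact absurd hj (by show ¬ j + 4 < 4; omega)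
  have hdiag : Ff (xK : GL chevD4.Idx K) * Φ P = Φ P * T0 := by
    rw [hXX, mul_assoc, hconj, ← mul_assoc, ← map_mul, hAP, map_mul, hΦD, hT0split, mul_assoc]
  -- values of the characters
  have hv := CfsgLib.Twisted.chi_simpleD4 c0
  have e0 : chi chevD4 18 c0 = ξ ^ (-(q : ℤ) ^ 2 + q + 1) := by
    rw [show (18 : ℕ) = d4p1 from rfl, hv.1]
    simp only [hc0, htU, hlU, Matrix.cons_val_zero, Matrix.cons_val_one, ← zpow_natCast, ← zpow_mul,
      ← zpow_neg, ← zpow_add]
    congr 1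
    push_cast
    ring
  have e1 : chi chevD4 14 c0 = ξ ^ (1 - (q : ℤ) ^ 3) := by
    rw [show (14 : ℕ) = d4p2 from rfl, hv.2.1]
    simp only [hc0, htU, hlU, Matrix.cons_val_zero, Matrix.cons_val_one, Matrix.cons_val,
      ← zpow_natCast, ← zpow_mul, ← zpow_neg, ← zpow_add]
    congr 1
    push_cast
    ring
  have e2 : chi chevD4 13 c0 = ξ ^ ((q : ℤ) ^ 2 + q - 1) := by
    rw [show (13 : ℕ) = d4p3 from rfl, hv.2.2.1]
    simp only [hc0, htU, hlU, Matrix.cons_val_one, Matrix.cons_val, Matrix.cons_val_zero,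
      ← zpow_natCast, ← zpow_mul, ← zpow_neg, ← zpow_add]
    congr 1
    push_cast
    ring
  have e3 : chi chevD4 12 c0 = ξ ^ (2 * (q : ℤ) ^ 3 + (q : ℤ) ^ 2 - q - 1) := by
    rw [show (12 : ℕ) = d4p4 from rfl, hv.2.2.2]
    simp only [hc0, htU, hlU, Matrix.cons_val_one, Matrix.cons_val, Matrix.cons_val_zero,
      ← zpow_natCast, ← zpow_mul, ← zpow_neg, ← zpow_add]
    congr 1
    push_cast
    ring
  have hchi := chi_eq_zpow e0 e1 e2 e3
  have hreg1 : ∀ s : Fin chevD4.nroots, chi chevD4 s c0 ≠ 1 := by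
    intro s
    rw [hchi, Ne, hord]
    exact not_dvd_ex hq2 s
  have hreg2 : ∀ {g : GL chevD4.Idx F} {σ : Equiv.Perm (Fin chevD4.nroots)}
      {η : Fin chevD4.nroots → F}, Acts fullD4.cert g σ η →
      (∀ s : Fin chevD4.nroots, chi chevD4 (σ s) c0 = chi chevD4 s c0) →
      ∀ i : Fin chevD4.rank, σ (smp fullD4.cert i) = smp fullD4.cert i := by
    intro g σ η hA hσ
    have hcase : ∀ i : Fin 4, σ (smp fullD4.cert i) = smp fullD4.cert i ∨ ((i : ℕ) = 1 ∧
        ∀ u : Fin 24, ¬ isSumFirst u (σ (smp fullD4.cert i) : Fin chevD4.nroots)) := by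
      intro i
      have e := hσ (smp fullD4.cert i)
      rw [hchi, hchi, zpow_eq_zpow_iff_modEq, Int.modEq_comm, Int.modEq_iff_dvd, hξ, hNz] at e
      exact (eq_simple_of_dvd hq2 (σ (smp fullD4.cert i)) i e).imp (fun h => Fin.ext h) id
    intro i
    rcases hcase i with h | ⟨hi, hu⟩
    · exact h
    · exfalso
      have h0 := (hcase 0).resolve_right fun h => absurd h.1 (by decide)
      refine hu (σ ⟨19, by decide⟩) fun j => ?_
      have e := hA.lin j j.isLt ⟨19, by decide⟩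
      replace e := e.trans (Fin.sum_univ_four _)
      have hc19 : crd auxD4 0 19 = 1 ∧ crd auxD4 1 19 = 1 ∧ crd auxD4 2 19 = 0 ∧ crd auxD4 3 19 = 0 := by
        decide +kernel
      obtain ⟨k0, k1, k2, k3⟩ := hc19
      obtain rfl : i = (1 : Fin 4) := Fin.ext hi
      have h0' : ((σ (smp fullD4.cert (0 : Fin 4)) : Fin chevD4.nroots) : ℕ) = chevD4.simple 0 := by
        rw [h0]; rfl
      simp only [Fin.val_zero, Fin.val_one, Fin.val_two, show ((3 : Fin 4) : ℕ) = 3 from rfl, k0, k1,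
        k2, k3, h0', one_mul, zero_mul, add_zero] at e
      refine e.trans ?_
      exact add_comm _ _
  -- the order
  have hT0k : ∀ k : ℕ, T0 ^ k = 1 ↔ N ∣ k := by
    intro k
    constructor
    · intro hk'
      rw [hT0, ← map_pow, ← map_one (torusHom chevD4 F)] at hk'
      have f0 := CfsgLib.Twisted.chi_eq_of_torusHom_eq hk' ⟨18, by decide⟩
      have f2 := CfsgLib.Twisted.chi_eq_of_torusHom_eq hk' ⟨13, by decide⟩
      simp only [map_pow, map_one] at f0 f2
      rw [e0, ← zpow_natCast, ← zpow_mul, hord] at f0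
      rw [e2, ← zpow_natCast, ← zpow_mul, hord] at f2
      rw [mul_comm] at f0 f2
      rw [← Int.natCast_dvd_natCast, hNz]
      exact dvd_of_dvd_exponents f0 f2
    · rintro ⟨j, rfl⟩
      rw [hT0, ← map_pow, ← map_one (torusHom chevD4 F)]
      have : ∀ z : ℤ, (ξ ^ z) ^ (N * j) = 1 := fun z => by
        rw [← zpow_natCast, ← zpow_mul, hord, Nat.cast_mul, hNz]
        exact dvd_mul_of_dvd_right (dvd_mul_right _ _) _
      exact torusHom_ext4 (by simp only [map_pow, map_one, e0, this])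
        (by simp only [map_pow, map_one, e1, this]) (by simp only [map_pow, map_one, e2, this])
        (by simp only [map_pow, map_one, e3, this])
  have hxord : orderOf xK = N := by
    have hT0x : T0 = (Φ P)⁻¹ * Ff (xK : GL chevD4.Idx K) * Φ P := by
      rw [mul_assoc, hdiag, inv_mul_cancel_left]
    have h1 : ∀ k : ℕ, xK ^ k = 1 ↔ T0 ^ k = 1 := by
      intro k
      have e : T0 ^ k = (Φ P)⁻¹ * Ff ((xK ^ k : ↥(twistedD4 K q)) : GL chevD4.Idx K) * Φ P := by
        have := (conj_pow (a := (Φ P)⁻¹) (b := Ff (xK : GL chevD4.Idx K)) (i := k))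
        rw [inv_inv, ← hT0x] at this
        rw [this, Subgroup.coe_pow, map_pow]
      rw [e]
      constructor
      · intro h
        rw [h, Subgroup.coe_one, map_one, mul_one, inv_mul_cancel]
      · intro h
        refine Subtype.ext (gl_map_injective f (?_ : Ff _ = Ff (1 : GL chevD4.Idx K)))
        rw [map_one]
        have h' : Ff ((xK ^ k : ↥(twistedD4 K q)) : GL chevD4.Idx K) = Φ P * 1 * (Φ P)⁻¹ := by
          rw [← h]; group
        rw [h']; group
    refine Nat.dvd_antisymm (orderOf_dvd_of_pow_eq_one ((h1 N).2 ((hT0k N).2 dvd_rfl))) ?_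
    exact (hT0k _).1 ((h1 _).1 (pow_orderOf_eq_one xK))
  -- the twist
  obtain ⟨tw, htw, htwfix⟩ := exists_twist f hq hK hF
  let gx : ℕ → F → ↥(chevD4.group F) := fun r t => ⟨xG cert_D4 r t, xG_mem_group cert_D4 r t⟩
  have htwx : ∀ r t, r < chevD4.nroots →
      tw (gx r t) = xG cert_D4 (graphSigmaD4A r) (graphTwist graphEtaD4A q r t) :=
    fun r t hr => htw _ r t hr rfl
  let g0 : ↥(chevD4.group F) :=
    gx 14 (-mu) * (gx 14 (-1) * gx 9 1 * gx 14 (-1)) * gx 14 d⁻¹
  have hg0 : (g0 : GL chevD4.Idx F) = Φ P := by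
    rw [hΦP]
    simp [g0, gx, nG, s9]
  have htwg0 : tw g0 = Φ P * nG cert_D4 14 (-d⁻¹) := by
    rw [← hΦM, ← map_mul, ← hPM, hΦPq]
    simp only [g0, map_mul, htwx _ _ (show (14 : ℕ) < chevD4.nroots by decide),
      htwx _ _ (show (9 : ℕ) < chevD4.nroots by decide)]
    simp only [g14, g9, graphTwist, η14, η9, Int.cast_one, one_mul, hm1, one_pow, inv_pow, hdq,
      nG, s9, inv_neg, inv_one, neg_neg]
    rw [show (-mu) ^ q = -lam by rw [← hφ, map_neg, hφ, hmq]]
  set w : GL chevD4.Idx F := nG cert_D4 14 (-d⁻¹) with hw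
  obtain ⟨θ, hθ⟩ : ∃ θ, Acts cert_D4 w (rfPerm cert_D4 (1 : Fin 4)) θ := by
    have := CfsgLib.Chevalley.acts_nG_simple fullD4 (1 : Fin 4) (c := -d⁻¹)
      (neg_ne_zero.2 (inv_ne_zero hd0))
    rw [show chevD4.simple ((1 : Fin 4) : ℕ) = 14 from s1] at this
    exact ⟨_, this⟩
  -- the centraliser
  have hC : ∀ z : ↥(twistedD4 K q), Commute z xK → ∃ c : Fin chevD4.rank → Fˣ,
      (Φ P)⁻¹ * Ff (z : GL chevD4.Idx K) * Φ P = torusHom chevD4 F c ∧
      chi chevD4 18 c ^ N = 1 ∧ chi chevD4 14 c = chi chevD4 18 c ^ (q ^ 3 - 1) ∧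
      chi chevD4 13 c = chi chevD4 18 c ^ q * (chi chevD4 14 c)⁻¹ ∧
      chi chevD4 12 c = chi chevD4 18 c ^ q ^ 2 := by
    intro z hz
    have hzX : Ff (z : GL chevD4.Idx K) ∈ chevD4.group F :=
      map_mem_group f ((CfsgLib.Twisted.d4Twist_isTwist hq hK).le z.2)
    let XG : ↥(chevD4.group F) := ⟨_, hzX⟩
    let SG : ↥(chevD4.group F) := g0⁻¹ * XG * g0
    have hSG : (SG : GL chevD4.Idx F) = (Φ P)⁻¹ * Ff (z : GL chevD4.Idx K) * Φ P := by
      rw [← hg0]; rfl
    have hcomm : Commute T0 (SG : GL chevD4.Idx F) := by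
      have hzc : Commute (Ff (xK : GL chevD4.Idx K)) (Ff (z : GL chevD4.Idx K)) :=
        (congrArg Subtype.val hz.symm.eq : (xK : GL chevD4.Idx K) * z = z * xK) |> fun e =>
          (show Commute _ _ from e).map Ff
      have hT0' : T0 = (Φ P)⁻¹ * Ff (xK : GL chevD4.Idx K) * Φ P := by
        rw [mul_assoc, hdiag, inv_mul_cancel_left]
      rw [hT0', hSG]
      have := hzc.map (MulAut.conj (Φ P)⁻¹).toMonoidHom
      simpa [MulAut.conj_apply] using this
    have hdg := mem_diagonal_of_commute_torus fullD4 hreg1 hreg2 SG.2 hcomm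
    obtain ⟨c, hc⟩ : ∃ c, torusHom chevD4 F c = (SG : GL chevD4.Idx F) := by
      rwa [CfsgLib.Chevalley.diagonalSubgroup_eq_range fullD4] at hdg
    have htwS : tw SG = w⁻¹ * torusHom chevD4 F c * w := by
      simp only [SG, map_mul, map_inv, htwg0, htwfix XG z z.2 rfl]
      rw [hc, hSG]
      show _ = w⁻¹ * ((Φ P)⁻¹ * Ff (z : GL chevD4.Idx K) * Φ P) * w
      rw [_root_.mul_inv_rev]
      simp only [mul_assoc]
      rfl
    have hA := CfsgLib.Chevalley.acts_torus (F := F) cert_D4 c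
    have hrel : ∀ r : ℕ, r < chevD4.nroots → ∀ v : Fin chevD4.nroots,
        graphSigmaD4A r = (v : ℕ) → ∀ u : ℕ,
        ((rfPerm cert_D4 (1 : Fin 4) v : Fin chevD4.nroots) : ℕ) = u →
        chi chevD4 u c = chi chevD4 r c ^ q := by
      intro r hr v hv u hu
      have e := hA.conj ⟨r, hr⟩ 1
      rw [Equiv.Perm.one_apply, mul_one, hc] at e
      have e' : SG * gx r 1 * SG⁻¹ = gx r ((chi chevD4 r c : Fˣ) : F) := Subtype.ext e
      have e2 := congrArg tw e'
      simp only [map_mul, map_inv, htwS, htwx _ _ hr, hv] at e2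
      have hne : (graphEtaD4A r : F) ≠ 0 := by
        rcases CfsgLib.Twisted.graphEtaD4A_sign r with h | h <;> rw [h] <;> simp
      simp only [graphTwist, one_pow, mul_one] at e2
      have e3 : torusHom chevD4 F c * (w * xG cert_D4 v (graphEtaD4A r : F) * w⁻¹) *
          (torusHom chevD4 F c)⁻¹ = w * xG cert_D4 v
            ((graphEtaD4A r : F) * ((chi chevD4 r c : Fˣ) : F) ^ q) * w⁻¹ := by
        rw [← e2]; group
      rw [hθ.conj v, hθ.conj v, hA.conj, Equiv.Perm.one_apply] at e3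
      have e4 := CfsgLib.Chevalley.xG_injective cert_D4 (rfPerm cert_D4 (1 : Fin 4) v).isLt e3
      rw [← hu]
      refine Units.ext ?_
      rw [Units.val_pow_eq_pow_val]
      refine mul_right_cancel₀ (mul_ne_zero (hθ.ne_zero v) hne) ?_
      rw [e4]
      ring
    obtain ⟨c16, c15, c19, c9⟩ := chi_sum (c := c)
    have r18 := hrel 18 (by decide) ⟨13, by decide⟩ g18 16 p13
    have r13 := hrel 13 (by decide) ⟨12, by decide⟩ g13 15 p12
    have r12 := hrel 12 (by decide) ⟨18, by decide⟩ g12 19 p18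
    have r14 := hrel 14 (by decide) ⟨14, by decide⟩ g14 9 p14
    rw [c16] at r18
    rw [c15] at r13
    rw [c19] at r12
    rw [c9] at r14
    set a0 := chi chevD4 18 c
    set a1 := chi chevD4 14 c
    set a2 := chi chevD4 13 c
    set a3 := chi chevD4 12 c
    have ea2 : a2 = a0 ^ q * a1⁻¹ := by rw [← r18, mul_comm a1, mul_inv_cancel_right]
    have ea3 : a3 = a0 ^ q ^ 2 := by
      rw [ea2, mul_pow, inv_pow, ← r14, inv_inv, ← pow_mul, ← sq] at r13
      exact mul_left_cancel (r13.trans (mul_comm _ _))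
    have ea1 : a1 = a0 ^ (q ^ 3 - 1) := by
      rw [ea3, ← pow_mul, ← pow_succ] at r12
      refine mul_left_cancel (a := a0) (r12.trans ?_)
      rw [← pow_succ', show q ^ 3 - 1 + 1 = q ^ 3 by omega]
    refine ⟨c, by rw [← hSG, hc], ?_, ea1, ea2, ea3⟩
    rw [hN, pow_mul, ← ea1, pow_succ, ← r14, inv_mul_cancel]
  choose cz hcz using hC
  refine ⟨Subgroup.zpowers xK, inferInstance, by rw [Nat.card_zpowers, hxord], ?_⟩
  set C := Subgroup.centralizer ((Subgroup.zpowers xK : Subgroup _) : Set ↥(twistedD4 K q)) with hCdef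
  have hCx : ∀ z : C, Commute (z : ↥(twistedD4 K q)) xK := fun z =>
    (Subgroup.mem_centralizer_iff.1 z.2 _ (Subgroup.mem_zpowers xK)).symm
  have hle : Subgroup.zpowers xK ≤ C := by
    intro y hy
    rw [Subgroup.mem_centralizer_iff]
    intro y' hy'
    obtain ⟨i, rfl⟩ := Subgroup.mem_zpowers_iff.1 hy
    obtain ⟨j, rfl⟩ := Subgroup.mem_zpowers_iff.1 (SetLike.mem_coe.1 hy')
    exact ((Commute.refl _).zpow_zpow j i).eq
  let ψ : C → {a : Fˣ // a ^ N = 1} := fun z => ⟨chi chevD4 18 (cz z (hCx z)), (hcz z (hCx z)).2.1⟩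
  have hψ : Function.Injective ψ := by
    intro z z' e
    obtain ⟨d1, -, d3, d4, d5⟩ := hcz z (hCx z)
    obtain ⟨d1', -, d3', d4', d5'⟩ := hcz z' (hCx z')
    have e0' : chi chevD4 18 (cz z (hCx z)) = chi chevD4 18 (cz z' (hCx z')) := congrArg Subtype.val e
    have e1' : chi chevD4 14 (cz z (hCx z)) = chi chevD4 14 (cz z' (hCx z')) := by rw [d3, d3', e0']
    have ee := torusHom_ext4 e0' e1' (by rw [d4, d4', e0', e1']) (by rw [d5, d5', e0'])
    rw [← d1, ← d1'] at ee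
    exact Subtype.ext (Subtype.ext (gl_map_injective f (mul_left_cancel (mul_right_cancel ee))))
  symm
  refine Subgroup.eq_of_le_of_card_ge hle ?_
  rw [Nat.card_zpowers, hxord]
  refine (Nat.card_le_card_of_injective ψ hψ).trans ?_
  rw [Nat.card_eq_fintype_card, Fintype.card_subtype]
  exact IsCyclic.card_pow_eq_one_le hN0

end main

end CfsgLib.KnownSimple.TrialityTorus
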