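import Cfsg.Agent.Lib.Twisted.ExceptionalData
import Cfsg.Agent.Lib.Twisted.TorusFixed

/-!
The exponents of the roots of D₄ at a generator of the maximal torus of order `(q³ − 1)(q + 1)`
of ³D₄(q), written as cubic polynomials in `q`: none vanishes modulo the order, and the values
at the fundamental roots determine the root (up to a defect at `q = 2` harmless for the Weyl
group).
-/

set_option autoImplicit false
set_option maxRecDepth 100000

namespace CfsgLib.KnownSimple.TrialityTorus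

open Cfsg.Lie
open CfsgLib.Chevalley (crd auxD4)

/-- The four coefficients of the exponent of a root. -/
noncomputable def exCoef (s : ℕ) : ℤ × ℤ × ℤ × ℤ :=
  (-crd auxD4 1 s + 2 * crd auxD4 3 s, -crd auxD4 0 s + crd auxD4 2 s + crd auxD4 3 s,
    crd auxD4 0 s + crd auxD4 2 s - crd auxD4 3 s,
    crd auxD4 0 s + crd auxD4 1 s - crd auxD4 2 s - crd auxD4 3 s)

/-- The exponent of a root. -/
noncomputable def ex (q : ℤ) (s : ℕ) : ℤ :=
  (exCoef s).1 * q ^ 3 + (exCoef s).2.1 * q ^ 2 + (exCoef s).2.2.1 * q + (exCoef s).2.2.2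

/-- The order of the torus. -/
def torusOrd (q : ℤ) : ℤ := (q + 1) * (q ^ 3 - 1)

/-- `u` has the coordinates of `s` plus those of the first fundamental root. -/
def isSumFirst (u s : ℕ) : Prop :=
  ∀ j : Fin 4, crd auxD4 j u = crd auxD4 j s + crd auxD4 j (chevD4.simple 0)

theorem exCoef_data :
    ((∀ s : Fin 24, ((exCoef s).1 ≠ 0 ∨ (exCoef s).2.1 ≠ 0 ∨ (exCoef s).2.2.1 ≠ 0 ∨
        (exCoef s).2.2.2 ≠ 0) ∧
      |(exCoef s).1| ≤ 4 ∧ |(exCoef s).2.1| ≤ 4 ∧ |(exCoef s).2.2.1| ≤ 4 ∧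
        |(exCoef s).2.2.2| ≤ 4) ∧
      ∀ s : Fin 24, ∀ i : Fin 4, exCoef s = exCoef (chevD4.simple i) → (s : ℕ) = chevD4.simple i) := by
  unfold exCoef
  decide +kernel

theorem ex_small : ∀ q : Fin 16, 2 ≤ (q : ℕ) → (∀ s : Fin 24, ¬ torusOrd q ∣ ex q s) ∧
    ∀ s : Fin 24, ∀ i : Fin 4, torusOrd q ∣ ex q s - ex q (chevD4.simple i) →
      (s : ℕ) = chevD4.simple i ∨ ((i : ℕ) = 1 ∧ ∀ u : Fin 24, ¬ isSumFirst u s) := by
  unfold isSumFirst torusOrd ex exCoef
  decide +kernel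

theorem simple_lt : ∀ i : Fin 4, chevD4.simple i < 24 := by decide +kernel

theorem eq_zero_of_dvd {q : ℤ} (hq : 16 ≤ q) {A B C D : ℤ} (hA : |A| ≤ 8) (hB : |B| ≤ 8)
    (hC : |C| ≤ 8) (hD : |D| ≤ 8) (h : torusOrd q ∣ A * q ^ 3 + B * q ^ 2 + C * q + D) :
    A = 0 ∧ B = 0 ∧ C = 0 ∧ D = 0 := by
  rw [abs_le] at hA hB hC hD
  obtain ⟨k, hk⟩ := h
  have h3 : (0 : ℤ) ≤ q ^ 3 := by positivity
  have h2 : (0 : ℤ) ≤ q ^ 2 := by positivity
  have hb : |A * q ^ 3 + B * q ^ 2 + C * q + D| < torusOrd q := by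
    rw [abs_lt, torusOrd]
    constructor <;> nlinarith
  have hk0 : k = 0 := by
    by_contra hne
    have h1 : 1 ≤ |k| := Int.one_le_abs hne
    have h0 : (0 : ℤ) ≤ torusOrd q := (abs_nonneg _).trans hb.le
    rw [hk, abs_mul, abs_of_nonneg h0] at hb
    nlinarith
  rw [hk0, mul_zero] at hk
  have step : ∀ {x y : ℤ}, -8 ≤ y → y ≤ 8 → x * q + y = 0 → x = 0 ∧ y = 0 := by
    intro x y h1 h2 e
    have hx : x = 0 := by
      rcases lt_trichotomy x 0 with hx | hx | hx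
      · nlinarith
      · exact hx
      · nlinarith
    exact ⟨hx, by rw [hx] at e; linarith⟩
  obtain ⟨e1, hD0⟩ := step hD.1 hD.2
    (show (A * q ^ 2 + B * q + C) * q + D = 0 by linear_combination hk)
  obtain ⟨e2, hC0⟩ := step hC.1 hC.2 (show (A * q + B) * q + C = 0 by linear_combination e1)
  obtain ⟨hA0, hB0⟩ := step hB.1 hB.2 e2
  exact ⟨hA0, hB0, hC0, hD0⟩

/-- No root has exponent `0` modulo the order. -/
theorem not_dvd_ex {q : ℕ} (hq : 2 ≤ q) (s : Fin 24) : ¬ torusOrd q ∣ ex q s := by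
  intro h
  rcases lt_or_ge q 16 with hlt | hge
  · exact (ex_small ⟨q, hlt⟩ hq).1 s h
  · obtain ⟨hne, b1, b2, b3, b4⟩ := exCoef_data.1 s
    obtain ⟨e1, e2, e3, e4⟩ := eq_zero_of_dvd (q := q) (by exact_mod_cast hge) (by omega) (by omega)
      (by omega) (by omega) h
    rcases hne with h' | h' | h' | h'
    · exact h' e1
    · exact h' e2
    · exact h' e3
    · exact h' e4

/-- The exponent of a fundamental root determines it. -/
theorem eq_simple_of_dvd {q : ℕ} (hq : 2 ≤ q) (s : Fin 24) (i : Fin 4)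
    (h : torusOrd q ∣ ex q s - ex q (chevD4.simple i)) :
    (s : ℕ) = chevD4.simple i ∨ ((i : ℕ) = 1 ∧ ∀ u : Fin 24, ¬ isSumFirst u s) := by
  rcases lt_or_ge q 16 with hlt | hge
  · exact (ex_small ⟨q, hlt⟩ hq).2 s i h
  · obtain ⟨-, b1, b2, b3, b4⟩ := exCoef_data.1 s
    obtain ⟨-, c1, c2, c3, c4⟩ := exCoef_data.1 ⟨chevD4.simple i, simple_lt i⟩
    rw [abs_le] at b1 b2 b3 b4 c1 c2 c3 c4
    obtain ⟨e1, e2, e3, e4⟩ := eq_zero_of_dvd (q := q) (by exact_mod_cast hge)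
      (A := (exCoef s).1 - (exCoef (chevD4.simple i)).1)
      (B := (exCoef s).2.1 - (exCoef (chevD4.simple i)).2.1)
      (C := (exCoef s).2.2.1 - (exCoef (chevD4.simple i)).2.2.1)
      (D := (exCoef s).2.2.2 - (exCoef (chevD4.simple i)).2.2.2)
      (abs_le.2 ⟨by linarith, by linarith⟩) (abs_le.2 ⟨by linarith, by linarith⟩)
      (abs_le.2 ⟨by linarith, by linarith⟩) (abs_le.2 ⟨by linarith, by linarith⟩) (by
        convert h using 1
        simp only [ex]
        ring)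
    refine Or.inl (exCoef_data.2 s i ?_)
    exact Prod.ext (by linarith) (Prod.ext (by linarith) (Prod.ext (by linarith) (by linarith)))

end CfsgLib.KnownSimple.TrialityTorus
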