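import Cfsg.Agent.Lib.KnownSimple.ChevalleyLang
import Cfsg.Agent.Lib.Chevalley.TwistedTorusCentralizer
import Cfsg.Agent.Lib.Chevalley.WeylCount

/-!
The twisted maximal torus of a Weyl element `w` for which some root `b` has an orbit starting
with a basis of the root lattice: it is cyclic, the root `b` identifying it with the roots of
unity of order `f(q)`, `f` the characteristic polynomial of `w`.  When it is regular, it is
self-centralising in the finite group.
-/

set_option autoImplicit false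
set_option linter.unusedSectionVars false

open Matrix

namespace CfsgLib.KnownSimple.WeylTorus

open Cfsg.Lie CfsgLib.Chevalley CfsgLib.Chevalley.Twist
open CfsgLib.ReflectionsSpinor.ChevField (push push_nW)

/-- The numerical data: a word for `w`, the fundamental roots in the basis `b, w b, …`, that
basis, the last image `w^r b` in it, and exponents for the parameters of the torus. -/
structure Data where
  word : List ℕ
  Z : List (List ℤ)
  base : List ℕ
  cy : List ℤ
  K : List (List ℤ)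

variable {D : ChevalleyDatum} {A : Aux}

/-- The word as fundamental reflections. -/
def Data.fins (P : Data) (D : ChevalleyDatum) : List (Fin D.rank) :=
  P.word.filterMap fun i => if h : i < D.rank then some ⟨i, h⟩ else none

/-- A coordinate of a fundamental root. -/
def Data.z (P : Data) (i k : ℕ) : ℤ := (P.Z.getD i []).getD k 0

/-- The exponent of a parameter. -/
def Data.e (P : Data) (j k : ℕ) : ℤ := (P.K.getD j []).getD k 0

/-- The coordinates of a root. -/
noncomputable def Data.coef (P : Data) (D : ChevalleyDatum) (A : Aux) (s k : ℕ) : ℤ :=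
  ∑ i : Fin D.rank, crd A i s * P.z i k

/-- The exponent of a fundamental root. -/
def Data.exS (P : Data) (D : ChevalleyDatum) (q : ℤ) (i : ℕ) : ℤ :=
  ∑ k ∈ Finset.range D.rank, P.z i k * q ^ k

/-- The exponent of a root. -/
noncomputable def Data.ex (P : Data) (D : ChevalleyDatum) (A : Aux) (q : ℤ) (s : ℕ) : ℤ :=
  ∑ i : Fin D.rank, crd A i s * P.exS D q i

/-- The order of the torus. -/
def Data.ord (P : Data) (D : ChevalleyDatum) (q : ℤ) : ℤ :=
  q ^ D.rank - ∑ k ∈ Finset.range D.rank, P.cy.getD k 0 * q ^ k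

/-- The roots with the value of the `i`-th fundamental root. -/
noncomputable def Data.cand (P : Data) (D : ChevalleyDatum) (A : Aux) (g : ℕ) (q : ℤ) (i : ℕ) :
    List ℕ :=
  (List.range D.nroots).filter fun t => ((g : ℤ) * (P.ex D A q t - P.exS D q i)) % P.ord D q == 0

/-- All choices from a list of lists of candidates. -/
def choices (c : ℕ → List ℕ) (L : List ℕ) : List (List ℕ) :=
  L.foldr (fun i acc => (c i).flatMap fun t => acc.map (t :: ·)) [[]]

theorem map_mem_choices {c : ℕ → List ℕ} {f : ℕ → ℕ} : ∀ {L : List ℕ}, (∀ i ∈ L, f i ∈ c i) →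
    L.map f ∈ choices c L := by
  intro L hL
  induction L with
  | nil => simp [choices]
  | cons a L ih =>
    simp only [choices, List.foldr_cons, List.map_cons, List.mem_flatMap, List.mem_map]
    exact ⟨f a, hL a (List.mem_cons_self ..), L.map f,
      ih fun i hi => hL i (List.mem_cons_of_mem _ hi), rfl⟩

/-- Regularity of the `g`-th power at a given `q`: no root has value `1`, and no other choice of images of the
fundamental roots with the same values extends linearly to the roots. -/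
noncomputable def Data.smallB (P : Data) (D : ChevalleyDatum) (A : Aux) (g : ℕ) (q : ℤ) : Bool :=
  Sparse.lall (fun s => !((g : ℤ) * P.ex D A q s % P.ord D q == 0)) (List.range D.nroots) &&
  Sparse.lall (fun t => (t == (List.range D.rank).map D.simple) ||
      (List.range D.nroots).any fun s => (List.range D.nroots).all fun u =>
        (List.range D.rank).any fun i => !(crd A i u ==
          ((List.range D.rank).map fun j => crd A j s * crd A i (t.getD j 0)).sum))
    (choices (P.cand D A g q) (List.range D.rank))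

/-- The conditions on the data, for a centre of exponent dividing `d`. -/
structure Valid (P : Data) (hC : Cert D A) (C Cy q₀ d : ℕ) : Prop where
  /-- the basis consists of roots -/
  base_lt : ∀ k : Fin D.rank, P.base.getD k 0 < D.nroots
  /-- the basis -/
  z_base : ∀ i m : Fin D.rank,
    (∑ k : Fin D.rank, P.z i k * crd A m (P.base.getD k 0)) = if i = m then 1 else 0
  /-- its coordinates -/
  base_z : ∀ k j : Fin D.rank, P.coef D A (P.base.getD k 0) j = if k = j then 1 else 0
  /-- the orbit -/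
  base_succ : ∀ k : Fin D.rank, ∀ s : Fin D.nroots, (k : ℕ) + 1 < D.rank →
    (s : ℕ) = P.base.getD k 0 → ((wPerm hC (P.fins D) s : Fin D.nroots) : ℕ) = P.base.getD (k + 1) 0
  /-- the action of `w` -/
  rec' : ∀ i k : Fin D.rank, P.coef D A (wPerm hC (P.fins D) (smp hC i) : Fin D.nroots) k =
    (if (k : ℕ) = 0 then 0 else P.z i ((k : ℕ) - 1)) + P.z i (D.rank - 1) * P.cy.getD k 0
  /-- the parameters -/
  cartan_e : ∀ i m : Fin D.rank,
    (∑ j : Fin D.rank, D.cartan j (D.simple i) * P.e j m) = (d : ℤ) * P.z i m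
  /-- bound on the coordinates -/
  coef_le : Sparse.lall (fun s => Sparse.lall (fun k => decide ((P.coef D A s k).natAbs ≤ C))
    (List.range D.rank)) (List.range D.nroots) = true
  /-- bound on the coefficients of the polynomial -/
  cy_le : ∀ k : Fin D.rank, (P.cy.getD k 0).natAbs ≤ Cy
  /-- constant coefficient -/
  cy_zero : (P.cy.getD 0 0).natAbs = 1
  /-- the small cases -/
  small : ∀ q : Fin q₀, 2 ≤ (q : ℕ) → P.smallB D A (Nat.gcd d ((q : ℕ) - 1)) q = true
  /-- the small cases suffice -/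
  big : 2 * (C * d) + Cy + 1 ≤ q₀
  /-- the exponent -/
  exp_pos : 0 < d
  /-- the rank -/
  rank_pos : 0 < D.rank

section digits

theorem abs_sum_mul_le {q B : ℤ} (hq : 1 ≤ q) :
    ∀ (n : ℕ) (a : ℕ → ℤ), (∀ k < n, |a k| ≤ B) →
      |∑ k ∈ Finset.range n, a k * q ^ k| * (q - 1) ≤ B * (q ^ n - 1) := by
  intro n
  induction n with
  | zero => intro a _; simp
  | succ n ih =>
    intro a ha
    rw [Finset.sum_range_succ]
    have h1 := ih a fun k hk => ha k (hk.trans (Nat.lt_succ_self n))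
    have h2 : |a n * q ^ n| ≤ B * q ^ n := by
      rw [abs_mul, abs_of_nonneg (pow_nonneg (by omega : (0 : ℤ) ≤ q) n)]
      exact mul_le_mul_of_nonneg_right (ha n (Nat.lt_succ_self n)) (pow_nonneg (by omega) n)
    calc |(∑ k ∈ Finset.range n, a k * q ^ k) + a n * q ^ n| * (q - 1)
        ≤ (|∑ k ∈ Finset.range n, a k * q ^ k| + B * q ^ n) * (q - 1) :=
          mul_le_mul_of_nonneg_right ((abs_add_le _ _).trans (by linarith)) (by omega)
      _ ≤ B * (q ^ (n + 1) - 1) := by rw [pow_succ, add_mul]; linarith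

theorem digits_eq_zero {q B : ℤ} (hq : B < q) :
    ∀ (n : ℕ) (a : ℕ → ℤ), (∀ k < n, |a k| ≤ B) → ∑ k ∈ Finset.range n, a k * q ^ k = 0 →
      ∀ k < n, a k = 0 := by
  intro n
  induction n with
  | zero => intro a _ _ k hk; exact absurd hk (Nat.not_lt_zero k)
  | succ n ih =>
    intro a ha h0
    have hB : 0 ≤ B := (abs_nonneg _).trans (ha 0 n.succ_pos)
    rw [Finset.sum_range_succ', pow_zero, mul_one] at h0
    have hsum : ∑ k ∈ Finset.range n, a (k + 1) * q ^ (k + 1) =
        q * ∑ k ∈ Finset.range n, a (k + 1) * q ^ k := by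
      rw [Finset.mul_sum]
      exact Finset.sum_congr rfl fun k _ => by ring
    rw [hsum] at h0
    have ha0 : a 0 = 0 := Int.eq_zero_of_abs_lt_dvd (m := q)
      ⟨-∑ k ∈ Finset.range n, a (k + 1) * q ^ k, by linarith⟩ ((ha 0 n.succ_pos).trans_lt hq)
    rw [ha0, add_zero] at h0
    have h1 := (mul_eq_zero.1 h0).resolve_left (by omega)
    intro k hk
    rcases k with _ | k
    · exact ha0
    · exact ih (fun j => a (j + 1)) (fun j hj => ha (j + 1) (by omega)) h1 k (by omega)

theorem eq_zero_of_ord_dvd {q B Cy : ℤ} {n : ℕ} (hn : 0 < n) (hq : B + Cy + 1 ≤ q) {a cy : ℕ → ℤ}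
    (ha : ∀ k < n, |a k| ≤ B) (hcy : ∀ k < n, |cy k| ≤ Cy)
    (h : q ^ n - ∑ k ∈ Finset.range n, cy k * q ^ k ∣ ∑ k ∈ Finset.range n, a k * q ^ k) :
    ∀ k < n, a k = 0 := by
  have hB : 0 ≤ B := (abs_nonneg _).trans (ha 0 hn)
  have hC : 0 ≤ Cy := (abs_nonneg _).trans (hcy 0 hn)
  have h1 := abs_sum_mul_le (q := q) (by omega) n a ha
  have h2 := abs_sum_mul_le (q := q) (by omega) n cy hcy
  set S := ∑ k ∈ Finset.range n, a k * q ^ k
  set T := ∑ k ∈ Finset.range n, cy k * q ^ k
  refine digits_eq_zero (q := q) (B := B) (by omega) n a ha ?_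
  have hq0 : (1 : ℤ) ≤ q ^ n := one_le_pow₀ (by omega)
  rcases eq_or_lt_of_le (by omega : 0 ≤ q - 1) with hq1 | hq1
  · obtain ⟨rfl, rfl⟩ : B = 0 ∧ Cy = 0 := by omega
    exact Finset.sum_eq_zero fun k hk => by
      rw [abs_nonpos_iff.1 (ha k (Finset.mem_range.1 hk)), zero_mul]
  refine Int.eq_zero_of_abs_lt_dvd h ?_
  have h3 : |S| + |T| < q ^ n := by
    by_contra hcon
    have : q ^ n * (q - 1) ≤ (|S| + |T|) * (q - 1) :=
      mul_le_mul_of_nonneg_right (not_lt.1 hcon) hq1.le
    nlinarith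
  have := le_abs_self T
  linarith

end digits

variable {F : Type*} [Field F]

theorem chi_eq_prod (h : Full D A) (s : Fin D.nroots) (c : Fin D.rank → Fˣ) :
    chi D s c = ∏ i : Fin D.rank, chi D (D.simple i) c ^ crd A i s := by
  show ∏ k : Fin D.rank, c k ^ D.cartan k s = _
  rw [Finset.prod_congr rfl fun k _ => by rw [cartan_eq_sum h k s, zpow_sum']]
  rw [Finset.prod_comm]
  refine Finset.prod_congr rfl fun i _ => ?_
  show _ = (∏ k : Fin D.rank, c k ^ D.cartan k (D.simple i)) ^ crd A i s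
  rw [← Finset.prod_zpow]
  exact Finset.prod_congr rfl fun k _ => by rw [← _root_.zpow_mul, mul_comm]

section data

variable {P : Data} {C Cy q₀ d : ℕ}

theorem ex_eq (s : ℕ) (q : ℤ) :
    P.ex D A q s = ∑ k ∈ Finset.range D.rank, P.coef D A s k * q ^ k := by
  simp only [Data.ex, Data.exS, Data.coef, Finset.mul_sum, Finset.sum_mul]
  rw [Finset.sum_comm]
  exact Finset.sum_congr rfl fun k _ => Finset.sum_congr rfl fun i _ => by ring

theorem ex_base (h : Full D A) (hP : Valid P h.cert C Cy q₀ d) (q : ℤ) (k : Fin D.rank) :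
    P.ex D A q (P.base.getD k 0) = q ^ (k : ℕ) := by
  rw [ex_eq, Finset.sum_eq_single (k : ℕ)]
  · rw [hP.base_z, if_pos rfl, one_mul]
  · intro j hj hne
    rw [hP.base_z k ⟨j, Finset.mem_range.1 hj⟩, if_neg fun e => hne (congrArg Fin.val e).symm,
      zero_mul]
  · intro hk; exact absurd (Finset.mem_range.2 k.isLt) hk

theorem crd_eq_sum_coef (h : Full D A) (hP : Valid P h.cert C Cy q₀ d) (s : ℕ) (m : Fin D.rank) :
    crd A m s = ∑ k : Fin D.rank, P.coef D A s k * crd A m (P.base.getD k 0) := by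
  simp only [Data.coef, Finset.sum_mul]
  rw [Finset.sum_comm]
  simp only [mul_assoc, ← Finset.mul_sum, hP.z_base]
  simp

theorem sum_shift (q : ℤ) (z : ℕ → ℤ) : ∀ {n : ℕ}, 0 < n →
    ∑ k ∈ Finset.range n, (if k = 0 then 0 else z (k - 1)) * q ^ k =
      q * (∑ k ∈ Finset.range n, z k * q ^ k) - z (n - 1) * q ^ n := by
  intro n hn
  obtain ⟨n, rfl⟩ := Nat.exists_eq_succ_of_ne_zero hn.ne'
  rw [Finset.sum_range_succ', Finset.sum_range_succ (fun k => z k * q ^ k), mul_add, Finset.mul_sum]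
  simp only [Nat.succ_ne_zero, Nat.succ_eq_add_one, add_tsub_cancel_right, if_false, if_true,
    zero_mul, add_zero, Nat.add_sub_cancel, pow_succ]
  rw [Finset.sum_congr rfl fun k _ => show z k * (q ^ k * q) = q * (z k * q ^ k) by ring]
  ring

/-- The exponents transform by `q` under `w`. -/
theorem ex_perm (h : Full D A) (hP : Valid P h.cert C Cy q₀ d) (q : ℤ) (s : Fin D.nroots) :
    P.ex D A q (wPerm h.cert (P.fins D) s : Fin D.nroots) =
      q * P.ex D A q s - P.coef D A s (D.rank - 1) * P.ord D q := by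
  have hsimple : ∀ i : Fin D.rank,
      P.ex D A q (wPerm h.cert (P.fins D) (smp h.cert i) : Fin D.nroots) =
        q * P.exS D q i - P.z i (D.rank - 1) * P.ord D q := by
    intro i
    have e : ∀ k ∈ Finset.range D.rank,
        P.coef D A (wPerm h.cert (P.fins D) (smp h.cert i) : Fin D.nroots) k * q ^ k =
          (if k = 0 then 0 else P.z i (k - 1)) * q ^ k +
            P.z i (D.rank - 1) * (P.cy.getD k 0 * q ^ k) := fun k hk => by
      rw [hP.rec' i ⟨k, Finset.mem_range.1 hk⟩]
      ring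
    rw [ex_eq, Finset.sum_congr rfl e, Finset.sum_add_distrib, ← Finset.mul_sum,
      sum_shift q (P.z i) hP.rank_pos, Data.ord, Data.exS]
    ring
  have e1 : P.ex D A q (wPerm h.cert (P.fins D) s : Fin D.nroots) = ∑ j : Fin D.rank,
      crd A j s * P.ex D A q (wPerm h.cert (P.fins D) (smp h.cert j) : Fin D.nroots) := by
    simp only [Data.ex, Finset.mul_sum]
    rw [Finset.sum_comm]
    refine Finset.sum_congr rfl fun i _ => ?_
    rw [wPerm_lin h (P.fins D) i.isLt s, Finset.sum_mul]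
    exact Finset.sum_congr rfl fun j _ => mul_assoc _ _ _
  rw [e1]
  simp only [hsimple]
  simp only [Data.ex, Data.coef, Finset.mul_sum, Finset.sum_mul, mul_sub, ← Finset.sum_sub_distrib]
  exact Finset.sum_congr rfl fun j _ => by ring

theorem abs_coef_le {hC : Cert D A} (hP : Valid P hC C Cy q₀ d) (s : Fin D.nroots) {k : ℕ}
    (hk : k < D.rank) : |P.coef D A s k| ≤ C := by
  have e := hP.coef_le
  simp only [Sparse.lall_eq, List.all_eq_true, List.mem_range, decide_eq_true_eq] at e
  have := e s s.isLt k hk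
  rw [Int.abs_eq_natAbs]
  exact_mod_cast this

theorem smallB_spec {hC : Cert D A} (hP : Valid P hC C Cy q₀ d) {q : ℕ} (h2 : 2 ≤ q) (hq : q < q₀) :
    (∀ s : Fin D.nroots, ¬ P.ord D q ∣ (Nat.gcd d (q - 1) : ℤ) * P.ex D A q s) ∧
    ∀ f : ℕ → ℕ, (∀ i < D.rank, f i < D.nroots ∧
        P.ord D q ∣ (Nat.gcd d (q - 1) : ℤ) * (P.ex D A q (f i) - P.exS D q i)) →
      (∀ i < D.rank, f i = D.simple i) ∨ ∃ s : Fin D.nroots, ∀ u : Fin D.nroots,
        ∃ i : Fin D.rank, crd A i u ≠ ∑ j : Fin D.rank, crd A j s * crd A i (f j) := by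
  have e := hP.small ⟨q, hq⟩ h2
  simp only [Data.smallB, Bool.and_eq_true, Sparse.lall_eq, List.all_eq_true, List.mem_range,
    Bool.not_eq_true', beq_eq_false_iff_ne, ne_eq, Bool.or_eq_true, beq_iff_eq,
    List.any_eq_true] at e
  refine ⟨fun s hs => e.1 s s.isLt (Int.emod_eq_zero_of_dvd hs), fun f hf => ?_⟩
  have hmem : (List.range D.rank).map f ∈ choices (P.cand D A (Nat.gcd d (q - 1)) q) (List.range D.rank) := by
    refine map_mem_choices fun i hi => ?_
    rw [List.mem_range] at hi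
    simp only [Data.cand, List.mem_filter, List.mem_range, beq_iff_eq]
    exact ⟨(hf i hi).1, Int.emod_eq_zero_of_dvd (hf i hi).2⟩
  rcases e.2 _ hmem with h1 | ⟨s, hs, h1⟩
  · refine Or.inl fun i hi => ?_
    exact List.map_inj_left.1 h1 i (List.mem_range.2 hi)
  · refine Or.inr ⟨⟨s, hs⟩, fun u => ?_⟩
    obtain ⟨i, hi, h2⟩ := h1 u u.isLt
    refine ⟨⟨i, hi⟩, fun hc => h2 ?_⟩
    rw [hc]
    rw [list_sum_range]
    exact Finset.sum_congr rfl fun j _ => by simp [List.getD_eq_getElem?_getD, j.isLt]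

theorem gcd_bounds {d q : ℕ} (hd : 0 < d) :
    (0 : ℤ) < (Nat.gcd d (q - 1) : ℤ) ∧ (Nat.gcd d (q - 1) : ℤ) ≤ d :=
  ⟨by exact_mod_cast Nat.gcd_pos_of_pos_left _ hd, by exact_mod_cast Nat.gcd_le_left _ hd⟩

theorem abs_mul_coef_le {g : ℤ} {C d : ℕ} {a : ℤ} (hgd : g ≤ d) (hg0 : 0 < g) (ha : |a| ≤ C) :
    |g * a| ≤ ((C * d : ℕ) : ℤ) := by
  rw [abs_mul, abs_of_pos hg0, Nat.cast_mul, mul_comm (C : ℤ)]
  exact mul_le_mul hgd ha (abs_nonneg a) (Int.natCast_nonneg d)

/-- No root has exponent `0`. -/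
theorem not_dvd_ex (h : Full D A) (hP : Valid P h.cert C Cy q₀ d) {q : ℕ} (hq : 2 ≤ q)
    (s : Fin D.nroots) : ¬ P.ord D q ∣ (Nat.gcd d (q - 1) : ℤ) * P.ex D A q s := by
  rcases lt_or_ge q q₀ with hlt | hge
  · exact (smallB_spec hP hq hlt).1 s
  intro hd
  rw [ex_eq, Finset.mul_sum, Finset.sum_congr rfl fun k _ => (mul_assoc _ _ _).symm] at hd
  obtain ⟨hg0, hgd⟩ := gcd_bounds (q := q) hP.exp_pos
  set g : ℤ := (Nat.gcd d (q - 1) : ℤ)
  have h0 := eq_zero_of_ord_dvd (B := ((C * d : ℕ) : ℤ)) (Cy := Cy) hP.rank_pos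
    (by have := hP.big; omega) (fun k hk => abs_mul_coef_le hgd hg0 (abs_coef_le hP s hk))
    (fun k hk => by rw [Int.abs_eq_natAbs]; exact_mod_cast hP.cy_le ⟨k, hk⟩) hd
  have hc : ∀ m : Fin D.rank, crd A m s = 0 := fun m => by
    rw [crd_eq_sum_coef h hP s m]
    exact Finset.sum_eq_zero fun k _ => by
      rw [(mul_eq_zero.1 (h0 k k.isLt)).resolve_left hg0.ne', zero_mul]
  have : phi D A s = 0 := List.sum_eq_zero fun z hz => by
    obtain ⟨i, hi, rfl⟩ := List.mem_map.1 hz
    rw [hc ⟨i, List.mem_range.1 hi⟩, mul_zero]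
  rcases h.pos.pos_or_neg s.isLt with hp | hn
  · exact absurd (h.pos.phi_pos hp) (by omega)
  · exact absurd (h.pos.phi_neg hn) (by omega)

/-- The exponents of the roots determine the elements of the Weyl group. -/
theorem perm_eq_one (h : Full D A) (hP : Valid P h.cert C Cy q₀ d) {q : ℕ} (hq : 2 ≤ q)
    {n : GL D.Idx F} {π : Equiv.Perm (Fin D.nroots)} {η : Fin D.nroots → F}
    (hA : Acts h.cert n π η)
    (he : ∀ s : Fin D.nroots,
      P.ord D q ∣ (Nat.gcd d (q - 1) : ℤ) * (P.ex D A q (π s) - P.ex D A q s)) : π = 1 := by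
  rcases lt_or_ge q q₀ with hlt | hge
  · let f : ℕ → ℕ := fun i => if hi : i < D.rank then (π (smp h.cert ⟨i, hi⟩) : Fin D.nroots) else 0
    have hf : ∀ i < D.rank, f i < D.nroots ∧
        P.ord D q ∣ (Nat.gcd d (q - 1) : ℤ) * (P.ex D A q (f i) - P.exS D q i) := by
      intro i hi
      simp only [f, dif_pos hi]
      refine ⟨Fin.isLt _, ?_⟩
      have e := he (smp h.cert ⟨i, hi⟩)
      have : P.ex D A q (smp h.cert ⟨i, hi⟩ : Fin D.nroots) = P.exS D q i := by
        rw [Data.ex, Finset.sum_eq_single ⟨i, hi⟩]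
        · simp [smp, crd_simple h.cert hi hi]
        · intro j _ hj
          simp [smp, crd_simple h.cert j.isLt hi, show (j : ℕ) ≠ i from fun e => hj (Fin.ext e)]
        · simp
      rwa [this] at e
    rcases (smallB_spec hP hq hlt).2 f hf with hid | ⟨s, hs⟩
    · refine Equiv.ext fun s => crd_ext h fun i hi => ?_
      rw [hA.lin i hi s, (acts_one (F := F) h.cert).lin i hi s]
      refine Finset.sum_congr rfl fun j _ => ?_
      have := hid j j.isLt
      simp only [f, dif_pos j.isLt] at this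
      rw [Equiv.Perm.one_apply, show π (smp h.cert j) = smp h.cert j from Fin.ext this]
    · obtain ⟨i, hi⟩ := hs (π s)
      exact absurd (hA.lin i i.isLt s) (by simpa [f] using hi)
  refine Equiv.ext fun s => crd_ext h fun m hm => ?_
  have hd := he s
  rw [ex_eq, ex_eq, ← Finset.sum_sub_distrib,
    Finset.sum_congr rfl fun k _ => (sub_mul _ _ _).symm, Finset.mul_sum,
    Finset.sum_congr rfl fun k _ => (mul_assoc _ _ _).symm] at hd
  obtain ⟨hg0, hgd⟩ := gcd_bounds (q := q) hP.exp_pos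
  set g : ℤ := (Nat.gcd d (q - 1) : ℤ)
  have h0 := eq_zero_of_ord_dvd (B := ((2 * C * d : ℕ) : ℤ)) (Cy := Cy) hP.rank_pos
    (by have := hP.big; rw [mul_assoc]; omega) (fun k hk => abs_mul_coef_le (C := 2 * C) hgd hg0
      ((abs_sub _ _).trans (by push_cast; linarith [abs_coef_le hP (π s) hk, abs_coef_le hP s hk])))
    (fun k hk => by rw [Int.abs_eq_natAbs]; exact_mod_cast hP.cy_le ⟨k, hk⟩) hd
  rw [Equiv.Perm.one_apply, crd_eq_sum_coef h hP (π s) ⟨m, hm⟩, crd_eq_sum_coef h hP s ⟨m, hm⟩]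
  exact Finset.sum_congr rfl fun k _ => by
    rw [sub_eq_zero.1 ((mul_eq_zero.1 (h0 k k.isLt)).resolve_left hg0.ne')]

end data

section main

universe u

variable {F : Type u} [Field F] [Fintype F]

/-- By Lang's theorem every element of the Weyl group gives a Frobenius coboundary. -/
theorem exists_twistWeyl (h : Full D A) {N : Fin D.rank → Fin D.rank → ℤ} {d : ℕ} (hd : 0 < d)
    (hN : ∀ i k, ∑ j, cartanMat D i j * N j k = if i = k then (d : ℤ) else 0)
    (l : List (Fin D.rank)) :
    ∃ σ : ChevalleyLang.Omega D F ≃ₐ[F] ChevalleyLang.Omega D F,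
      (∀ y, σ y = y ^ Fintype.card F) ∧ TwistWeyl h σ (wPerm h.cert l) := by
  obtain ⟨σ, hσ⟩ := ChevalleyLang.exists_frob (F := F) (Ω := ChevalleyLang.Omega D F)
  let σ' : ChevalleyLang.Omega D F ≃ₐ[F] ChevalleyLang.Omega D F :=
    AlgEquiv.ofRingEquiv (f := σ) fun x => by rw [hσ, ← map_pow, FiniteField.pow_card]
  obtain ⟨g, hg, e⟩ := ChevalleyLang.exists_lang h hd hN hσ
    (a := nW h.cert F l) (monomial_le_group h.cert (nW_mem_monomial h l))
  rw [push_nW] at e
  obtain ⟨η, hη⟩ := acts_nW (F := ChevalleyLang.Omega D F) h l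
  exact ⟨σ', hσ, g, hg, _, monomial_le_group h.cert (nW_mem_monomial h l), η,
    push_nW h.cert _ l, hη, (eq_mul_of_inv_mul_eq e).trans rfl⟩

variable {P : Data} {C Cy q₀ d : ℕ}

/-- The torus element of full order. -/
noncomputable def torusParam (P : Data) (D : ChevalleyDatum) {K : Type*} [Field K] (q : ℤ)
    (α : Kˣ) : Fin D.rank → Kˣ :=
  fun j => α ^ ∑ m ∈ Finset.range D.rank, P.e j m * q ^ m

theorem chi_torusParam (h : Full D A) (hP : Valid P h.cert C Cy q₀ d) {K : Type*} [Field K] (q : ℤ)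
    (α : Kˣ) (s : Fin D.nroots) : chi D s (torusParam P D q α) = α ^ ((d : ℤ) * P.ex D A q s) := by
  show ∏ k : Fin D.rank, (α ^ _) ^ D.cartan k s = _
  simp only [← _root_.zpow_mul]
  rw [← zpow_sum']
  congr 1
  simp only [Data.ex, Data.exS, cartan_eq_sum h _ s, Finset.mul_sum, Finset.sum_mul]
  rw [Finset.sum_comm]
  refine Finset.sum_congr rfl fun j _ => ?_
  rw [Finset.sum_comm]
  refine Finset.sum_congr rfl fun m hm => ?_
  rw [show (d : ℤ) * (crd A j s * (P.z j m * q ^ m)) = crd A j s * ((d : ℤ) * P.z j m * q ^ m) by ring,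
    ← hP.cartan_e j ⟨m, Finset.mem_range.1 hm⟩, Finset.sum_mul, Finset.mul_sum]
  exact Finset.sum_congr rfl fun k _ => by ring

/-- Every element of the twisted torus is given by its value at the first basis root. -/
theorem chi_twisted (h : Full D A) (hP : Valid P h.cert C Cy q₀ d) {K : Type*} [Field K] {q : ℕ}
    {c : Fin D.rank → Kˣ}
    (hc : ∀ s : Fin D.nroots, chi D (wPerm h.cert (P.fins D) s : Fin D.nroots) c = chi D s c ^ q) :
    (∀ s : Fin D.nroots, chi D s c = chi D (P.base.getD 0 0) c ^ P.ex D A q s) ∧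
      chi D (P.base.getD 0 0) c ^ P.ord D q = 1 := by
  set β := chi D (P.base.getD 0 0) c with hβ
  have hb : ∀ k : ℕ, k < D.rank → chi D (P.base.getD k 0) c = β ^ ((q : ℤ) ^ k) := by
    intro k
    induction k with
    | zero => intro _; rw [pow_zero, zpow_one]
    | succ k ih =>
      intro hk
      have e := hP.base_succ ⟨k, by omega⟩ ⟨_, hP.base_lt ⟨k, by omega⟩⟩ hk rfl
      rw [← e, hc, Fin.val_mk, ih (by omega), ← zpow_natCast, ← _root_.zpow_mul, pow_succ]
  have key : ∀ s : Fin D.nroots, chi D s c = β ^ P.ex D A q s := by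
    intro s
    rw [chi_eq_prod h s c]
    simp only [crd_eq_sum_coef h hP s, zpow_sum']
    rw [Finset.prod_comm, ex_eq, Finset.sum_range, zpow_sum']
    refine Finset.prod_congr rfl fun k _ => ?_
    rw [mul_comm, _root_.zpow_mul, ← hb k k.isLt, chi_eq_prod h ⟨_, hP.base_lt k⟩ c,
      ← Finset.prod_zpow]
    exact Finset.prod_congr rfl fun m _ => by rw [mul_comm, _root_.zpow_mul]
  refine ⟨key, ?_⟩
  let last : Fin D.rank := ⟨D.rank - 1, by have := hP.rank_pos; omega⟩
  let sl : Fin D.nroots := ⟨_, hP.base_lt last⟩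
  have e1 := key (wPerm h.cert (P.fins D) sl)
  rw [hc sl, key sl, ex_perm h hP, ← zpow_natCast, ← _root_.zpow_mul,
    show P.coef D A sl (D.rank - 1) = 1 from (hP.base_z last last).trans (if_pos rfl), one_mul,
    _root_.zpow_sub, mul_comm (q : ℤ)] at e1
  exact inv_eq_one.1 (by simpa using e1.symm)

/-- The twisted torus is a self-centralising cyclic subgroup of order `f(q)`. -/
theorem exists_selfCentralizing (h : Full D A) {N : Fin D.rank → Fin D.rank → ℤ}
    (hN : ∀ i k, ∑ j, cartanMat D i j * N j k = if i = k then 1 else 0)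
    (hP : Valid P h.cert C Cy q₀ 1) {m : ℕ} (hm : (m : ℤ) = P.ord D (Fintype.card F)) :
    ∃ H : Subgroup ↥(D.group F), IsCyclic ↥H ∧ Nat.card ↥H = m ∧
      Subgroup.centralizer (H : Set ↥(D.group F)) = H := by
  classical
  obtain ⟨σ, hσ, hw⟩ := exists_twistWeyl (F := F) h Nat.one_pos
    (by simpa using hN) (P.fins D)
  set Ω := ChevalleyLang.Omega D F
  set q := Fintype.card F with hqdef
  have hq : 2 ≤ q := Fintype.one_lt_card
  have hfix : ∀ y : Ω, σ y = y → ∃ x, algebraMap F Ω x = y := fun y hy =>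
    ChevalleyLang.exists_preimage ((hσ y).symm.trans hy)
  have hinj : Function.Injective (torusHom D Ω) := by
    rw [← MonoidHom.ker_eq_bot_iff, ker_torusHom h, MonoidHom.ker_eq_bot_iff]
    refine Function.HasLeftInverse.injective ⟨matPow N, fun c => ?_⟩
    rw [matPow_comp, show (fun i k => ∑ j, cartanMat D i j * N j k) =
      fun i k => if i = k then 1 else 0 from funext₂ hN, matPow_one]
  have hm0 : (m : Ω) ≠ 0 := by
    have hq0 : (q : Ω) = 0 := by
      rw [hqdef, ← map_natCast (algebraMap F Ω), FiniteField.cast_card_eq_zero, map_zero]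
    have e := congrArg (Int.castRingHom Ω) hm
    simp only [Data.ord, map_sub, map_pow, map_sum, map_mul, map_natCast, hq0,
      zero_pow hP.rank_pos.ne', zero_sub] at e
    rw [e, neg_ne_zero, Finset.sum_eq_single 0]
    · rw [pow_zero, mul_one]
      rcases Int.natAbs_eq (P.cy.getD 0 0) with e' | e' <;> rw [e', hP.cy_zero] <;> simp
    · intro k _ hk
      rw [zero_pow hk, mul_zero]
    · intro hk; exact absurd (Finset.mem_range.2 hP.rank_pos) hk
  haveI : NeZero (m : Ω) := ⟨hm0⟩
  haveI : NeZero m := ⟨fun e => hm0 (by rw [e, Nat.cast_zero])⟩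
  obtain ⟨ζ, hζ⟩ := HasEnoughRootsOfUnity.exists_primitiveRoot Ω m
  obtain ⟨α, hα⟩ := hζ.isUnit (NeZero.ne m)
  subst hα
  have hαm : orderOf α = m := (orderOf_units.symm.trans hζ.eq_orderOf.symm)
  have hord : ∀ z : ℤ, α ^ z = 1 ↔ P.ord D q ∣ z := fun z => by
    rw [← orderOf_dvd_iff_zpow_eq_one, hαm, hm]
  set c := torusParam P D q α
  have hchi : ∀ s : Fin D.nroots, chi D s c = α ^ P.ex D A q s := fun s => by
    rw [chi_torusParam h hP, Nat.cast_one, one_mul]
  have hr₀ : chi D (⟨_, hP.base_lt ⟨0, hP.rank_pos⟩⟩ : Fin D.nroots) c = α := by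
    rw [hchi, ex_base h hP]
    simp
  obtain ⟨H, h1, h2, h3⟩ := exists_selfCentralizing_of_twist h hinj hfix hσ hw c
    (fun s => by
      rw [hchi, hchi, ← zpow_natCast, ← _root_.zpow_mul, ex_perm h hP, _root_.zpow_sub,
        (hord _).2 (dvd_mul_left _ _), inv_one, mul_one, mul_comm])
    (fun s e => not_dvd_ex h hP hq s (by
      rw [Nat.gcd_one_left, Nat.cast_one, one_mul]
      exact (hord _).1 (by rw [← hchi]; exact e)))
    (fun n π η hA he => perm_eq_one h hP hq hA fun s => by
      rw [Nat.gcd_one_left, Nat.cast_one, one_mul]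
      exact (hord _).1 (by
      rw [_root_.zpow_sub, ← hchi, ← hchi, he, mul_inv_cancel]))
    (fun c' hc' => by
      obtain ⟨e1, e2⟩ := chi_twisted h hP hc'
      set β := chi D (P.base.getD 0 0) c'
      rw [← hm, zpow_natCast] at e2
      obtain ⟨j, -, hj⟩ := hζ.eq_pow_of_pow_eq_one
        (ξ := (β : Ω)) (by rw [← Units.val_pow_eq_pow_val, e2, Units.val_one])
      have hβ : β = α ^ (j : ℤ) := Units.ext (by rw [zpow_natCast, Units.val_pow_eq_pow_val, hj])
      exact ⟨j, fun s => by rw [e1, hchi, hβ, ← _root_.zpow_mul, ← _root_.zpow_mul, mul_comm]⟩)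
  refine ⟨H, h1, ?_, h3⟩
  rw [h2, orderOf_torusHom h (fun s => P.ex D A q s) hchi hr₀, hαm]

end main

end CfsgLib.KnownSimple.WeylTorus
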