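import Cfsg.Agent.Lib.KnownSimple.WeylTorus
import Cfsg.Agent.Lib.KnownSimple.SteinbergLift

/-!
The twisted torus when the centre of Steinberg's group has order `d > 1`: over the algebraic
closure the image of the finite group has index `gcd(d, q - 1)` in the fixed points, and so the
torus meets it in its subgroup of that index, which is still regular.
-/

set_option autoImplicit false
set_option linter.unusedSectionVars false

open Matrix

namespace CfsgLib.KnownSimple.WeylTorus

open Cfsg.Lie CfsgLib.Chevalley CfsgLib.Chevalley.Twist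
open CfsgLib.ReflectionsSpinor.ChevField (push push_nW push_torus push_mem_group push_injective)
open CfsgLib.KnownSimple.SteinbergLift (torP wTor)

variable {D : ChevalleyDatum} {A : Aux}

/-- The exponents of torus parameters moved by a fundamental reflection. -/
def expRefl (D : ChevalleyDatum) (i : Fin D.rank) (v : Fin D.rank → ℤ) : Fin D.rank → ℤ :=
  fun k => v k - if k = i then ∑ j, v j * D.cartan j (D.simple i) else 0

/-- The exponents moved by a word. -/
def expW (D : ChevalleyDatum) (l : List (Fin D.rank)) (v : Fin D.rank → ℤ) : Fin D.rank → ℤ :=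
  l.foldr (expRefl D) v

theorem wTor_zpow {K : Type*} [Field K] (α : Kˣ) (l : List (Fin D.rank)) (v : Fin D.rank → ℤ) :
    wTor D l (fun k => α ^ v k) = fun k => α ^ expW D l v k := by
  induction l with
  | nil => rfl
  | cons i l ih =>
    show reflTorus D i (wTor D l fun k => α ^ v k) = fun k => α ^ expRefl D i (expW D l v) k
    rw [ih]
    set u := expW D l v
    have hchi : chi D (D.simple i) (fun k => α ^ u k) = α ^ (∑ j, u j * D.cartan j (D.simple i)) := by
      show ∏ k : Fin D.rank, (α ^ u k) ^ D.cartan k (D.simple i) = _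
      rw [zpow_sum']
      exact Finset.prod_congr rfl fun k _ => (_root_.zpow_mul _ _ _).symm
    funext k
    rw [reflTorus, hchi, Pi.mul_apply, expRefl, _root_.zpow_sub]
    rcases eq_or_ne k i with rfl | hk
    · rw [Pi.mulSingle_eq_same, if_pos rfl]
    · rw [Pi.mulSingle_eq_of_ne hk, if_neg hk, _root_.zpow_zero, inv_one]

theorem expW_sum {ι : Type*} (l : List (Fin D.rank)) (s : Finset ι) (a : ι → ℤ)
    (v : ι → Fin D.rank → ℤ) :
    expW D l (fun k => ∑ m ∈ s, a m * v m k) = fun k => ∑ m ∈ s, a m * expW D l (v m) k := by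
  induction l with
  | nil => rfl
  | cons i l ih =>
    show expRefl D i (expW D l fun k => ∑ m ∈ s, a m * v m k) = _
    rw [ih]
    funext k
    show _ = ∑ m ∈ s, a m * expRefl D i (expW D l (v m)) k
    simp only [expRefl, mul_sub, Finset.sum_sub_distrib]
    congr 1
    rcases eq_or_ne k i with rfl | hk
    · simp only [if_true, Finset.sum_mul, Finset.mul_sum]
      rw [Finset.sum_comm]
      exact Finset.sum_congr rfl fun m _ => Finset.sum_congr rfl fun j _ => mul_assoc _ _ _
    · simp [hk]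

/-- The images of the parameters of the torus under `w`. -/
def Data.moved (P : Data) (D : ChevalleyDatum) (m : ℕ) : Fin D.rank → ℤ :=
  expW D (P.fins D) fun j => P.e j m

/-- At the node `w₀`, `q w(e) - e` is `mm` times the order. -/
structure LiftValid (P : Data) (D : ChevalleyDatum) (w₀ : Fin D.rank) (mm : ℤ) (d : ℕ) : Prop where
  /-- the identity -/
  step : ∀ k : Fin D.rank, (if (k : ℕ) = 0 then 0 else P.moved D ((k : ℕ) - 1) w₀) - P.e w₀ k =
    -(mm * P.cy.getD k 0)
  /-- the top coefficient -/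
  top : P.moved D (D.rank - 1) w₀ = mm
  /-- it is not divisible -/
  ndvd : ¬ (d : ℤ) ∣ mm

/-- A regular element of the torus is centralised only by the torus. -/
theorem mem_diagonal_of_commute (h : Full D A) {K : Type*} [Field K] {c : Fin D.rank → Kˣ}
    (h1 : ∀ s : Fin D.nroots, chi D s c ≠ 1)
    (hstab : ∀ (n : GL D.Idx K) (π : Equiv.Perm (Fin D.nroots)) (η : Fin D.nroots → K),
      Acts h.cert n π η → (∀ s : Fin D.nroots, chi D (π s) c = chi D s c) → π = 1)
    {y : GL D.Idx K} (hy : y ∈ D.group K) (hc : Commute (torusHom D K c) y) :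
    y ∈ D.diagonalSubgroup K := by
  obtain ⟨u, hu, m, hm, π, ηm, hAm, hchi, u', hu', e⟩ := exists_of_commute_torus h hy hc
  have htriv : rootsU D K {r | D.IsPosRoot r ∧ chi D r c = 1} ≤ ⊥ := by
    rw [rootsU_le_iff h.cert]
    intro r hr t
    exact absurd hr.2 (h1 ⟨r, hr.1.1⟩)
  rw [Subgroup.mem_bot.1 (htriv hu), Subgroup.mem_bot.1 (htriv hu'), one_mul, mul_one] at e
  have hπ := hstab m π ηm hAm hchi
  subst hπ
  exact e ▸ mem_diagonal_of_perm h hm hAm fun i => h.simple_pos i.isLt

section main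

universe u

variable {F : Type u} [Field F] [Fintype F] {P : Data} {C Cy q₀ d : ℕ}

theorem lift_exponent {w₀ : Fin D.rank} {mm : ℤ} (hr : 0 < D.rank) (hL : LiftValid P D w₀ mm d)
    (q : ℤ) :
    q * (∑ m ∈ Finset.range D.rank, q ^ m * P.moved D m w₀) -
      ∑ m ∈ Finset.range D.rank, P.e w₀ m * q ^ m = mm * P.ord D q := by
  have e := sum_shift q (fun m => P.moved D m w₀) hr
  rw [hL.top] at e
  have e2 : ∑ k ∈ Finset.range D.rank,
      ((if k = 0 then 0 else P.moved D (k - 1) w₀) - P.e w₀ k) * q ^ k =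
      -(mm * ∑ k ∈ Finset.range D.rank, P.cy.getD k 0 * q ^ k) := by
    rw [Finset.mul_sum, ← Finset.sum_neg_distrib]
    exact Finset.sum_congr rfl fun k hk => by rw [hL.step ⟨k, Finset.mem_range.1 hk⟩]; ring
  simp only [sub_mul, Finset.sum_sub_distrib] at e2
  rw [e] at e2
  simp only [Data.ord, mul_comm (q ^ _) (P.moved D _ w₀)]
  linear_combination e2

/-- The twisted torus meets the simple group in a self-centralising cyclic subgroup. -/
theorem exists_selfCentralizing_adjoint (h : Full D A) {N : Fin D.rank → Fin D.rank → ℤ}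
    (hN : ∀ i k, ∑ j, cartanMat D i j * N j k = if i = k then (d : ℤ) else 0) (hd : d.Prime)
    (hP : Valid P h.cert C Cy q₀ d) {w₀ : Fin D.rank} {mm : ℤ} (hL : LiftValid P D w₀ mm d)
    (hinjP : Function.Injective (torP (K := ChevalleyLang.Omega D F) h))
    {m : ℕ} (hm : (m : ℤ) = P.ord D (Fintype.card F)) :
    ∃ H : Subgroup ↥(D.group F), IsCyclic ↥H ∧
      Nat.card ↥H = m / Nat.gcd d (Fintype.card F - 1) ∧
      Subgroup.centralizer (H : Set ↥(D.group F)) = H := by
  classical
  set Ω := ChevalleyLang.Omega D F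
  set q := Fintype.card F with hqdef
  have hq : 2 ≤ q := Fintype.one_lt_card
  obtain ⟨σ, hσ⟩ := ChevalleyLang.exists_frob (F := F) (Ω := Ω)
  set i : F →+* Ω := algebraMap F Ω with hidef
  have hi : ∀ x, σ (i x) = i x := fun x => by rw [hσ, ← map_pow, FiniteField.pow_card]
  have hi' : ∀ y : Ω, σ y = y → ∃ x, i x = y := fun y hy =>
    ChevalleyLang.exists_preimage ((hσ y).symm.trans hy)
  set l := P.fins D
  obtain ⟨g, hg, e0⟩ := ChevalleyLang.exists_lang h hd.pos hN hσ (a := nW h.cert F l)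
    (monomial_le_group h.cert (nW_mem_monomial h l))
  rw [push_nW] at e0
  have hgn : push D σ.toRingHom g = g * nW h.cert Ω l := eq_mul_of_inv_mul_eq e0
  obtain ⟨η, hη⟩ := acts_nW (F := Ω) h l
  -- roots of unity
  have hq0 : (q : Ω) = 0 := by
    rw [hqdef, ← map_natCast i, FiniteField.cast_card_eq_zero, map_zero]
  have hm0 : (m : Ω) ≠ 0 := by
    have e := congrArg (Int.castRingHom Ω) hm
    simp only [Data.ord, map_sub, map_pow, map_sum, map_mul, map_natCast, hq0,
      zero_pow hP.rank_pos.ne', zero_sub] at e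
    rw [e, neg_ne_zero, Finset.sum_eq_single 0]
    · rw [pow_zero, mul_one]
      rcases Int.natAbs_eq (P.cy.getD 0 0) with e' | e' <;> rw [e', hP.cy_zero] <;> simp
    · intro k _ hk
      rw [zero_pow hk, mul_zero]
    · intro hk; exact absurd (Finset.mem_range.2 hP.rank_pos) hk
  haveI : NeZero (m : Ω) := ⟨hm0⟩
  haveI : NeZero m := ⟨fun e => hm0 (by rw [e, Nat.cast_zero])⟩
  set gg := Nat.gcd d (q - 1) with hgg
  have hggcases : gg = 1 ∨ (gg = d ∧ d ∣ q - 1) := by
    rcases (Nat.dvd_prime hd).1 (Nat.gcd_dvd_left d (q - 1)) with h1 | h1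
    · exact Or.inl h1
    · exact Or.inr ⟨h1, h1 ▸ Nat.gcd_dvd_right d (q - 1)⟩
  obtain ⟨α', hαm, hfull⟩ : ∃ α' : Ωˣ, orderOf (α' ^ d) = m ∧
      (gg = d → ∀ z : ℤ, α' ^ z = 1 → ((d * m : ℕ) : ℤ) ∣ z) := by
    rcases hggcases with h1 | ⟨h1, hdq⟩
    · obtain ⟨ζ, hζ⟩ := HasEnoughRootsOfUnity.exists_primitiveRoot Ω m
      obtain ⟨r, hr⟩ := IsAlgClosed.exists_pow_nat_eq ζ hd.pos
      have hr0 : r ≠ 0 := fun e => by
        rw [e, zero_pow hd.ne_zero] at hr
        exact hζ.ne_zero (NeZero.ne m) hr.symm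
      refine ⟨Units.mk0 r hr0, ?_, fun e => absurd (e.symm.trans h1) hd.ne_one⟩
      rw [← orderOf_units, Units.val_pow_eq_pow_val, Units.val_mk0, hr, ← hζ.eq_orderOf]
    · have hdΩ : (d : Ω) ≠ 0 := by
        intro e
        obtain ⟨k, hk⟩ := hdq
        have e1 : ((q - 1 : ℕ) : Ω) = 0 := by rw [hk, Nat.cast_mul, e, zero_mul]
        rw [Nat.cast_sub (by omega), hq0, Nat.cast_one, zero_sub, neg_eq_zero] at e1
        exact one_ne_zero e1
      haveI : NeZero ((d * m : ℕ) : Ω) := ⟨by rw [Nat.cast_mul]; exact mul_ne_zero hdΩ hm0⟩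
      obtain ⟨ζ, hζ⟩ := HasEnoughRootsOfUnity.exists_primitiveRoot Ω (d * m)
      obtain ⟨α', hα'⟩ := hζ.isUnit (mul_ne_zero hd.ne_zero (NeZero.ne m))
      subst hα'
      have ho : orderOf α' = d * m := orderOf_units.symm.trans hζ.eq_orderOf.symm
      refine ⟨α', ?_, fun _ z hz => ?_⟩
      · rw [orderOf_pow' _ hd.ne_zero, ho, Nat.gcd_mul_right_left, Nat.mul_div_cancel_left _ hd.pos]
      · rw [← ho]; exact orderOf_dvd_iff_zpow_eq_one.2 hz
  set α := α' ^ d with hαdef
  have hord : ∀ z : ℤ, α ^ z = 1 ↔ P.ord D q ∣ z := fun z => by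
    rw [← orderOf_dvd_iff_zpow_eq_one, hαm, hm]
  set c := torusParam P D (q : ℤ) α' with hcdef
  have hchi : ∀ s : Fin D.nroots, chi D s c = α ^ P.ex D A q s := fun s => by
    rw [hcdef, chi_torusParam h hP, _root_.zpow_mul, zpow_natCast]
  set T := torusHom D Ω c with hT
  have hσc : ∀ c' : Fin D.rank → Ωˣ, push D σ.toRingHom (torusHom D Ω c') =
      torusHom D Ω (c' ^ (q : ℤ)) := fun c' => by
    rw [push_torus]
    refine congrArg _ (funext fun k => Units.ext ?_)
    rw [zpow_natCast]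
    exact (hσ _).trans (Units.val_pow_eq_pow_val _ _).symm
  have hw : ∀ s : Fin D.nroots,
      chi D (wPerm h.cert l s : Fin D.nroots) c = chi D s c ^ q := fun s => by
    rw [hchi, hchi, ← zpow_natCast, ← _root_.zpow_mul, ex_perm h hP, _root_.zpow_sub,
      (hord _).2 (dvd_mul_left _ _), inv_one, mul_one, mul_comm]
  have hTn : nW h.cert Ω l * push D σ.toRingHom T * (nW h.cert Ω l)⁻¹ = T := by
    rw [hT, hσc, mul_inv_eq_iff_eq_mul]
    exact mul_torus_eq hη fun s => by rw [Twist.chi_zpow, hw, zpow_natCast]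
  have hTmem : g * T * g⁻¹ ∈ D.group Ω :=
    mul_mem (mul_mem hg (diagonal_le_group h.cert (torus_mem_diagonal h c))) (inv_mem hg)
  have hTfix : push D σ.toRingHom (g * T * g⁻¹) = g * T * g⁻¹ := by
    conv_rhs => rw [← hTn]
    rw [map_mul, map_mul, map_inv, hgn]
    group
  -- powers of the torus element in the finite group
  have hexcl : ∀ j : ℕ, (∃ g₀ ∈ D.group F, push D i g₀ = g * T ^ j * g⁻¹) → gg ∣ j := by
    rintro j ⟨g₀, hg₀, e⟩
    rcases hggcases with h1 | ⟨h1, hdq⟩
    · rw [h1]; exact one_dvd j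
    rw [hT, ← map_pow] at e
    have key := congrFun (SteinbergLift.wTor_eq_of_mem_range h hinjP hd.pos hN (by omega) hdq hσ hi
      hg hgn hg₀ e) w₀
    have hc1 : (c ^ j) ^ q = fun k : Fin D.rank => α' ^ (∑ x ∈ Finset.range D.rank,
        ((j : ℤ) * q * (q : ℤ) ^ x) * P.e k x) := funext fun k => by
      rw [Pi.pow_apply, Pi.pow_apply, hcdef, torusParam, ← zpow_natCast, ← zpow_natCast,
        ← _root_.zpow_mul, ← _root_.zpow_mul, Finset.sum_mul]
      exact congrArg _ (Finset.sum_congr rfl fun x _ => by ring)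
    rw [hc1, wTor_zpow, expW_sum, Pi.pow_apply, hcdef, torusParam, ← zpow_natCast,
      ← _root_.zpow_mul, ← div_eq_one, div_eq_mul_inv, ← _root_.zpow_sub] at key
    have e1 := hfull h1 _ key
    rw [show (∑ x ∈ Finset.range D.rank, ((j : ℤ) * q * (q : ℤ) ^ x) *
          expW D (P.fins D) (fun k => P.e k x) w₀) -
        (∑ x ∈ Finset.range D.rank, P.e w₀ x * (q : ℤ) ^ x) * (j : ℤ) =
        (j : ℤ) * (mm * P.ord D q) by
      rw [← lift_exponent hP.rank_pos hL, Finset.mul_sum, mul_sub, Finset.mul_sum, mul_comm (∑ _ ∈ _, _)]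
      exact congrArg (· - _) (Finset.sum_congr rfl fun x _ => by rw [Data.moved]; ring),
      Nat.cast_mul, ← hm, ← mul_assoc] at e1
    have e2 := Int.dvd_of_mul_dvd_mul_right (by exact_mod_cast NeZero.ne m) e1
    rcases (Nat.prime_iff_prime_int.1 hd).dvd_or_dvd e2 with h3 | h3
    · rw [h1]; exact Int.natCast_dvd_natCast.1 h3
    · exact absurd h3 hL.ndvd
  have hggdvd : gg ∣ m := by
    refine hexcl m ⟨1, one_mem _, ?_⟩
    have : T ^ m = 1 := by
      rw [hT, ← map_pow, ← map_one (torusHom D Ω)]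
      refine torusHom_eq_of_chi fun s => ?_
      rw [map_pow, map_one, hchi, ← zpow_natCast, ← _root_.zpow_mul, hord, ← hm]
      exact dvd_mul_left _ _
    rw [this, map_one, mul_one, mul_inv_cancel]
  obtain ⟨m', hm'⟩ := hggdvd
  have hgg0 : 0 < gg := Nat.gcd_pos_of_pos_left _ hd.pos
  have hgg0' : (gg : ℤ) ≠ 0 := by exact_mod_cast hgg0.ne'
  -- the element
  obtain ⟨x₀, hx₀, hx₀X⟩ := SteinbergLift.pow_mem_range h hinjP hN (by omega) hσ hi hi' hTmem hTfix
  rw [← hgg, conj_pow] at hx₀X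
  let φ : ↥(D.group F) →* GL D.Idx Ω := (push D i).comp (D.group F).subtype
  have hφ : Function.Injective φ := (push_injective _).comp Subtype.val_injective
  set x : ↥(D.group F) := ⟨x₀, hx₀⟩
  have hφx : φ x = g * T ^ gg * g⁻¹ := hx₀X
  have hTord : orderOf (T ^ gg) = m' := by
    have hTo : orderOf T = m := by
      rw [hT, orderOf_torusHom h (fun s => P.ex D A q s) hchi
        (r₀ := ⟨_, hP.base_lt ⟨0, hP.rank_pos⟩⟩) (by rw [hchi, ex_base h hP]; simp), hαm]
    rw [orderOf_pow' _ hgg0.ne', hTo, hm', Nat.gcd_mul_right_left, Nat.mul_div_cancel_left _ hgg0]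
  have hchiS : ∀ s : Fin D.nroots, chi D s (c ^ gg) = α ^ ((gg : ℤ) * P.ex D A q s) := fun s => by
    rw [map_pow, hchi, ← zpow_natCast, ← _root_.zpow_mul, mul_comm]
  refine ⟨Subgroup.zpowers x, inferInstance, ?_, le_antisymm ?_ ?_⟩
  · rw [Nat.card_zpowers, ← orderOf_injective φ hφ, hφx, hm', Nat.mul_div_cancel_left _ hgg0, ← hTord,
      ← MulEquiv.orderOf_eq (MulAut.conj g) (T ^ gg)]
    rfl
  · intro z hz
    have hzc : Commute (φ x) (φ z) :=
      Commute.map (show Commute x z from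
        Subgroup.mem_centralizer_iff.1 hz _ (Subgroup.mem_zpowers _)) φ
    set y := g⁻¹ * φ z * g with hy
    have hy' : φ z = g * y * g⁻¹ := by rw [hy]; group
    have hymem : y ∈ D.group Ω :=
      mul_mem (mul_mem (inv_mem hg) (push_mem_group h.cert _ z.2)) hg
    have hyc : Commute (T ^ gg) y := by
      have := hzc.map (MulAut.conj g⁻¹).toMonoidHom
      have e1 : (MulAut.conj g⁻¹).toMonoidHom (φ x) = T ^ gg := by
        show g⁻¹ * φ x * g⁻¹⁻¹ = T ^ gg
        rw [hφx]; group
      have e2 : (MulAut.conj g⁻¹).toMonoidHom (φ z) = y := by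
        show g⁻¹ * φ z * g⁻¹⁻¹ = y
        rw [hy, inv_inv]
      rwa [e1, e2] at this
    rw [hT, ← map_pow] at hyc
    have hmd := mem_diagonal_of_commute h
      (fun s e => not_dvd_ex h hP hq s ((hord _).1 (by rw [← hchiS]; exact e)))
      (fun n π η hA he => perm_eq_one h hP hq hA fun s => (hord _).1 (by
        rw [mul_sub, _root_.zpow_sub, ← hchiS, ← hchiS, he, mul_inv_cancel])) hymem hyc
    rw [diagonalSubgroup_eq_range h] at hmd
    obtain ⟨c', hc'⟩ := hmd
    have hzfix : push D σ.toRingHom (φ z) = φ z := Units.ext (by ext a b; exact hi _)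
    have hyfix : nW h.cert Ω l * push D σ.toRingHom y = y * nW h.cert Ω l := by
      rw [hy', map_mul, map_mul, map_inv, hgn] at hzfix
      have := congrArg (fun v => g⁻¹ * v * (g * nW h.cert Ω l)) hzfix
      simpa [mul_assoc] using this
    rw [← hc', hσc] at hyfix
    obtain ⟨e1, e2⟩ := chi_twisted h hP (q := q) (c := c') fun s => by
      rw [chi_of_mul_torus_eq hη hyfix s, Twist.chi_zpow, zpow_natCast]
    set β := chi D (P.base.getD 0 0) c'
    rw [← hm, zpow_natCast] at e2
    haveI : NeZero (orderOf (α : Ω)) := ⟨by rw [orderOf_units, hαm]; exact NeZero.ne m⟩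
    obtain ⟨j, -, hj⟩ := (IsPrimitiveRoot.orderOf (α : Ω)).eq_pow_of_pow_eq_one
      (ξ := (β : Ω)) (by rw [orderOf_units, hαm, ← Units.val_pow_eq_pow_val, e2, Units.val_one])
    have hβ : β = α ^ (j : ℤ) := Units.ext (by rw [zpow_natCast, Units.val_pow_eq_pow_val, hj])
    have hyT : y = T ^ j := by
      rw [← hc', hT, ← map_pow]
      refine torusHom_eq_of_chi fun s => ?_
      rw [e1, map_pow, hchi, hβ, ← zpow_natCast _ j, ← _root_.zpow_mul, ← _root_.zpow_mul, mul_comm]
    obtain ⟨k, hk⟩ := hexcl j ⟨z, z.2, by rw [← hyT, ← hy']; rfl⟩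
    refine Subgroup.mem_zpowers_iff.2 ⟨k, hφ ?_⟩
    rw [map_zpow, hφx, conj_zpow, hy', hyT, zpow_natCast, ← pow_mul, ← hk]
  · intro z hz
    rw [Subgroup.mem_centralizer_iff]
    intro y hy
    obtain ⟨i, rfl⟩ := Subgroup.mem_zpowers_iff.1 hz
    obtain ⟨j, rfl⟩ := Subgroup.mem_zpowers_iff.1 (SetLike.mem_coe.1 hy)
    exact ((Commute.refl _).zpow_zpow j i).eq

end main

end CfsgLib.KnownSimple.WeylTorus
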