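import Cfsg.Agent.Lib.KnownSimple.WeylTorusAdjoint
import Cfsg.Agent.Lib.Chevalley.CertAll
import Cfsg.Agent.Lib.Chevalley.PosData
import Cfsg.Agent.Lib.Chevalley.ExtraData
import Cfsg.Agent.Lib.SteinbergPres.RepE7

/-! The twisted torus of type E7 of the self-centralising subgroup. -/

set_option autoImplicit false
set_option maxRecDepth 100000

namespace CfsgLib.KnownSimple.WeylTorusE7

open Cfsg.Lie CfsgLib.Chevalley CfsgLib.KnownSimple.WeylTorus

theorem full : Full chevE7 auxE7 := ⟨⟨cert_E7, posE7, by simp⟩, extraE7⟩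

/-- 2 times the inverse of the Cartan matrix. -/
def inv' (i j : Fin chevE7.rank) : ℤ :=
  (([[4, 4, 6, 8, 6, 4, 2],
    [4, 7, 8, 12, 9, 6, 3],
    [6, 8, 12, 16, 12, 8, 4],
    [8, 12, 16, 24, 18, 12, 6],
    [6, 9, 12, 18, 15, 10, 5],
    [4, 6, 8, 12, 10, 8, 4],
    [2, 3, 4, 6, 5, 4, 3]] : List (List ℤ)).getD i []).getD j 0

theorem inv'_spec : ∀ i k : Fin chevE7.rank,
    ∑ j, cartanMat chevE7 i j * inv' j k = if i = k then ((2 : ℕ) : ℤ) else 0 := by decide +kernel

/-- The data of the Weyl element; `K` holds 2 times the exponents of the parameters. -/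
def data : Data where
  word := [4, 3, 2, 1, 6, 5, 6, 4, 5, 0, 3, 2, 6]
  Z := [[0, 0, -1, 0, 1, 0, 0],
    [0, 0, 0, -1, 0, 0, 0],
    [0, 0, 0, 0, -1, -1, 0],
    [0, -1, 0, 1, 0, 0, 0],
    [0, 1, 1, 0, 0, 1, 1],
    [-1, 0, 0, -1, 0, 0, -1],
    [1, 0, -1, 0, 0, 0, 0]]
  base := [28, 46, 27, 47, 48, 72, 100]
  cy := [-1, 0, 1, -1, -1, 1, 0]
  K := [[-2, -2, 0, 0, -2, 0, 2],
    [-3, -3, 2, -1, -4, 1, 3],
    [-4, -4, 2, 0, -6, 0, 4],
    [-6, -6, 4, 0, -8, 2, 6],
    [-5, -3, 4, -1, -6, 3, 5],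
    [-4, -2, 2, -2, -4, 2, 2],
    [-1, -1, 0, -1, -2, 1, 1]]

theorem z_base : ∀ i m : Fin chevE7.rank,
    (∑ k : Fin chevE7.rank, data.z i k * crd auxE7 m (data.base.getD k 0)) =
      if i = m then 1 else 0 := by decide +kernel

theorem base_z : ∀ k j : Fin chevE7.rank,
    data.coef chevE7 auxE7 (data.base.getD k 0) j = if k = j then 1 else 0 := by decide +kernel

theorem base_lt : ∀ k : Fin chevE7.rank, data.base.getD k 0 < chevE7.nroots := by decide +kernel

theorem base_succ' : ∀ k : Fin chevE7.rank, (k : ℕ) + 1 < chevE7.rank →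
    ((wPerm cert_E7 (data.fins chevE7) ⟨_, base_lt k⟩ : Fin chevE7.nroots) : ℕ) =
      data.base.getD (k + 1) 0 := by decide +kernel

theorem rec' : ∀ i k : Fin chevE7.rank,
    data.coef chevE7 auxE7 (wPerm cert_E7 (data.fins chevE7) (smp cert_E7 i) : Fin chevE7.nroots) k =
      (if (k : ℕ) = 0 then 0 else data.z i ((k : ℕ) - 1)) +
        data.z i (chevE7.rank - 1) * data.cy.getD k 0 := by decide +kernel

theorem coef_le : Sparse.lall (fun s => Sparse.lall
    (fun k => decide ((data.coef chevE7 auxE7 s k).natAbs ≤ 2)) (List.range chevE7.rank))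
    (List.range chevE7.nroots) = true := by decide +kernel

theorem small_2 : data.smallB chevE7 auxE7 (Nat.gcd 2 (2 - 1)) ((2 : ℕ) : ℤ) = true := by decide +kernel
theorem small_3 : data.smallB chevE7 auxE7 (Nat.gcd 2 (3 - 1)) ((3 : ℕ) : ℤ) = true := by decide +kernel
theorem small_4 : data.smallB chevE7 auxE7 (Nat.gcd 2 (4 - 1)) ((4 : ℕ) : ℤ) = true := by decide +kernel
theorem small_5 : data.smallB chevE7 auxE7 (Nat.gcd 2 (5 - 1)) ((5 : ℕ) : ℤ) = true := by decide +kernel
theorem small_6 : data.smallB chevE7 auxE7 (Nat.gcd 2 (6 - 1)) ((6 : ℕ) : ℤ) = true := by decide +kernel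
theorem small_7 : data.smallB chevE7 auxE7 (Nat.gcd 2 (7 - 1)) ((7 : ℕ) : ℤ) = true := by decide +kernel
theorem small_8 : data.smallB chevE7 auxE7 (Nat.gcd 2 (8 - 1)) ((8 : ℕ) : ℤ) = true := by decide +kernel
theorem small_9 : data.smallB chevE7 auxE7 (Nat.gcd 2 (9 - 1)) ((9 : ℕ) : ℤ) = true := by decide +kernel

set_option maxHeartbeats 2000000 in
theorem valid : Valid data full.cert 2 1 10 2 where
  base_lt := base_lt
  z_base := z_base
  base_z := base_z
  base_succ := fun k s hk hs => by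
    rw [show s = ⟨_, base_lt k⟩ from Fin.ext hs]
    exact base_succ' k hk
  rec' := rec'
  cartan_e := by decide +kernel
  coef_le := coef_le
  cy_le := by decide +kernel
  cy_zero := by decide +kernel
  small := fun q h2 => by
    obtain ⟨q, hq⟩ := q
    change 2 ≤ q at h2
    show data.smallB chevE7 auxE7 (Nat.gcd 2 (q - 1)) (q : ℤ) = true
    rcases (by omega : q = 2 ∨ q = 3 ∨ q = 4 ∨ q = 5 ∨ q = 6 ∨ q = 7 ∨ q = 8 ∨ q = 9) with rfl | rfl | rfl | rfl | rfl | rfl | rfl | rfl
    exacts [small_2, small_3, small_4, small_5, small_6, small_7, small_8, small_9]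
  big := le_rfl
  exp_pos := by norm_num
  rank_pos := by decide +kernel

/-- The node of the minuscule weight. -/
def node : Fin chevE7.rank := ⟨6, by decide +kernel⟩

theorem lift : LiftValid data chevE7 node 1 2 where
  step := by decide +kernel
  top := by decide +kernel
  ndvd := by decide

theorem torP_injective (K : Type*) [Field K] :
    Function.Injective (SteinbergLift.torP (K := K) full) :=
  SteinbergLift.torP_injective full CfsgLib.SteinbergPres.ctCertE7
    CfsgLib.SteinbergPres.checkRepE7 CfsgLib.SteinbergPres.weightE7 CfsgLib.SteinbergPres.muE7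

/-- The torus of order `(q⁴ − q² + 1)(q³ + 1)/gcd(2, q − 1)`. -/
theorem exists_selfCentralizing {F : Type*} [Field F] [Fintype F] {q : ℕ}
    (hF : Fintype.card F = q) :
    ∃ H : Subgroup ↥(chevE7.group F), IsCyclic ↥H ∧
      Nat.card ↥H = (q ^ 4 - q ^ 2 + 1) * (q ^ 3 + 1) / Nat.gcd 2 (q - 1) ∧
      Subgroup.centralizer (H : Set ↥(chevE7.group F)) = H := by
  subst hF
  refine exists_selfCentralizing_adjoint full inv'_spec Nat.prime_two valid lift
    (torP_injective _) ?_
  have h2 : Fintype.card F ^ 2 ≤ Fintype.card F ^ 4 :=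
    Nat.pow_le_pow_right Fintype.card_pos (by omega)
  generalize Fintype.card F = q at h2
  show _ = (q : ℤ) ^ 7 - ∑ k ∈ Finset.range 7,
    ([-1, 0, 1, -1, -1, 1, 0] : List ℤ).getD k 0 * (q : ℤ) ^ k
  push_cast [Nat.cast_sub h2]
  simp [Finset.sum_range_succ]
  ring

end CfsgLib.KnownSimple.WeylTorusE7
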