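import Cfsg.Agent.Lib.KnownSimple.WeylTorus
import Cfsg.Agent.Lib.Chevalley.CertAll
import Cfsg.Agent.Lib.Chevalley.PosData
import Cfsg.Agent.Lib.Chevalley.ExtraData

/-! The torus of a Coxeter element of type E8. -/

set_option autoImplicit false
set_option maxRecDepth 100000

namespace CfsgLib.KnownSimple.WeylTorusE8

open Cfsg.Lie CfsgLib.Chevalley CfsgLib.KnownSimple.WeylTorus

theorem full : Full chevE8 auxE8 := ⟨⟨cert_E8, posE8, by simp⟩, extraE8⟩

/-- The inverse of the Cartan matrix. -/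
def inv' (i j : Fin chevE8.rank) : ℤ :=
  (([[4, 5, 7, 10, 8, 6, 4, 2], [5, 8, 10, 15, 12, 9, 6, 3], [7, 10, 14, 20, 16, 12, 8, 4],
    [10, 15, 20, 30, 24, 18, 12, 6], [8, 12, 16, 24, 20, 15, 10, 5], [6, 9, 12, 18, 15, 12, 8, 4],
    [4, 6, 8, 12, 10, 8, 6, 3], [2, 3, 4, 6, 5, 4, 3, 2]] : List (List ℤ)).getD i []).getD j 0

theorem inv'_spec : ∀ i k : Fin chevE8.rank,
    ∑ j, cartanMat chevE8 i j * inv' j k = if i = k then 1 else 0 := by decide +kernel

/-- The data of the Coxeter element. -/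
def data : Data where
  word := [0, 1, 2, 3, 4, 5, 6, 7]
  Z := [[1, 1, -1, -1, 0, -1, 1, 1], [-1, 0, 0, 1, 0, 1, 0, -1], [-1, 0, 1, 0, 0, 1, -1, 0],
    [1, -1, 0, 0, 0, -1, 1, 0], [0, 1, -1, 0, 0, 0, -1, 1], [-1, -1, 1, 0, 1, 1, 0, -2],
    [2, 1, -1, -1, -2, -1, 1, 2], [-2, 0, 1, 1, 1, 0, -1, -1]]
  base := [0, 15, 21, 36, 78, 105, 169, 184]
  cy := [-1, -1, 0, 1, 1, 1, 0, -1]
  K := [[0, 0, -1, -1, 0, 0, 1, 1], [-1, -1, -1, 0, 0, 1, 1, 0], [-1, -1, -1, -1, 0, 1, 1, 1],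
    [-1, -2, -2, -1, 0, 1, 2, 1], [-1, -1, -2, -1, 0, 1, 1, 1], [-1, -1, -1, -1, 0, 1, 1, 0],
    [0, 0, -1, -1, -1, 0, 1, 1], [-1, 0, 0, 0, 0, 0, 0, 0]]

theorem z_base : ∀ i m : Fin chevE8.rank,
    (∑ k : Fin chevE8.rank, data.z i k * crd auxE8 m (data.base.getD k 0)) =
      if i = m then 1 else 0 := by decide +kernel

theorem base_z : ∀ k j : Fin chevE8.rank,
    data.coef chevE8 auxE8 (data.base.getD k 0) j = if k = j then 1 else 0 := by decide +kernel

theorem base_lt : ∀ k : Fin chevE8.rank, data.base.getD k 0 < chevE8.nroots := by decide +kernel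

theorem base_succ' : ∀ k : Fin chevE8.rank, (k : ℕ) + 1 < chevE8.rank →
    ((wPerm cert_E8 (data.fins chevE8) ⟨_, base_lt k⟩ : Fin chevE8.nroots) : ℕ) =
      data.base.getD (k + 1) 0 := by decide +kernel

theorem rec' : ∀ i k : Fin chevE8.rank,
    data.coef chevE8 auxE8 (wPerm cert_E8 (data.fins chevE8) (smp cert_E8 i) : Fin chevE8.nroots) k =
      (if (k : ℕ) = 0 then 0 else data.z i ((k : ℕ) - 1)) +
        data.z i (chevE8.rank - 1) * data.cy.getD k 0 := by decide +kernel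

theorem coef_le : Sparse.lall (fun s => Sparse.lall
    (fun k => decide ((data.coef chevE8 auxE8 s k).natAbs ≤ 2)) (List.range chevE8.rank))
    (List.range chevE8.nroots) = true := by decide +kernel

theorem small_two : data.smallB chevE8 auxE8 1 2 = true := by decide +kernel
theorem small_three : data.smallB chevE8 auxE8 1 3 = true := by decide +kernel
theorem small_four : data.smallB chevE8 auxE8 1 4 = true := by decide +kernel
theorem small_five : data.smallB chevE8 auxE8 1 5 = true := by decide +kernel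

theorem valid : Valid data full.cert 2 1 6 1 where
  base_lt := base_lt
  z_base := z_base
  base_z := base_z
  base_succ := fun k s hk hs => by
    rw [show s = ⟨_, base_lt k⟩ from Fin.ext hs]
    exact base_succ' k hk
  rec' := rec'
  cartan_e := by decide +kernel
  coef_le := coef_le
  cy_le := by decide +kernel
  cy_zero := by decide +kernel
  small := fun q h2 => by
    obtain ⟨q, hq⟩ := q
    change 2 ≤ q at h2
    rcases (by omega : q = 2 ∨ q = 3 ∨ q = 4 ∨ q = 5) with rfl | rfl | rfl | rfl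
    all_goals rw [Nat.gcd_one_left]
    exacts [small_two, small_three, small_four, small_five]
  big := le_rfl
  exp_pos := Nat.one_pos
  rank_pos := by decide +kernel

/-- The torus of order `q⁸ + q⁷ − q⁵ − q⁴ − q³ + q + 1`. -/
theorem exists_selfCentralizing {F : Type*} [Field F] [Fintype F] {q : ℕ}
    (hF : Fintype.card F = q) :
    ∃ H : Subgroup ↥(chevE8.group F), IsCyclic ↥H ∧
      Nat.card ↥H = q ^ 8 + q ^ 7 - q ^ 5 - q ^ 4 - q ^ 3 + q + 1 ∧
      Subgroup.centralizer (H : Set ↥(chevE8.group F)) = H := by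
  refine WeylTorus.exists_selfCentralizing full inv'_spec valid ?_
  rw [hF]
  have hq : 2 ≤ q := hF ▸ Fintype.one_lt_card
  have e : data.ord chevE8 q = (q : ℤ) ^ 8 + q ^ 7 - q ^ 5 - q ^ 4 - q ^ 3 + q + 1 := by
    show (q : ℤ) ^ 8 - ∑ k ∈ Finset.range 8, ([-1, -1, 0, 1, 1, 1, 0, -1] : List ℤ).getD k 0 * (q : ℤ) ^ k = _
    simp [Finset.sum_range_succ]
    ring
  have h5 : q ^ 5 ≤ q ^ 7 := Nat.pow_le_pow_right (by omega) (by omega)
  have h4 : q ^ 4 ≤ q ^ 7 := Nat.pow_le_pow_right (by omega) (by omega)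
  have h3 : q ^ 3 ≤ q ^ 7 := Nat.pow_le_pow_right (by omega) (by omega)
  have h8 : 2 * q ^ 7 ≤ q ^ 8 := by rw [pow_succ q 7, mul_comm]; gcongr
  rw [e, Nat.cast_add, Nat.cast_add, Nat.cast_sub (by omega), Nat.cast_sub (by omega),
    Nat.cast_sub (by omega)]
  push_cast
  ring

end CfsgLib.KnownSimple.WeylTorusE8
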